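import Mathlib
import Cfsg.Agent.Lib.SpTI.Even

/-!
# Invariant totally singular subspaces for isometries of odd prime order

The moved part is handled for any quadratic form (all characteristics); the fixed part enters as
a totally singular subspace of the fixed space given in advance.
-/

set_option autoImplicit false
set_option linter.unusedSimpArgs false
set_option linter.unusedVariables false
set_option linter.unusedSectionVars false

namespace Cfsg.Agent.Lib.OTS

open Module Polynomial Cfsg.Agent.Lib.IsomBlock QuadraticMap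
open Cfsg.Agent.Lib.SpTI (TI inv_sup ti_bot exists_simple_in fix_free_of_factor exists_common_zero frob_inv Fs typesOf mem_typesOf
  typesOf_mono exists_mem_Fs irr_of_mem_Fs dvd_of_mem_Fs ker_nd exists_ti_of_kill cyc_kill)

universe u

variable {F : Type*} [Field F] {V : Type u} [AddCommGroup V] [Module F V]
variable {Q : QuadraticForm F V} {T : V →ₗ[F] V}

/-- Totally singular subspaces. -/
def TS (Q : QuadraticForm F V) (W : Submodule F V) : Prop := ∀ w ∈ W, Q w = 0

theorem ts_bot : TS Q ⊥ := by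
  intro w hw
  rw [Submodule.mem_bot] at hw
  rw [hw, QuadraticMap.map_zero]

theorem TS.mono {W W' : Submodule F V} (h : TS Q W) (hle : W' ≤ W) : TS Q W' := fun a ha => h a (hle ha)

theorem polar_self_eq' (v : V) : polar Q v v = 2 * Q v := by
  rw [QuadraticMap.polar_self]
  simp [two_mul, two_smul]

theorem goodForm_polar (Q : QuadraticForm F V) : GoodForm (polarBilin Q) := by
  by_cases h2 : (2 : F) = 0
  · left
    intro v
    rw [polarBilin_apply_apply, polar_self_eq', h2, zero_mul]
  · right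
    exact ⟨h2, fun u v => by rw [polarBilin_apply_apply, polarBilin_apply_apply, polar_comm]⟩

theorem polar_iso (hQT : ∀ v, Q (T v) = Q v) (u v : V) : polarBilin Q (T u) (T v) = polarBilin Q u v := by
  rw [polarBilin_apply_apply, polarBilin_apply_apply, polar, polar, ← map_add, hQT, hQT, hQT]

theorem TS.ti {W : Submodule F V} (h : TS Q W) : TI (polarBilin Q) W := by
  intro a ha b hb
  rw [polarBilin_apply_apply, polar, h _ (W.add_mem ha hb), h a ha, h b hb]
  ring

theorem ts_sup {W W' : Submodule F V} (h : TS Q W) (h' : TS Q W') (horth : ∀ a ∈ W, ∀ b ∈ W', polarBilin Q a b = 0) :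
    TS Q (W ⊔ W') := by
  intro x hx
  obtain ⟨a, ha, b, hb, rfl⟩ := Submodule.mem_sup.mp hx
  have h1 : polar Q a b = 0 := by
    have := horth a ha b hb
    rwa [polarBilin_apply_apply] at this
  have h2 : Q (a + b) = Q a + Q b + polar Q a b := by
    rw [polar]
    ring
  rw [h2, h a ha, h' b hb, h1]
  ring

theorem ts_of_ti_char (h2 : (2 : F) ≠ 0) {W : Submodule F V} (h : TI (polarBilin Q) W) : TS Q W := by
  intro w hw
  have h1 := h w hw w hw
  rw [polarBilin_apply_apply, polar_self_eq'] at h1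
  exact (mul_eq_zero.mp h1).resolve_left h2

/-- Totally isotropic and fixed point free gives totally singular, in all characteristics. -/
theorem ts_of_ti_free [FiniteDimensional F V] (hQT : ∀ v, Q (T v) = Q v) {W : Submodule F V} (h : TI (polarBilin Q) W)
    (hinv : InvOn T W) (hfree : FixFree T W) : TS Q W := by
  by_cases h2 : (2 : F) = 0
  swap
  · exact ts_of_ti_char h2 h
  let S : W →ₗ[F] W := (T - LinearMap.id).restrict (fun u hu => W.sub_mem (hinv u hu) hu)
  have hSa : ∀ u : W, (S u : V) = T u - u := fun u => rfl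
  have hSi : Function.Injective S := by
    rw [injective_iff_map_eq_zero]
    intro u hu
    apply Subtype.ext
    have h3 : T (u : V) - u = 0 := by
      rw [← hSa, hu]
      rfl
    exact hfree u u.2 (sub_eq_zero.mp h3)
  have hSs : Function.Surjective S := LinearMap.injective_iff_surjective.mp hSi
  intro w hw
  obtain ⟨y, hy⟩ := hSs ⟨w, hw⟩
  have h3 : w = T y - y := by
    rw [← hSa, hy]
  have h4 : polar Q (T y) (y : V) = 0 := by
    have := h (T y) (hinv y y.2) y y.2
    rwa [polarBilin_apply_apply] at this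
  have h5 : Q (T y - y) = Q (T y) + Q y - polar Q (T y) y := by
    have h7 : Q (T y + -(y : V)) = Q (T y) + Q (-(y : V)) + polar Q (T y) (-(y : V)) := by
      rw [polar]
      ring
    rw [sub_eq_add_neg, h7, QuadraticMap.map_neg, QuadraticMap.polar_neg_right]
    ring
  rw [h3, h5, h4, hQT]
  have h6 : Q (y : V) + Q y = 2 * Q y := by ring
  rw [sub_zero, h6, h2, zero_mul]

section general

theorem anti_or_symm' {B : V →ₗ[F] V →ₗ[F] F} (hB : GoodForm B) {W W' : Submodule F V} (h : TI B W) (h' : TI B W')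
    (horth : ∀ a ∈ W, ∀ b ∈ W', B a b = 0) : TI B (W ⊔ W') := by
  intro x hx y hy
  obtain ⟨a, ha, b, hb, rfl⟩ := Submodule.mem_sup.mp hx
  obtain ⟨c, hc, e, he, rfl⟩ := Submodule.mem_sup.mp hy
  simp only [map_add, LinearMap.add_apply, h a ha c hc, horth a ha e he, h' b hb e he, add_zero, zero_add]
  exact hB.refl (horth c hc b hb)

variable [FiniteDimensional F V]

/-- Bound for totally isotropic subspaces of a nondegenerate form. -/
theorem ti_bound' {B : V →ₗ[F] V →ₗ[F] F} (hB : GoodForm B) (hnd : ∀ v, (∀ w, B v w = 0) → v = 0) {W : Submodule F V} (hW : TI B W) :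
    2 * finrank F W ≤ finrank F V := by
  have hN : LinearMap.BilinForm.Nondegenerate (B : LinearMap.BilinForm F V) := by
    constructor
    · intro u hu
      exact hnd u hu
    · intro u hu
      apply hnd u
      intro w
      exact hB.refl (hu w)
  have h1 := LinearMap.BilinForm.finrank_orthogonal hN W
  have hle : W ≤ LinearMap.BilinForm.orthogonal (B : LinearMap.BilinForm F V) W := by
    intro v hv
    rw [LinearMap.BilinForm.mem_orthogonal_iff]
    intro w hw
    exact hW w hw v hv
  have h2 := Submodule.finrank_mono hle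
  have h3 := Submodule.finrank_le W
  omega

/-- The bound inside a nondegenerate subspace. -/
theorem ti_bound_on' {B : V →ₗ[F] V →ₗ[F] F} (hB : GoodForm B) {U W : Submodule F V} (hU : NDOn B U) (hWU : W ≤ U) (hW : TI B W) :
    2 * finrank F W ≤ finrank F U := by
  let B' : U →ₗ[F] U →ₗ[F] F := B.compl₁₂ U.subtype U.subtype
  have hB' : GoodForm B' := by
    rcases hB with h | ⟨h1, h2⟩
    · exact Or.inl fun v => h v
    · exact Or.inr ⟨h1, fun u v => h2 u v⟩
  have h := ti_bound' (B := B') hB' (fun v hv => Subtype.ext (hU v v.2 fun w hw => hv ⟨w, hw⟩))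
    (W := W.comap U.subtype) (fun a ha b hb => hW a ha b hb)
  have e : finrank F (W.comap U.subtype) = finrank F W := (Submodule.comapSubtypeEquivOfLe hWU).finrank_eq
  rwa [e] at h

end general

section block

variable [FiniteDimensional F V] [Fintype F] {r q : ℕ}

/-- In a block, for `i` odd, there is a totally singular invariant subspace of dimension `i`. -/
theorem block_ts_odd [hrf : Fact r.Prime] (hq : Fintype.card F = q) (hr2 : r ≠ 2) (hrF : (r : F) ≠ 0)
    (hQT : ∀ v, Q (T v) = Q v) (hTr : T ^ r = 1) (hodd : ¬ Even (orderOf (q : ZMod r))) {W : Submodule F V} (hWinv : InvOn T W)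
    (hfree : FixFree T W) (hW0 : W ≠ ⊥) :
    ∃ A ≤ W, InvOn T A ∧ TS Q A ∧ finrank F A = orderOf (q : ZMod r) := by
  have hB := goodForm_polar Q
  have hiso := polar_iso hQT
  obtain ⟨h, hh, hhd, U, hUW, hUinv, hUfin, hUk, hUs⟩ := exists_simple_in hq hrF hTr hWinv hfree hW0
  have hUfree : FixFree T U := fun u hu hfix => hfree u (hUW hu) hfix
  refine ⟨U, hUW, hUinv, ?_, hUfin⟩
  rcases rad_dichotomy hB hiso hrf.out.ne_zero hTr hUinv hUs with hnd | hti
  · exfalso
    apply hodd
    rw [← hUfin]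
    exact even_of_fixfree hB hiso (hrf.out.odd_of_ne_two hr2) hTr hnd hUinv hUfree
  · exact ts_of_ti_free hQT hti hUinv hUfree

/-- Totally singular invariant subspaces, `i` odd. -/
theorem exists_ts_odd [hrf : Fact r.Prime] (hq : Fintype.card F = q) (hr2 : r ≠ 2) (hrF : (r : F) ≠ 0)
    (hQT : ∀ v, Q (T v) = Q v) (hTr : T ^ r = 1) (hodd : ¬ Even (orderOf (q : ZMod r))) :
    ∀ (e : ℕ) (U W₀ : Submodule F V), NDOn (polarBilin Q) U → InvOn T U → finrank F (fixS T U) + e * (2 * orderOf (q : ZMod r)) ≤ finrank F U →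
      W₀ ≤ fixS T U → TS Q W₀ → ∃ W ≤ U, InvOn T W ∧ TS Q W ∧ finrank F W = e * orderOf (q : ZMod r) + finrank F W₀ := by
  have hr0 : r ≠ 0 := hrf.out.ne_zero
  have hB := goodForm_polar Q
  have hiso := polar_iso hQT
  have hipos := orderOf_pos' hq hrF
  intro e
  induction e with
  | zero =>
    intro U W₀ hU hinv hle hW₀ hts
    refine ⟨W₀, hW₀.trans (fixS_le U), ?_, hts, by rw [zero_mul, zero_add]⟩
    intro w hw
    rw [(mem_fixS.mp (hW₀ hw)).2]
    exact hw
  | succ e ih =>
    intro U W₀ hU hinv hle hW₀ hts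
    have hmove : ∃ u ∈ U, T u ≠ u := by
      by_contra hall
      push Not at hall
      have h1 : fixS T U = U := le_antisymm (fixS_le U) fun u hu => mem_fixS.mpr ⟨hu, hall u hu⟩
      rw [h1] at hle
      have : 0 < (e + 1) * (2 * orderOf (q : ZMod r)) := by positivity
      omega
    obtain ⟨W₁, hW₁U, hW₁inv, hW₁nd, hW₁free, hW₁fin⟩ := exists_block_rel hq hr2 hrF hB hiso hTr hU hinv hmove
    rw [if_neg hodd] at hW₁fin
    have hW₁0 : W₁ ≠ ⊥ := by
      rintro rfl
      rw [finrank_bot] at hW₁fin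
      omega
    obtain ⟨A, hAW, hAinv, hAti, hAfin⟩ := block_ts_odd hq hr2 hrF hQT hTr hodd hW₁inv hW₁free hW₁0
    have h1 := finrank_rel hB hW₁U hW₁nd
    have hfx := Cfsg.Agent.S5961.fixS_rel_of_free (B := polarBilin Q) (U := U) hiso hW₁inv hW₁free
    obtain ⟨W', hW'U, hW'inv, hW'ti, hW'fin⟩ := ih (U ⊓ perp (polarBilin Q) W₁) W₀ (nd_rel hB hW₁U hW₁nd hU) (inv_inf hinv (inv_perp hiso hr0 hTr hW₁inv))
      (by
        rw [hfx]
        rw [Nat.succ_mul] at hle
        omega)
      (by rw [hfx]; exact hW₀) hts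
    have horth : ∀ a ∈ A, ∀ c ∈ W', polarBilin Q a c = 0 := fun a ha c hc => (hW'U hc).2 a (hAW ha)
    have hdisj : A ⊓ W' = ⊥ := by
      have h2 := disjoint_of_orth hB hW₁nd (W' := W') (fun a ha c hc => (hW'U hc).2 a ha)
      exact (h2.mono_left hAW).eq_bot
    refine ⟨A ⊔ W', sup_le (hAW.trans hW₁U) (hW'U.trans inf_le_left), inv_sup hAinv hW'inv, ts_sup hAti hW'ti horth, ?_⟩
    have h3 := Submodule.finrank_sup_add_finrank_inf_eq A W'
    rw [hdisj, finrank_bot, add_zero, hAfin, hW'fin] at h3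
    rw [h3, Nat.succ_mul]
    ring

/-- `T ^ k` is adjoint to its inverse power. -/
theorem form_adj_pow {B : V →ₗ[F] V →ₗ[F] F} (hiso : ∀ u v, B (T u) (T v) = B u v) (hr0 : r ≠ 0) (hTr : T ^ r = 1) (k : ℕ) (a c : V) :
    B ((T ^ k) a) c = B a (((T ^ (r - 1)) ^ k) c) := by
  have h1 := form_aeval hiso hr0 hTr (X ^ k) a c
  simpa using h1

/-- The generic construction, symmetric forms. -/
theorem exists_ti_of_kill_sym [hrf : Fact r.Prime] (hq : Fintype.card F = q) (hr2 : r ≠ 2) (hrF : (r : F) ≠ 0) {B : V →ₗ[F] V →ₗ[F] F}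
    (h2 : (2 : F) ≠ 0) (hsym : ∀ u v, B u v = B v u)
    (hiso : ∀ u v, B (T u) (T v) = B u v) (hTr : T ^ r = 1) {e : ℕ} (hi : orderOf (q : ZMod r) = 2 * e) (he : 0 < e)
    {h : F[X]} (hh : Irreducible h) (hhd : h ∣ cyclotomic r F) {P : Submodule F V} (hPinv : InvOn T P) (hPk : ∀ u ∈ P, aeval T h u = 0)
    (hPdim : 4 * e ≤ finrank F P) :
    ∃ A ≤ P, InvOn T A ∧ TI B A ∧ finrank F A = 2 * e := by
  classical
  have hr0 : r ≠ 0 := hrf.out.ne_zero
  have hdeg : h.natDegree = 2 * e := by
    rw [natDegree_factor hq hrF h hh hhd, hi]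
  have hq0 : q ≠ 0 := by
    rw [← hq]
    exact Fintype.card_ne_zero
  set y := T ^ (r - 1) with hy
  have hTy : T * y = 1 := T_mul_inv hr0 hTr
  have hyT : y * T = 1 := inv_mul_T hr0 hTr
  have hcomm : Commute T y := by
    rw [hy]
    exact (Commute.refl T).pow_right _
  have hadj : ∀ (k : ℕ) (a c : V), B ((T ^ k) a) c = B a ((y ^ k) c) := form_adj_pow hiso hr0 hTr
  -- the vector
  obtain ⟨v, hvP, hv0, hvk⟩ : ∃ v ∈ P, v ≠ 0 ∧ ∀ k, k ≤ e → B v ((T ^ k) v) = 0 := by
    by_cases he1 : e = 1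
    · subst he1
      -- degree two
      obtain ⟨⟨v, hvP⟩, hv0, hv⟩ := exists_common_zero (V := P) (κ := Fin 1) (fun k => B.domRestrict₁₂ P P)
        (by simp; omega)
      have hv0' : v ≠ 0 := fun h0 => hv0 (Subtype.ext h0)
      have hvv : B v v = 0 := hv 0
      refine ⟨v, hvP, hv0', ?_⟩
      have hSh : ∀ u ∈ P, aeval y h u = 0 := by
        intro u hu
        rw [hy, ← frob_inv hq hTr hi he]
        exact aeval_frob hq h 1 hq0 u (hPk u hu)
      have hexp : ∀ (Z : V →ₗ[F] V) (u : V), aeval Z h u = h.coeff 0 • u + h.coeff 1 • Z u + h.coeff 2 • (Z * Z) u := by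
        intro Z u
        rw [aeval_eq_sum_range, hdeg]
        simp [Finset.sum_range_succ, LinearMap.add_apply, LinearMap.smul_apply, pow_two]
      have hcoef : h.coeff 2 ≠ 0 := by
        have h3 := leadingCoeff_ne_zero.mpr hh.ne_zero
        rwa [leadingCoeff, hdeg] at h3
      -- compare `h` and its mirror image
      have hTv : T v ≠ v := fun hfix => hv0' (fix_free_of_factor hrF hhd v (hPk v hvP) hfix)
      have hTTv : (T * T) v ≠ v := by
        intro hfix
        apply hTv
        obtain ⟨l, hl⟩ := hrf.out.odd_of_ne_two hr2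
        have hpw : ∀ n : ℕ, ((T * T) ^ n) v = v := by
          intro n
          induction n with
          | zero => simp
          | succ n ih => rw [pow_succ, Module.End.mul_apply, hfix, ih]
        have h6 : T ^ (r + 1) = T := by rw [pow_succ, hTr, one_mul]
        rw [hl, show 2 * l + 1 + 1 = 2 * (l + 1) by ring, pow_mul, pow_two, pow_succ] at h6
        have h5 : T v = ((T * T) ^ l * (T * T)) v := by rw [h6]
        rw [h5, Module.End.mul_apply, hfix, hpw]
      have hvT2 : (T * T) v ∈ P := hPinv _ (hPinv v hvP)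
      have hI := hPk v hvP
      rw [hexp] at hI
      have hII := hSh _ hvT2
      rw [hexp] at hII
      have hy1 : ∀ u, y (T u) = u := fun u => LinearMap.congr_fun hyT u
      have hy2 : ∀ u, T (y u) = u := fun u => LinearMap.congr_fun hTy u
      have e1 : y ((T * T) v) = T v := by
        rw [Module.End.mul_apply, hy1]
      have e2 : (y * y) ((T * T) v) = v := by
        rw [Module.End.mul_apply, e1, hy1]
      rw [e1, e2] at hII
      have hco : h.coeff 0 = h.coeff 2 := by
        have h7 : (h.coeff 0 - h.coeff 2) • ((T * T) v - v) = 0 := by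
          have h8 := sub_eq_zero.mpr (hII.trans hI.symm)
          rw [← h8]
          simp only [smul_sub, sub_smul]
          abel
        rcases smul_eq_zero.mp h7 with h9 | h9
        · exact sub_eq_zero.mp h9
        · exact absurd (sub_eq_zero.mp h9) hTTv
      -- now the vector `y v`
      have hyvP : y v ∈ P := by
        rw [hy]
        exact inv_pow hPinv _ hvP
      have hIII := hPk _ hyvP
      rw [hexp, hy2 v, ← hco] at hIII
      have e3 : (T * T) (y v) = T v := by
        rw [Module.End.mul_apply, hy2]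
      rw [e3] at hIII
      have h10 := congrArg (B v) hIII
      simp only [map_add, map_smul, map_zero, smul_eq_mul, hvv, mul_zero, add_zero] at h10
      have h11 : B v (y v) = B v (T v) := by
        have h12 := hadj 1 v v
        simp only [pow_one] at h12
        rw [← h12, hsym]
      rw [h11] at h10
      have h13 : B v (T v) = 0 := by
        have h14 : (2 * h.coeff 0) * B v (T v) = 0 := by linear_combination h10
        have h15 : h.coeff 0 ≠ 0 := by rw [hco]; exact hcoef
        exact (mul_eq_zero.mp h14).resolve_left (mul_ne_zero h2 h15)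
      intro k hk
      interval_cases k
      · simpa using hvv
      · simpa using h13
    · have he2 : 2 ≤ e := by omega
      obtain ⟨⟨v, hvP⟩, hv0, hv⟩ := exists_common_zero (V := P) (κ := Fin (e + 1)) (fun k => (B.compl₂ (T ^ (k : ℕ))).domRestrict₁₂ P P)
        (by simp; omega)
      have hv0' : v ≠ 0 := fun h0 => hv0 (Subtype.ext h0)
      exact ⟨v, hvP, hv0', fun k hk => hv ⟨k, by omega⟩⟩
  have hvy : ∀ k, k ≤ e → B v ((y ^ k) v) = 0 := by
    intro k hk
    rw [← hadj, hsym, hvk k hk]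
  set u₀ := (y ^ e) v with hu₀
  have hu₀P : u₀ ∈ P := by
    rw [hu₀, hy, ← pow_mul]
    exact inv_pow hPinv _ hvP
  have hTe : (T ^ e) u₀ = v := by
    rw [hu₀, ← Module.End.mul_apply, ← hcomm.mul_pow, hTy, one_pow]
    rfl
  have hj : ∀ j, j < 2 * e → B v ((T ^ j) u₀) = 0 := by
    intro j hjlt
    rcases le_total e j with hje | hje
    · obtain ⟨l, rfl⟩ := Nat.exists_eq_add_of_le hje
      have h1 : (T ^ (e + l)) u₀ = (T ^ l) v := by
        rw [add_comm, pow_add, Module.End.mul_apply, hTe]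
      rw [h1]
      exact hvk l (by omega)
    · obtain ⟨l, rfl⟩ := Nat.exists_eq_add_of_le hje
      have h1 : (T ^ j) u₀ = (y ^ l) v := by
        rw [hu₀, pow_add, ← Module.End.mul_apply, ← mul_assoc, ← hcomm.mul_pow, hTy, one_pow, one_mul]
      rw [h1]
      exact hvy l (by omega)
  have hhu : aeval T h u₀ = 0 := hPk u₀ hu₀P
  have hall : ∀ g : F[X], B v (aeval T g u₀) = 0 := by
    intro g
    have h1 : g = h * (g / h) + g % h := (EuclideanDomain.div_add_mod g h).symm
    have h2 : aeval T g u₀ = aeval T (g % h) u₀ := by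
      conv_lhs => rw [h1]
      rw [map_add, LinearMap.add_apply, mul_comm, aeval_mul_apply, hhu, map_zero, zero_add]
    rw [h2]
    have h3 : (g % h).natDegree < 2 * e := by
      by_cases h0 : g % h = 0
      · rw [h0, natDegree_zero]
        omega
      · rw [← hdeg]
        exact natDegree_lt_natDegree h0 (degree_mod_lt g hh.ne_zero)
    rw [aeval_eq_sum_range' h3, LinearMap.sum_apply, map_sum]
    apply Finset.sum_eq_zero
    intro j hjm
    rw [LinearMap.smul_apply, map_smul, hj j (Finset.mem_range.mp hjm), smul_zero]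
  have hall' : ∀ g : F[X], B v (aeval T g v) = 0 := by
    intro g
    have h1 : aeval T g v = aeval T (g * X ^ e) u₀ := by
      rw [aeval_mul_apply]
      congr 1
      simp [hTe]
    rw [h1]
    exact hall _
  obtain ⟨U, hvU, hUinv, hUfin, hUk, hUgen, hUs⟩ := exists_irr_span T h hh v hv0 (hPk v hvP)
  refine ⟨U, ?_, hUinv, ?_, by rw [hUfin, hdeg]⟩
  · intro u hu
    obtain ⟨g, rfl⟩ := hUgen u hu
    exact inv_aeval T hPinv g hvP
  · intro a ha c hc
    obtain ⟨g₁, rfl⟩ := hUgen a ha
    obtain ⟨g₂, rfl⟩ := hUgen c hc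
    rw [form_aeval hiso hr0 hTr]
    have h1 : aeval (T ^ (r - 1)) g₁ = aeval T (g₁.comp (X ^ (r - 1))) := by
      rw [aeval_comp]
      simp
    rw [h1, ← aeval_mul_apply]
    exact hall' _

/-- The generic construction for quadratic forms, all characteristics. -/
theorem exists_ts_of_kill [hrf : Fact r.Prime] (hq : Fintype.card F = q) (hr2 : r ≠ 2) (hrF : (r : F) ≠ 0)
    (hQT : ∀ v, Q (T v) = Q v) (hTr : T ^ r = 1) {e : ℕ} (hi : orderOf (q : ZMod r) = 2 * e) (he : 0 < e)
    {h : F[X]} (hh : Irreducible h) (hhd : h ∣ cyclotomic r F) {P : Submodule F V} (hPinv : InvOn T P) (hPk : ∀ u ∈ P, aeval T h u = 0)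
    (hPdim : 4 * e ≤ finrank F P) :
    ∃ A ≤ P, InvOn T A ∧ TS Q A ∧ finrank F A = 2 * e := by
  have hiso := polar_iso hQT
  have hfree : FixFree T P := fun u hu hfix => fix_free_of_factor hrF hhd u (hPk u hu) hfix
  have hfin : ∃ A ≤ P, InvOn T A ∧ TI (polarBilin Q) A ∧ finrank F A = 2 * e := by
    by_cases h2 : (2 : F) = 0
    · refine exists_ti_of_kill hq hrF ?_ hiso hTr hi he hh hhd hPinv hPk (by omega)
      intro v
      rw [polarBilin_apply_apply, polar_self_eq', h2, zero_mul]
    · exact exists_ti_of_kill_sym hq hr2 hrF h2 (fun u v => by rw [polarBilin_apply_apply, polarBilin_apply_apply, polar_comm]) hiso hTr hi he hh hhd hPinv hPk hPdim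
  obtain ⟨A, hAP, hAinv, hAti, hAfin⟩ := hfin
  exact ⟨A, hAP, hAinv, ts_of_ti_free hQT hAti hAinv (fun u hu hfix => hfree u (hAP hu) hfix), hAfin⟩

/-- Totally singular invariant subspaces, `i` even. -/
theorem exists_ts_even [hrf : Fact r.Prime] (hq : Fintype.card F = q) (hr2 : r ≠ 2) (hrF : (r : F) ≠ 0)
    (hQT : ∀ v, Q (T v) = Q v) (hTr : T ^ r = 1) {e : ℕ} (hi : orderOf (q : ZMod r) = 2 * e) (he : 0 < e) :
    ∀ (n : ℕ) (U W₀ : Submodule F V) (s a : ℕ), finrank F U = n → NDOn (polarBilin Q) U → InvOn T U → finrank F U = finrank F (fixS T U) + s * (2 * e) →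
      (a = 0 ∨ (typesOf T r U).card + 2 * a ≤ s + 1) → W₀ ≤ fixS T U → TS Q W₀ →
      ∃ W ≤ U, InvOn T W ∧ TS Q W ∧ finrank F W = a * (2 * e) + finrank F W₀ := by
  classical
  have hr0 : r ≠ 0 := hrf.out.ne_zero
  have hB := goodForm_polar Q
  have hiso := polar_iso hQT
  have hev : Even (orderOf (q : ZMod r)) := ⟨e, by omega⟩
  intro n
  induction n using Nat.strong_induction_on with
  | _ n ih =>
    intro U W₀ s a hn hU hinv hs ha hW₀ hts
    rcases Nat.eq_zero_or_pos a with rfl | hapos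
    · refine ⟨W₀, hW₀.trans (fixS_le U), ?_, hts, by rw [zero_mul, zero_add]⟩
      intro w hw
      rw [(mem_fixS.mp (hW₀ hw)).2]
      exact hw
    have ha' : (typesOf T r U).card + 2 * a ≤ s + 1 := ha.resolve_left hapos.ne'
    have hs1 : 1 ≤ s := by omega
    obtain ⟨s', rfl⟩ := Nat.exists_eq_add_of_le' hs1
    have hpe : 0 < 2 * e := by omega
    have hmove : ∃ u ∈ U, T u ≠ u := by
      by_contra hall
      push Not at hall
      have h1 : fixS T U = U := le_antisymm (fixS_le U) fun u hu => mem_fixS.mpr ⟨hu, hall u hu⟩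
      rw [h1] at hs
      have : 0 < (s' + 1) * (2 * e) := by positivity
      omega
    obtain ⟨W₁, hW₁U, hW₁inv, hW₁nd, hW₁free, hW₁fin⟩ := exists_block_rel hq hr2 hrF hB hiso hTr hU hinv hmove
    rw [if_pos hev, hi] at hW₁fin
    have hW₁0 : W₁ ≠ ⊥ := by
      rintro rfl
      rw [finrank_bot] at hW₁fin
      omega
    obtain ⟨h₀, hh₀, hh₀d, U₀, hU₀W, hU₀inv, hU₀fin, hU₀k, hU₀s⟩ := exists_simple_in hq hrF hTr hW₁inv hW₁free hW₁0
    have hU₀eq : U₀ = W₁ := Submodule.eq_of_le_of_finrank_eq hU₀W (by rw [hU₀fin, hi, hW₁fin])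
    obtain ⟨h, hhF, c, hc⟩ := exists_mem_Fs hh₀ hh₀d
    have hkill₁ : ∀ u ∈ W₁, aeval T h u = 0 := by
      intro u hu
      rw [hc, mul_comm, aeval_mul_apply, hU₀k u (hU₀eq ▸ hu), map_zero]
    have hhirr := irr_of_mem_Fs hhF
    have hhd := dvd_of_mem_Fs hhF
    have hU'nd : NDOn (polarBilin Q) (U ⊓ perp (polarBilin Q) W₁) := nd_rel hB hW₁U hW₁nd hU
    have hU'inv : InvOn T (U ⊓ perp (polarBilin Q) W₁) := inv_inf hinv (inv_perp hiso hr0 hTr hW₁inv)
    have hfin1 := finrank_rel hB hW₁U hW₁nd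
    have hfx1 := Cfsg.Agent.S5961.fixS_rel_of_free (B := polarBilin Q) (U := U) hiso hW₁inv hW₁free
    rw [Nat.succ_mul] at hs
    have hhU : h ∈ typesOf T r U := by
      rw [mem_typesOf]
      refine ⟨hhF, fun h0 => hW₁0 ?_⟩
      rw [eq_bot_iff, ← h0]
      exact le_inf hW₁U hkill₁
    by_cases hcase : (U ⊓ perp (polarBilin Q) W₁) ⊓ LinearMap.ker (aeval T h) = ⊥
    · -- the type disappears
      have hsub : typesOf T r (U ⊓ perp (polarBilin Q) W₁) ⊆ (typesOf T r U).erase h := by
        intro g hg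
        rw [Finset.mem_erase]
        refine ⟨?_, typesOf_mono inf_le_left hg⟩
        rintro rfl
        exact (mem_typesOf.mp hg).2 hcase
      have hcard := Finset.card_le_card hsub
      rw [Finset.card_erase_of_mem hhU] at hcard
      have hpos : 0 < (typesOf T r U).card := Finset.card_pos.mpr ⟨h, hhU⟩
      exact ih (finrank F (U ⊓ perp (polarBilin Q) W₁ : Submodule F V)) (by omega) (U ⊓ perp (polarBilin Q) W₁) W₀ s' a rfl hU'nd hU'inv (by rw [hfx1]; omega)
        (Or.inr (by omega)) (by rw [hfx1]; exact hW₀) hts |>.imp fun W hW => ⟨hW.1.trans inf_le_left, hW.2⟩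
    · -- a second block of the same type
      have hUh := ker_nd hq hrF hiso hTr hi he hhd hU'nd hU'inv
      have hUhinv : InvOn T ((U ⊓ perp (polarBilin Q) W₁) ⊓ LinearMap.ker (aeval T h)) := by
        apply inv_inf hU'inv
        intro u hu
        rw [LinearMap.mem_ker] at hu ⊢
        rw [aeval_X_comm, hu, map_zero]
      obtain ⟨v, hv, hv0⟩ := (Submodule.ne_bot_iff _).mp hcase
      have hmove2 : ∃ u ∈ (U ⊓ perp (polarBilin Q) W₁) ⊓ LinearMap.ker (aeval T h), T u ≠ u :=
        ⟨v, hv, fun hfix => hv0 (fix_free_of_factor hrF hhd v hv.2 hfix)⟩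
      obtain ⟨W₂, hW₂U, hW₂inv, hW₂nd, hW₂free, hW₂fin⟩ := exists_block_rel hq hr2 hrF hB hiso hTr hUh hUhinv hmove2
      rw [if_pos hev, hi] at hW₂fin
      have hW₂U' : W₂ ≤ U ⊓ perp (polarBilin Q) W₁ := hW₂U.trans inf_le_left
      have horth : ∀ a ∈ W₁, ∀ b ∈ W₂, polarBilin Q a b = 0 := fun a ha b hb => (hW₂U' hb).2 a ha
      have hPnd : NDOn (polarBilin Q) (W₁ ⊔ W₂) := nd_sup hB hW₁nd hW₂nd horth
      have hPfin : finrank F (W₁ ⊔ W₂ : Submodule F V) = finrank F W₁ + finrank F W₂ := finrank_sup_orth hB hW₁nd horth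
      have hPinv : InvOn T (W₁ ⊔ W₂) := inv_sup hW₁inv hW₂inv
      have hPk : ∀ u ∈ W₁ ⊔ W₂, aeval T h u = 0 := by
        intro u hu
        obtain ⟨x, hx, y, hy, rfl⟩ := Submodule.mem_sup.mp hu
        rw [map_add, hkill₁ x hx, (hW₂U hy).2, add_zero]
      obtain ⟨A, hAP, hAinv, hAti, hAfin⟩ := exists_ts_of_kill hq hr2 hrF hQT hTr hi he hhirr hhd hPinv hPk (by omega)
      have hfin2 := finrank_rel hB hW₂U' hW₂nd
      have hfx2 := Cfsg.Agent.S5961.fixS_rel_of_free (B := polarBilin Q) (U := U ⊓ perp (polarBilin Q) W₁) hiso hW₂inv hW₂free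
      have hs2 : 1 ≤ s' := by
        by_contra hs0
        have : s' = 0 := by omega
        subst this
        rw [hfx1] at hfx2
        rw [zero_mul] at hs
        have h5 := Submodule.finrank_mono (show fixS T U ≤ (U ⊓ perp (polarBilin Q) W₁ : Submodule F V) ⊓ perp (polarBilin Q) W₂ by
          rw [← hfx2]
          exact fixS_le _)
        omega
      obtain ⟨s'', rfl⟩ := Nat.exists_eq_add_of_le' hs2
      rw [Nat.succ_mul] at hs
      have hfxU : fixS T ((U ⊓ perp (polarBilin Q) W₁) ⊓ perp (polarBilin Q) W₂) = fixS T U := by rw [hfx2, hfx1]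
      have hcard := Finset.card_le_card (typesOf_mono (T := T) (r := r) (show ((U ⊓ perp (polarBilin Q) W₁) ⊓ perp (polarBilin Q) W₂ : Submodule F V) ≤ U from inf_le_left.trans inf_le_left))
      obtain ⟨W', hW'U, hW'inv, hW'ti, hW'fin⟩ := ih (finrank F ((U ⊓ perp (polarBilin Q) W₁) ⊓ perp (polarBilin Q) W₂ : Submodule F V)) (by omega) ((U ⊓ perp (polarBilin Q) W₁) ⊓ perp (polarBilin Q) W₂) W₀ s'' (a - 1) rfl
        (nd_rel hB hW₂U' hW₂nd hU'nd) (inv_inf hU'inv (inv_perp hiso hr0 hTr hW₂inv)) (by rw [hfxU]; omega)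
        (Or.inr (by omega)) (by rw [hfxU]; exact hW₀) hts
      have horth2 : ∀ x ∈ W₁ ⊔ W₂, ∀ y ∈ W', polarBilin Q x y = 0 := by
        intro x hx y hy
        obtain ⟨c₁, hc₁, c₂, hc₂, rfl⟩ := Submodule.mem_sup.mp hx
        have hy' := hW'U hy
        rw [map_add, LinearMap.add_apply, hy'.1.2 c₁ hc₁, hy'.2 c₂ hc₂, add_zero]
      have hdisj : A ⊓ W' = ⊥ := by
        have h2 := disjoint_of_orth hB hPnd (W' := W') horth2
        exact (h2.mono_left hAP).eq_bot
      refine ⟨A ⊔ W', sup_le (hAP.trans (sup_le hW₁U (hW₂U'.trans inf_le_left))) (hW'U.trans (inf_le_left.trans inf_le_left)), inv_sup hAinv hW'inv,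
        ts_sup hAti hW'ti (fun x hx y hy => horth2 x (hAP hx) y hy), ?_⟩
      have h3 := Submodule.finrank_sup_add_finrank_inf_eq A W'
      rw [hdisj, finrank_bot, add_zero, hAfin, hW'fin] at h3
      rw [h3]
      obtain ⟨a', rfl⟩ : ∃ a', a = a' + 1 := ⟨a - 1, by omega⟩
      rw [Nat.add_sub_cancel, Nat.succ_mul]
      ring

end block

end Cfsg.Agent.Lib.OTS
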