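import Mathlib
import Cfsg.Agent.Lib.OrthRealize
import Cfsg.Agent.Lib.SpTI.Even

/-!
# Kernels of polynomials in an endomorphism of order prime to the characteristic, from the characteristic polynomial
-/

set_option autoImplicit false
set_option linter.unusedSimpArgs false
set_option linter.unusedVariables false
set_option linter.unusedSectionVars false

namespace Cfsg.Agent.Lib.OTS

open Module Polynomial
open Cfsg.Agent.Lib.SemisimpleGL Cfsg.Agent.Lib.JordanClasses Cfsg.Agent.Lib.PrimeFactors

universe u v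

section model

variable {F : Type u} [Field F]

theorem aeval_rootMul (f p : F[X]) (a : AdjoinRoot f) : aeval (rootMul f) p a = aeval (AdjoinRoot.root f) p * a := by
  have h1 : aeval (rootMul f) p = Algebra.lmul F (AdjoinRoot f) (aeval (AdjoinRoot.root f) p) := by
    show aeval (Algebra.lmul F (AdjoinRoot f) (AdjoinRoot.root f)) p = _
    rw [Polynomial.aeval_algHom_apply]
  rw [h1]
  rfl

theorem aeval_piE {ι : Type*} {M : ι → Type*} [∀ i, AddCommGroup (M i)] [∀ i, Module F (M i)]
    (T : ∀ i, End F (M i)) (p : F[X]) (v : ∀ i, M i) (i : ι) : aeval (piE T) p v i = aeval (T i) p (v i) := by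
  induction p using Polynomial.induction_on' generalizing v with
  | add p q hp hq => simp only [map_add, LinearMap.add_apply, Pi.add_apply, hp, hq]
  | monomial n a =>
    simp only [aeval_monomial, Module.End.mul_apply, Module.algebraMap_end_apply, Pi.smul_apply]
    congr 1
    induction n generalizing v with
    | zero => simp
    | succ n ih =>
      rw [pow_succ, pow_succ, Module.End.mul_apply, Module.End.mul_apply, ih, piE_apply]

theorem aeval_sim {M M' : Type*} [AddCommGroup M] [Module F M] [AddCommGroup M'] [Module F M'] {T : End F M} {T' : End F M'}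
    (g : M ≃ₗ[F] M') (hg : ∀ v, g (T v) = T' (g v)) (p : F[X]) (v : M) : g (aeval T p v) = aeval T' p (g v) := by
  induction p using Polynomial.induction_on' generalizing v with
  | add p q hp hq => simp only [map_add, LinearMap.add_apply, hp, hq]
  | monomial n a =>
    simp only [aeval_monomial, Module.End.mul_apply, Module.algebraMap_end_apply, map_smul]
    congr 1
    induction n generalizing v with
    | zero => simp
    | succ n ih =>
      rw [pow_succ, pow_succ, Module.End.mul_apply, Module.End.mul_apply, ih, hg]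

/-- A bound for kernels: the multiplicity in the characteristic polynomial. -/
theorem exists_pow_dvd_charpoly {V : Type*} [AddCommGroup V] [Module F V] [FiniteDimensional F V] (T : End F V) {m : ℕ}
    (hm : (m : F) ≠ 0) (hT : T ^ m = 1) (h : F[X]) (hmon : h.Monic) (hirr : Irreducible h) :
    ∃ N, h ^ N ∣ T.charpoly ∧ finrank F (LinearMap.ker (aeval T h)) ≤ N * h.natDegree := by
  classical
  let e₀ : V ≃ₗ[F] (Fin (finrank F V) → F) := (Module.finBasis F V).equivFun
  let T' : End F (Fin (finrank F V) → F) := e₀.conj T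
  have hT'a : ∀ v, e₀ (T v) = T' (e₀ v) := by
    intro v
    simp [T', LinearEquiv.conj_apply]
  have hT'm : T' ^ m = 1 := by
    have hk : ∀ (k : ℕ) (u : V), (T' ^ k) (e₀ u) = e₀ ((T ^ k) u) := by
      intro k
      induction k with
      | zero => simp
      | succ k ih =>
        intro u
        rw [pow_succ', Module.End.mul_apply, ih, ← hT'a, pow_succ', Module.End.mul_apply]
    apply LinearMap.ext
    intro v
    obtain ⟨u, rfl⟩ := e₀.surjective v
    rw [hk, hT]
    rfl
  obtain ⟨ι, _, f, hfm, hfi, hS⟩ := exists_ss_model T' hm hT'm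
  haveI := fun i => (hfm i).finite_adjoinRoot
  haveI : ∀ i, Fact (Irreducible (f i)) := fun i => ⟨hfi i⟩
  have hch : T.charpoly = ∏ i, f i := by
    have h1 : T'.charpoly = T.charpoly := LinearEquiv.charpoly_conj e₀ T
    rw [← h1, sim_charpoly_eq hS, charpoly_TT hfm]
  obtain ⟨g₁, hg₁⟩ := hS
  let g : V ≃ₗ[F] (∀ i, AdjoinRoot (f i)) := e₀.trans g₁
  have hg : ∀ v, g (T v) = TT f (g v) := by
    intro v
    show g₁ (e₀ (T v)) = _
    rw [hT'a, hg₁]
    rfl
  let S : Finset ι := Finset.univ.filter fun i => f i = h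
  have hprod : h ^ S.card ∣ T.charpoly := by
    rw [hch, ← Finset.prod_filter_mul_prod_filter_not Finset.univ (fun i => f i = h)]
    apply Dvd.dvd.mul_right
    rw [Finset.prod_congr rfl (fun i hi => (Finset.mem_filter.mp hi).2), Finset.prod_const]
  refine ⟨S.card, hprod, ?_⟩
  let φ : LinearMap.ker (aeval T h) →ₗ[F] (∀ i : S, AdjoinRoot (f i)) :=
    (LinearMap.pi fun i : S => (LinearMap.proj (i : ι) : (∀ i, AdjoinRoot (f i)) →ₗ[F] AdjoinRoot (f i)) ∘ₗ g.toLinearMap) ∘ₗ (LinearMap.ker (aeval T h)).subtype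
  have hφ : Function.Injective φ := by
    rw [injective_iff_map_eq_zero]
    rintro ⟨v, hv⟩ h0
    apply Subtype.ext
    show v = 0
    apply g.injective
    rw [map_zero]
    funext i
    by_cases hi : f i = h
    · have h1 := congrFun h0 ⟨i, Finset.mem_filter.mpr ⟨Finset.mem_univ i, hi⟩⟩
      exact h1
    · have h1 : aeval T h v = 0 := hv
      have h2 := aeval_sim g hg h v
      rw [h1, map_zero] at h2
      have h3 := congrFun h2 i
      rw [TT, aeval_piE, aeval_rootMul] at h3
      have h4 : aeval (AdjoinRoot.root (f i)) h ≠ 0 := by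
        rw [AdjoinRoot.aeval_eq, Ne, AdjoinRoot.mk_eq_zero]
        intro hd
        obtain ⟨c, hc⟩ := hd
        have hcu : IsUnit c := (hirr.isUnit_or_isUnit hc).resolve_left (hfi i).not_isUnit
        apply hi
        have h5 : f i ∣ h := ⟨c, hc⟩
        exact eq_of_monic_of_associated (hfm i) hmon (associated_of_dvd_dvd h5 (by
          rw [hc]
          exact (IsUnit.mul_right_dvd hcu).mpr dvd_rfl) )
      exact (mul_eq_zero.mp h3.symm).resolve_left h4
  have h6 := LinearMap.finrank_le_finrank_of_injective hφ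
  rw [Module.finrank_pi_fintype] at h6
  have h7 : ∀ i : S, finrank F (AdjoinRoot (f i)) = h.natDegree := by
    intro i
    rw [finrank_adjoinRoot (hfm i), (Finset.mem_filter.mp i.2).2]
  simp only [h7, Finset.sum_const, Finset.card_univ, smul_eq_mul, Fintype.card_coe] at h6
  exact h6

end model

section Pa

variable {F : Type u} [Field F] [Fintype F] {V : Type*} [AddCommGroup V] [Module F V] [FiniteDimensional F V]
variable {r n : ℕ} {a : ↥(Idx F r) → ℕ}

theorem natDegree_idx [hrf : Fact r.Prime] (hr : (r : F) ≠ 0) {j : F[X]} (hj : j ∈ Idx F r) : j.natDegree = orderOf ((Fintype.card F : ℕ) : ZMod r) :=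
  natDegree_of_mem hr hj

/-- Kernels of the factors, from the characteristic polynomial. -/
theorem finrank_ker_of_Pa [hrf : Fact r.Prime] (hr : (r : F) ≠ 0) (T : End F V) (hT : T ^ r = 1) (hch : T.charpoly = Pa F r n a)
    (j : ↥(Idx F r)) : finrank F (LinearMap.ker (aeval T (j : F[X]))) ≤ a j * orderOf ((Fintype.card F : ℕ) : ZMod r) := by
  classical
  have hr0 : r ≠ 0 := hrf.out.ne_zero
  obtain ⟨hi, hm, -⟩ := (mem_Idx hr0).1 j.2
  obtain ⟨N, hN, hk⟩ := exists_pow_dvd_charpoly T hr hT (j : F[X]) hm hi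
  rw [natDegree_idx hr j.2] at hk
  refine hk.trans (Nat.mul_le_mul_right _ ?_)
  rw [hch, Pa] at hN
  have hp : Prime (j : F[X]) := hi.prime
  -- split the product
  rw [← Finset.mul_prod_erase Finset.univ (fun l : ↥(Idx F r) => (l : F[X]) ^ a l) (Finset.mem_univ j)] at hN
  have hrest : ¬ (j : F[X]) ∣ (X - 1) ^ (n - orderOf ((Fintype.card F : ℕ) : ZMod r) * ∑ l, a l) * ∏ l ∈ Finset.univ.erase j, (l : F[X]) ^ a l := by
    intro hd
    rcases hp.dvd_or_dvd hd with h1 | h1
    · have h2 := hp.dvd_of_dvd_pow h1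
      have h3 : (j : F[X]) = X - 1 := by
        have hX : (X - 1 : F[X]).Monic := monic_X_sub_one
        have hXi : Irreducible (X - 1 : F[X]) := irr_X_sub_one
        obtain ⟨c, hc⟩ := h2
        have hcu : IsUnit c := (hXi.isUnit_or_isUnit hc).resolve_left hi.not_isUnit
        exact eq_of_monic_of_associated hm hX (associated_of_dvd_dvd ⟨c, hc⟩ (by
          rw [hc]
          exact (IsUnit.mul_right_dvd hcu).mpr dvd_rfl))
      exact one_not_mem hr hr0 (h3 ▸ j.2)
    · obtain ⟨l, hl, hd⟩ := (Prime.dvd_finset_prod_iff hp _).mp h1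
      have h2 := hp.dvd_of_dvd_pow hd
      obtain ⟨hli, hlm, -⟩ := (mem_Idx hr0).1 l.2
      obtain ⟨c, hc⟩ := h2
      have hcu : IsUnit c := (hli.isUnit_or_isUnit hc).resolve_left hi.not_isUnit
      have h3 : (j : F[X]) = l := eq_of_monic_of_associated hm hlm (associated_of_dvd_dvd ⟨c, hc⟩ (by
          rw [hc]
          exact (IsUnit.mul_right_dvd hcu).mpr dvd_rfl))
      exact (Finset.mem_erase.mp hl).1 (Subtype.ext h3).symm
  have h4 : (j : F[X]) ^ N ∣ (j : F[X]) ^ a j := by
    apply Prime.pow_dvd_of_dvd_mul_right hp N hrest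
    convert hN using 1
    ring
  exact (pow_dvd_pow_iff hp.ne_zero hp.not_unit).mp h4

/-- The fixed space, from the characteristic polynomial. -/
theorem finrank_fix_of_Pa [hrf : Fact r.Prime] (hr : (r : F) ≠ 0) (T : End F V) (hT : T ^ r = 1) (hch : T.charpoly = Pa F r n a) :
    finrank F (LinearMap.ker (aeval T (X - C 1 : F[X]))) ≤ n - orderOf ((Fintype.card F : ℕ) : ZMod r) * ∑ l, a l := by
  classical
  have hr0 : r ≠ 0 := hrf.out.ne_zero
  have hX : (X - 1 : F[X]).Monic := monic_X_sub_one
  have hXi : Irreducible (X - 1 : F[X]) := irr_X_sub_one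
  have hC : (X - C 1 : F[X]) = X - 1 := by simp
  rw [hC]
  obtain ⟨N, hN, hk⟩ := exists_pow_dvd_charpoly T hr hT (X - 1 : F[X]) hX hXi
  have hdeg : (X - 1 : F[X]).natDegree = 1 := by
    rw [← hC]
    exact natDegree_X_sub_C 1
  rw [hdeg, mul_one] at hk
  refine hk.trans ?_
  rw [hch, Pa] at hN
  have hp : Prime (X - 1 : F[X]) := hXi.prime
  have hrest : ¬ (X - 1 : F[X]) ∣ ∏ j : ↥(Idx F r), (j : F[X]) ^ a j := by
    intro hd
    apply Cfsg.Agent.Lib.OrthRealize.eval_prod_ne hr hr0 a
    have h1 : (X - C (1 : F) : F[X]) ∣ ∏ j : ↥(Idx F r), (j : F[X]) ^ a j := by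
      rw [hC]
      exact hd
    exact dvd_iff_isRoot.1 h1
  have h4 := Prime.pow_dvd_of_dvd_mul_right hp N hrest hN
  exact (pow_dvd_pow_iff hp.ne_zero hp.not_unit).mp h4

theorem Fs_eq_Idx [hrf : Fact r.Prime] : Cfsg.Agent.Lib.SpTI.Fs F r = Idx F r := by
  classical
  have h0 : cyclotomic r F = Psi F r := by
    rw [cyclotomic_prime, Psi]
  ext j
  rw [Cfsg.Agent.Lib.SpTI.mem_Fs, h0]
  unfold Idx
  rw [Multiset.mem_toFinset]

end Pa

end Cfsg.Agent.Lib.OTS
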