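import Mathlib
import Cfsg.Agent.Lib.OTS.Ker
import Cfsg.Agent.Lib.OrthSpin
import Cfsg.Agent.Lib.SpinorCrit
import Cfsg.Agent.Lib.H97Ort4
import Cfsg.Agent.S2673

/-!
# Elements of odd prime order in `Ω` of odd dimension
-/

set_option autoImplicit false
set_option linter.unusedSimpArgs false
set_option linter.unusedVariables false
set_option linter.unusedSectionVars false

namespace Cfsg.Agent.Lib.OTS

open Module Polynomial Matrix
open scoped MatrixGroups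
open Cfsg.Agent.Lib.SemisimpleGL Cfsg.Agent.Lib.PrimeFactors Cfsg.Agent.Lib.DualFactors
open Cfsg.Agent.Lib.OrthGroup Cfsg.Agent.Lib.OrthOmega Cfsg.Agent.Lib.OrthMatrix

universe u

section omega

variable {F : Type*} [Field F] [Fintype F] {ι : Type} [Fintype ι] [DecidableEq ι]

/-- Elements of odd order of the isometry group lie in `Ω`. -/
theorem mem_Omega_of_odd (Q : QuadraticForm F (ι → F)) (hQ : (B Q).Nondegenerate)
    (hF : (∃ a : F, a ≠ 0 ∧ a ≠ 1) ∨ finrank F (ι → F) ≠ 4) (g : ↥(Cfsg.isometryGroup F ⇑Q)) (hg : Odd (orderOf g)) :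
    g ∈ Cfsg.Omega F ⇑Q := by
  classical
  rw [mem_Omega_iff]
  have hOG : O Q ≤ G Q := Cfsg.Agent.Lib.OrthGroup.O_le_G hQ hF
  have hord : orderOf (toO Q g) = orderOf g := MulEquiv.orderOf_eq _ _
  have key : ∀ χ : ↥(O Q) →* ℤˣ, χ (toO Q g) = 1 := by
    intro χ
    obtain ⟨k, hk⟩ := hg
    have h1 : χ (toO Q g) ^ orderOf g = 1 := by
      rw [← map_pow, ← hord, pow_orderOf_eq_one, map_one]
    rw [hk, pow_succ, pow_mul, Int.units_sq, one_pow, one_mul] at h1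
    exact h1
  exact Cfsg.Agent.Lib.OrthSpin.mem_commutator_of_classHom hQ hOG _ (key _) (key _)

end omega

section elt

variable {F : Type u} [Field F] [Fintype F]

theorem dl_fixed_iff {r : ℕ} [hrp : Fact r.Prime] (hr2 : r ≠ 2) (hrF : (r : F) ≠ 0) (hr0 : r ≠ 0) (j : ↥(Idx F r)) :
    dl (σ := RingHom.id F) (fun x => rfl) rfl hrF hr0 j = j ↔ Even (orderOf ((Fintype.card F : ℕ) : ZMod r)) := by
  have hcard := card_Idx (F := F) (r := r) hrF
  have hr := hrp.out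
  have hr2' := hr.two_le
  have h1 := dual_fixed_iff (σ := RingHom.id F) (fun x => rfl) hrF j.2 1 (RingHom.id _) (fun x => rfl) (by simp)
  have hx : orderOf ((Fintype.card F : ℕ) : ZMod r) ≠ 0 := by
    intro h3
    rw [h3, mul_zero] at hcard
    omega
  rw [Nat.cast_one, exists_pow_eq_neg_one_iff hr2 hx] at h1
  rw [← h1]
  exact Subtype.ext_iff

theorem hF_of_odd (hodd : Odd (Fintype.card F)) : ∃ a : F, a ≠ 0 ∧ a ≠ 1 := by
  have h2 : (2 : F) ≠ 0 := Cfsg.Agent.H97.Asch.two_ne_of_odd_card hodd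
  refine ⟨-1, by simp, ?_⟩
  intro h
  apply h2
  linear_combination -h

/-- Elements of `Ω` with prescribed multiplicities. -/
theorem exists_omega_elt (p : ℕ) [Fact p.Prime] [CharP F p] (hodd : Odd (Fintype.card F)) (d : ℕ) {r : ℕ} [hrp : Fact r.Prime] (hr2 : r ≠ 2) (hrF : (r : F) ≠ 0) (hr0 : r ≠ 0)
    (a : ↥(Idx F r) → ℕ) (ha : a ≠ 0)
    (hinv : a ∘ dl (σ := RingHom.id F) (fun x => rfl) rfl hrF hr0 = a)
    (hle : orderOf ((Fintype.card F : ℕ) : ZMod r) * ∑ j, a j ≤ 2 * d + 1) :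
    ∃ x : GL (Unit ⊕ (Fin d ⊕ Fin d)) F, x ∈ Cfsg.Geo.omegaGL (Cfsg.quadFormOdd d F) ∧ orderOf x = r ∧
      (∀ j : ↥(Idx F r), finrank F (LinearMap.ker (aeval (Matrix.toLin' (x : Matrix (Unit ⊕ (Fin d ⊕ Fin d)) (Unit ⊕ (Fin d ⊕ Fin d)) F)) (j : F[X]))) ≤
        a j * orderOf ((Fintype.card F : ℕ) : ZMod r)) ∧
      finrank F (LinearMap.ker (aeval (Matrix.toLin' (x : Matrix (Unit ⊕ (Fin d ⊕ Fin d)) (Unit ⊕ (Fin d ⊕ Fin d)) F)) (X - C 1 : F[X]))) ≤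
        2 * d + 1 - orderOf ((Fintype.card F : ℕ) : ZMod r) * ∑ j, a j := by
  classical
  have hcι : Fintype.card (Unit ⊕ (Fin d ⊕ Fin d)) = 2 * d + 1 := by
    simp
    ring
  obtain ⟨g, hg1, hg2⟩ := Cfsg.Agent.S2673.odd_hex (p := p) hodd hr2 hrF hr0 a ha hinv (by rw [hcι]; exact hle)
  rw [hcι] at hg1
  refine ⟨(g : GL (Unit ⊕ (Fin d ⊕ Fin d)) F), ?_, ?_, ?_, ?_⟩
  · refine ⟨g, ?_, rfl⟩
    have hfun : Cfsg.quadFormOdd d F = ⇑(Cfsg.Agent.Lib.OrthoCount.qOdd d F) := funext fun v => (Cfsg.Agent.Lib.OrthoCount.qOdd_apply d v).symm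
    revert g
    rw [hfun]
    intro g hg1 hg2
    refine mem_Omega_of_odd _ ?_ (Or.inl (hF_of_odd hodd)) g ?_
    · exact Cfsg.Agent.Lib.QuadFF.nondegenerate_of_ND (Cfsg.Agent.S2673.nd_odd hodd d)
    · rw [hg2]
      exact hrp.out.odd_of_ne_two hr2
  · rw [← hg2]
    exact Subgroup.orderOf_coe g
  · intro j
    refine finrank_ker_of_Pa (n := 2 * d + 1) hrF _ ?_ ?_ j
    · rw [Cfsg.Agent.Lib.SpRealize.toLin_pow]
      have h1 : ((g : GL (Unit ⊕ (Fin d ⊕ Fin d)) F) : Matrix (Unit ⊕ (Fin d ⊕ Fin d)) (Unit ⊕ (Fin d ⊕ Fin d)) F) ^ r = 1 := by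
        have h2 := pow_orderOf_eq_one g
        rw [hg2] at h2
        have h3 := congrArg (fun y : ↥(Cfsg.isometryGroup F (Cfsg.quadFormOdd d F)) => ((y : GL (Unit ⊕ (Fin d ⊕ Fin d)) F) : Matrix (Unit ⊕ (Fin d ⊕ Fin d)) (Unit ⊕ (Fin d ⊕ Fin d)) F)) h2
        simpa using h3
      rw [h1, Matrix.toLin'_one]
      rfl
    · rw [Matrix.charpoly_toLin']
      exact hg1
  · refine finrank_fix_of_Pa (n := 2 * d + 1) hrF _ ?_ ?_
    · rw [Cfsg.Agent.Lib.SpRealize.toLin_pow]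
      have h1 : ((g : GL (Unit ⊕ (Fin d ⊕ Fin d)) F) : Matrix (Unit ⊕ (Fin d ⊕ Fin d)) (Unit ⊕ (Fin d ⊕ Fin d)) F) ^ r = 1 := by
        have h2 := pow_orderOf_eq_one g
        rw [hg2] at h2
        have h3 := congrArg (fun y : ↥(Cfsg.isometryGroup F (Cfsg.quadFormOdd d F)) => ((y : GL (Unit ⊕ (Fin d ⊕ Fin d)) F) : Matrix (Unit ⊕ (Fin d ⊕ Fin d)) (Unit ⊕ (Fin d ⊕ Fin d)) F)) h2
        simpa using h3
      rw [h1, Matrix.toLin'_one]
      rfl
    · rw [Matrix.charpoly_toLin']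
      exact hg1

end elt

end Cfsg.Agent.Lib.OTS
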