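import Mathlib
import Cfsg.Agent.Lib.OTS.Core
import Cfsg.Agent.Lib.QuadFF

/-!
# Totally singular subspaces of the fixed space, and the numerical choices in odd dimension
-/

set_option autoImplicit false
set_option linter.unusedSimpArgs false
set_option linter.unusedVariables false
set_option linter.unusedSectionVars false

namespace Cfsg.Agent.Lib.OTS

open Module Polynomial Cfsg.Agent.Lib.IsomBlock QuadraticMap
open Cfsg.Agent.Lib.SpTI (TI Fs typesOf mem_typesOf card_Fs)

universe u

variable {F : Type*} [Field F] {V : Type u} [AddCommGroup V] [Module F V]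
variable {Q : QuadraticForm F V} {T : V →ₗ[F] V}

/-- Subspaces of every smaller dimension. -/
theorem exists_sub_finrank [FiniteDimensional F V] (W : Submodule F V) {b : ℕ} (hb : b ≤ finrank F W) : ∃ W' ≤ W, finrank F W' = b := by
  classical
  let bs := Module.finBasis F W
  let v : Fin b → V := fun l => (bs (Fin.castLE hb l) : V)
  have hv : LinearIndependent F v := by
    have h1 : LinearIndependent F (fun l : Fin b => bs (Fin.castLE hb l)) := bs.linearIndependent.comp _ (Fin.castLE_injective hb)
    exact h1.map' W.subtype (Submodule.ker_subtype W)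
  refine ⟨Submodule.span F (Set.range v), ?_, ?_⟩
  · apply Submodule.span_le.mpr
    rintro _ ⟨l, rfl⟩
    exact (bs _).2
  · have := finrank_span_eq_card hv
    simpa using this

/-- Singular orthogonal families span totally singular subspaces. -/
theorem ts_span {ι : Type*} (v : ι → V) (h0 : ∀ i, Q (v i) = 0) (hp : ∀ i j, polar Q (v i) (v j) = 0) :
    TS Q (Submodule.span F (Set.range v)) := by
  have hB : ∀ x ∈ Submodule.span F (Set.range v), ∀ y ∈ Submodule.span F (Set.range v), polarBilin Q x y = 0 := by
    intro x hx y hy
    induction hx using Submodule.span_induction with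
    | mem x hx =>
      obtain ⟨i, rfl⟩ := hx
      induction hy using Submodule.span_induction with
      | mem y hy =>
        obtain ⟨j, rfl⟩ := hy
        rw [polarBilin_apply_apply]
        exact hp i j
      | zero => simp
      | add x y _ _ hx hy => rw [map_add, hx, hy, add_zero]
      | smul c x _ hx => rw [map_smul, hx, smul_zero]
    | zero => simp
    | add x y _ _ hx hy => rw [map_add, LinearMap.add_apply, hx, hy, add_zero]
    | smul c x _ hx => rw [map_smul, LinearMap.smul_apply, hx, smul_zero]
  intro w hw
  induction hw using Submodule.span_induction with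
  | mem x hx =>
    obtain ⟨i, rfl⟩ := hx
    exact h0 i
  | zero => simp
  | add x y hx' hy' hx hy =>
    have h1 := hB x hx' y hy'
    rw [polarBilin_apply_apply] at h1
    have h2 : Q (x + y) = Q x + Q y + polar Q x y := by
      rw [polar]
      ring
    rw [h2, hx, hy, h1]
    ring
  | smul c x _ hx =>
    rw [QuadraticMap.map_smul, hx, smul_zero]

variable [FiniteDimensional F V] [Finite F]

/-- The Witt index of a nondegenerate subspace. -/
theorem exists_ts_witt {U : Submodule F V} (hU : NDOn (polarBilin Q) U) :
    ∃ W₀ ≤ U, TS Q W₀ ∧ finrank F U ≤ 2 * finrank F W₀ + 2 ∧ finrank F U % 2 = finrank F U % 2 := by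
  classical
  have hND : Cfsg.Agent.Lib.QuadFF.ND (Cfsg.Agent.Lib.QuadFF.restr Q U) := by
    rintro ⟨x, hx⟩ hall
    apply Subtype.ext
    apply hU x hx
    intro w hw
    have := hall ⟨w, hw⟩
    rw [Cfsg.Agent.Lib.QuadFF.polar_restr] at this
    rw [polarBilin_apply_apply]
    exact this
  obtain ⟨k, e, f, A, hW⟩ := Cfsg.Agent.Lib.QuadFF.exists_wittData (F := F) (finrank F U) U (Cfsg.Agent.Lib.QuadFF.restr Q U) rfl hND
  have hle := Cfsg.Agent.Lib.QuadFF.finrank_le_two_of_ani hW.ani
  have hdim := hW.dim
  have hli := (Cfsg.Agent.Lib.QuadFF.linearIndependent_hyp hW (κ := Empty) (fun i => i.elim) linearIndependent_empty_type (fun i => i.elim))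
  have hli1 : LinearIndependent F e := by
    have := hli.comp (fun l => Sum.inl (Sum.inl l)) (fun a b h => by simpa using h)
    exact this
  let v : Fin k → V := fun l => (e l : V)
  have hv : LinearIndependent F v := hli1.map' U.subtype (Submodule.ker_subtype U)
  refine ⟨Submodule.span F (Set.range v), ?_, ts_span v (fun l => hW.Qe l) (fun i j => ?_), ?_, rfl⟩
  · apply Submodule.span_le.mpr
    rintro _ ⟨l, rfl⟩
    exact (e l).2
  · have := hW.ee i j
    rw [Cfsg.Agent.Lib.QuadFF.polar_restr] at this
    exact this
  · have h1 := finrank_span_eq_card hv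
    have h2 : finrank F (Submodule.span F (Set.range v)) = k := by simpa using h1
    rw [h2]
    omega

/-- A totally singular subspace of a prescribed small dimension. -/
theorem exists_ts_fix {U : Submodule F V} (hU : NDOn (polarBilin Q) U) {b : ℕ} (hb : 2 * b + 1 ≤ finrank F U) :
    ∃ W₀ ≤ U, TS Q W₀ ∧ finrank F W₀ = b := by
  obtain ⟨W₀, h1, h2, h3, -⟩ := exists_ts_witt hU
  obtain ⟨W', h4, h5⟩ := exists_sub_finrank W₀ (b := b) (by omega)
  exact ⟨W', h4.trans h1, h2.mono h4, h5⟩

end Cfsg.Agent.Lib.OTS
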