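import Mathlib
import Cfsg.Agent.Lib.OTS.Fix
import Cfsg.Agent.Lib.SpinorCrit
import Cfsg.Agent.Lib.QuadFF2

/-!
# Involutions and totally singular subspaces
-/

set_option autoImplicit false
set_option linter.unusedSimpArgs false
set_option linter.unusedVariables false
set_option linter.unusedSectionVars false

namespace Cfsg.Agent.Lib.OTS

open Module Matrix QuadraticMap Cfsg.Agent.Lib.IsomBlock
open scoped MatrixGroups
open Cfsg.Agent.Lib.OrthGroup Cfsg.Agent.Lib.OrthOmega Cfsg.Agent.Lib.OrthMatrix Cfsg.Agent.Lib.SpinorCrit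

universe u

section decomp

variable {F : Type*} [Field F] {V : Type u} [AddCommGroup V] [Module F V] [FiniteDimensional F V]
variable {Q : QuadraticForm F V} {T : V →ₗ[F] V}

/-- The decomposition with respect to an isometry of order two. -/
theorem invol_decomp (h2 : (2 : F) ≠ 0) (hnd : NDOn (polarBilin Q) ⊤) (hQT : ∀ v, Q (T v) = Q v) (hT2 : T ^ 2 = 1) :
    NDOn (polarBilin Q) (fixS T ⊤) ∧ NDOn (polarBilin Q) (fixS (-T) ⊤) ∧ (∀ v ∈ fixS (-T) ⊤, T v = -v) ∧
      (∀ u ∈ fixS T ⊤, ∀ v ∈ fixS (-T) ⊤, polarBilin Q u v = 0) ∧ fixS T ⊤ ⊔ fixS (-T) ⊤ = ⊤ ∧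
      finrank F (fixS T ⊤) + finrank F (fixS (-T) ⊤) = finrank F V := by
  have hB := goodForm_polar Q
  have hiso := polar_iso hQT
  have hr : ((2 : ℕ) : F) ≠ 0 := by exact_mod_cast h2
  have hT2' : (-T) ^ 2 = 1 := by
    rw [neg_sq]
    exact hT2
  have hiso' : ∀ u v, polarBilin Q ((-T) u) ((-T) v) = polarBilin Q u v := by
    intro u v
    simp only [LinearMap.neg_apply, map_neg, neg_neg]
    exact hiso u v
  have hTT : ∀ v, T (T v) = v := by
    intro v
    have := LinearMap.congr_fun hT2 v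
    rw [pow_two] at this
    exact this
  have hP := nd_fixS hB hiso two_ne_zero hr hT2 hnd (fun _ _ => trivial)
  have hM := nd_fixS hB hiso' two_ne_zero hr hT2' hnd (fun _ _ => trivial)
  have hMv : ∀ v ∈ fixS (-T) ⊤, T v = -v := by
    intro v hv
    have := (mem_fixS.mp hv).2
    rw [LinearMap.neg_apply] at this
    exact neg_eq_iff_eq_neg.mp this
  have horth : ∀ u ∈ fixS T ⊤, ∀ v ∈ fixS (-T) ⊤, polarBilin Q u v = 0 := by
    intro u hu v hv
    have h1 := (mem_fixS.mp hu).2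
    have h4 := hiso u v
    rw [h1, hMv v hv, map_neg] at h4
    have h5 : (2 : F) * polarBilin Q u v = 0 := by linear_combination -h4
    exact (mul_eq_zero.mp h5).resolve_left h2
  have hsup : fixS T ⊤ ⊔ fixS (-T) ⊤ = ⊤ := by
    rw [eq_top_iff]
    intro v _
    have h1 : v = (2 : F)⁻¹ • (v + T v) + (2 : F)⁻¹ • (v - T v) := by
      rw [← smul_add]
      have : v + T v + (v - T v) = (2 : F) • v := by
        rw [two_smul]
        abel
      rw [this, smul_smul, inv_mul_cancel₀ h2, one_smul]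
    rw [h1]
    apply Submodule.add_mem_sup
    · rw [mem_fixS]
      refine ⟨trivial, ?_⟩
      rw [map_smul, map_add, hTT, add_comm]
    · rw [mem_fixS]
      refine ⟨trivial, ?_⟩
      rw [map_smul, LinearMap.neg_apply, map_sub, hTT, neg_sub]
  have hdim : finrank F (fixS T ⊤) + finrank F (fixS (-T) ⊤) = finrank F V := by
    have := finrank_sup_orth hB hP horth
    rw [hsup, finrank_top] at this
    exact this.symm
  exact ⟨hP, hM, hMv, horth, hsup, hdim⟩

/-- Gluing totally singular subspaces of the two eigenspaces. -/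
theorem ts_of_parts (h2 : (2 : F) ≠ 0) (hMv : ∀ v ∈ fixS (-T) ⊤, T v = -v) (horth : ∀ u ∈ fixS T ⊤, ∀ v ∈ fixS (-T) ⊤, polarBilin Q u v = 0)
    {W₁ W₂ : Submodule F V} (hW₁ : W₁ ≤ fixS T ⊤) (hW₂ : W₂ ≤ fixS (-T) ⊤) (h1 : TS Q W₁) (h3 : TS Q W₂) :
    InvOn T (W₁ ⊔ W₂) ∧ TS Q (W₁ ⊔ W₂) ∧ finrank F (W₁ ⊔ W₂ : Submodule F V) = finrank F W₁ + finrank F W₂ := by
  refine ⟨Cfsg.Agent.Lib.SpTI.inv_sup ?_ ?_, ts_sup h1 h3 fun u hu v hv => horth u (hW₁ hu) v (hW₂ hv), ?_⟩
  · intro w hw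
    rw [(mem_fixS.mp (hW₁ hw)).2]
    exact hw
  · intro w hw
    rw [hMv w (hW₂ hw)]
    exact W₂.neg_mem hw
  · have h5 := Submodule.finrank_sup_add_finrank_inf_eq W₁ W₂
    have h4 : W₁ ⊓ W₂ = ⊥ := by
      rw [eq_bot_iff]
      rintro v ⟨hv1, hv2⟩
      have h6 := (mem_fixS.mp (hW₁ hv1)).2
      have h7 := hMv v (hW₂ hv2)
      rw [h6] at h7
      have h8 : (2 : F) • v = 0 := by
        rw [two_smul]
        nth_rw 1 [h7]
        simp
      exact (smul_eq_zero.mp h8).resolve_left h2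
    rw [h4, finrank_bot, add_zero] at h5
    exact h5

end decomp

section spinor

variable {F : Type*} [Field F] [Fintype F] {ι : Type} [Fintype ι] [DecidableEq ι]
variable {Q : QuadraticForm F (ι → F)}

theorem prodR_of_perp (L : List (ι → F)) (y : ι → F) (h : ∀ w ∈ L, B Q y w = 0) : prodR Q L y = y := by
  induction L with
  | nil => rfl
  | cons v L ih =>
    rw [prodR_cons]
    show refl Q v (prodR Q L y) = y
    rw [ih fun w hw => h w (List.mem_cons_of_mem _ hw), refl_of_perp Q (h v List.mem_cons_self)]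

/-- An involution in `Ω`: the eigenspace of `-1` has even dimension and, when `-1` is a square, half of it is totally singular. -/
theorem invol_spinor (h2 : (2 : F) ≠ 0) (hQ : (B Q).Nondegenerate) (hF : (∃ a : F, a ≠ 0 ∧ a ≠ 1) ∨ finrank F (ι → F) ≠ 4)
    (g : ↥(Cfsg.isometryGroup F ⇑Q)) (hg : g ∈ Cfsg.Omega F ⇑Q)
    {T : (ι → F) →ₗ[F] (ι → F)} (hT : ∀ y, T y = ((g : GL ι F) : Matrix ι ι F) *ᵥ y)
    (hnd : NDOn (polarBilin Q) ⊤) (hQT : ∀ v, Q (T v) = Q v) (hT2 : T ^ 2 = 1) :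
    Even (finrank F (fixS (-T) ⊤)) ∧ ∀ c : F, c * c = -1 → ∃ W₂ ≤ fixS (-T) ⊤, TS Q W₂ ∧ 2 * finrank F W₂ = finrank F (fixS (-T) ⊤) := by
  classical
  obtain ⟨hP, hM, hMv, horth, hsup, hdim⟩ := invol_decomp h2 hnd hQT hT2
  set M := fixS (-T) ⊤ with hMdef
  rcases Nat.eq_zero_or_pos (finrank F M) with h0 | hpos
  · refine ⟨by rw [h0]; exact Even.zero, fun c _ => ⟨⊥, bot_le, ts_bot, by rw [h0, finrank_bot]⟩⟩
  obtain ⟨k, hk⟩ : ∃ k, finrank F M = k + 1 := ⟨finrank F M - 1, by omega⟩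
  have hND : Cfsg.Agent.Lib.QuadFF.ND (Cfsg.Agent.Lib.QuadFF.restr Q M) := by
    rintro ⟨x, hx⟩ hall
    apply Subtype.ext
    apply hM x hx
    intro w hw
    have := hall ⟨w, hw⟩
    rw [Cfsg.Agent.Lib.QuadFF.polar_restr] at this
    rw [polarBilin_apply_apply]
    exact this
  obtain ⟨b, ho, hv1, hδ⟩ := Cfsg.Agent.Lib.QuadFF2.exists_diag h2 k M (Cfsg.Agent.Lib.QuadFF.restr Q M) hk hND
  let v : Fin (k + 1) → (ι → F) := fun i => (b i : ι → F)
  have hvM : ∀ i, v i ∈ M := fun i => (b i).2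
  have ho' : ∀ i j, i ≠ j → B Q (v i) (v j) = 0 := by
    intro i j hij
    have := ho i j hij
    rw [Cfsg.Agent.Lib.QuadFF.polar_restr] at this
    exact this
  have hv1' : ∀ i : Fin k, Q (v i.castSucc) = 1 := fun i => hv1 i
  have hδ' : Q (v (Fin.last k)) ≠ 0 := hδ
  have hvne : ∀ i, Q (v i) ≠ 0 := by
    intro i
    refine Fin.lastCases hδ' (fun j => ?_) i
    rw [hv1']
    exact one_ne_zero
  have hbne : ∀ i, Cfsg.Agent.Lib.QuadFF.restr Q M (b i) ≠ 0 := hvne
  have hbli := Cfsg.Agent.Lib.QuadFF2.linearIndependent_diag h2 ho hbne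
  obtain ⟨β, hβ⟩ := Cfsg.Agent.Lib.QuadFF.exists_basis_of_li b hbli (by simp [hk])
  let L : List (ι → F) := (List.finRange (k + 1)).map v
  have hL : ∀ w ∈ L, Q w ≠ 0 := by
    intro w hw
    obtain ⟨i, -, rfl⟩ := List.mem_map.mp hw
    exact hvne i
  have hprodR : ∀ x, prodR Q L x = T x := by
    intro x
    have hx : x ∈ fixS T ⊤ ⊔ M := by
      rw [hsup]
      trivial
    obtain ⟨y, hy, z, hz, rfl⟩ := Submodule.mem_sup.mp hx
    rw [map_add, map_add]
    congr 1
    · rw [prodR_of_perp]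
      · exact (mem_fixS.mp hy).2.symm
      · intro w hw
        obtain ⟨i, -, rfl⟩ := List.mem_map.mp hw
        exact horth y hy _ (hvM i)
    · -- on `M`
      have h1 : ((prodR Q L : (ι → F) ≃ₗ[F] (ι → F)) : (ι → F) →ₗ[F] (ι → F)) ∘ₗ M.subtype = T ∘ₗ M.subtype := by
        apply β.ext
        intro j
        simp only [LinearMap.comp_apply, Submodule.subtype_apply, hβ]
        have h3 := prodR_orth_apply Q v ho' hvne (List.finRange (k + 1)) (List.nodup_finRange _) j
        simp only [List.mem_finRange, if_true] at h3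
        rw [hMv _ (hvM j)]
        exact h3
      exact LinearMap.congr_fun h1 ⟨z, hz⟩
  have hgO : toO Q g = prodO Q L := by
    apply Subtype.ext
    apply LinearEquiv.ext
    intro x
    rw [toO_apply, ← hT, prodO_coe, hprodR]
  have hmem := (mem_Omega_iff Q g).mp hg
  rw [hgO, mem_Omega_prodO_iff Q hQ hF L hL] at hmem
  obtain ⟨hev, hsq⟩ := hmem
  have hlen : L.length = k + 1 := by simp [L]
  rw [hlen] at hev
  have hprod : (L.map Q).prod = Q (v (Fin.last k)) := by
    have h1 : (L.map Q).prod = ∏ i, Q (v i) := by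
      rw [Fin.prod_univ_def]
      simp [L, List.map_map, Function.comp_def]
    rw [h1, Fin.prod_univ_castSucc]
    simp only [hv1', Finset.prod_const_one, one_mul]
  rw [hprod] at hsq
  obtain ⟨s, hs⟩ := hsq
  have hs0 : s ≠ 0 := by
    rintro rfl
    apply hδ'
    rw [hs, mul_zero]
  refine ⟨by rw [hk]; exact hev, fun c hc => ?_⟩
  -- rescale the last vector
  let v' : Fin (k + 1) → (ι → F) := fun i => if i = Fin.last k then s⁻¹ • v i else v i
  have hv'M : ∀ i, v' i ∈ M := by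
    intro i
    simp only [v']
    split_ifs
    · exact M.smul_mem _ (hvM i)
    · exact hvM i
  have hQ1 : ∀ i, Q (v' i) = 1 := by
    intro i
    refine Fin.lastCases ?_ (fun j => ?_) i
    · simp only [v', if_true]
      rw [QuadraticMap.map_smul, hs]
      simp only [smul_eq_mul]
      field_simp
    · have hne : j.castSucc ≠ Fin.last k := (Fin.castSucc_lt_last j).ne
      simp only [v', if_neg hne]
      exact hv1' j
  have ho2 : ∀ i j, i ≠ j → polar Q (v' i) (v' j) = 0 := by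
    intro i j hij
    have h3 : polar Q (v i) (v j) = 0 := ho' i j hij
    simp only [v']
    split_ifs <;> simp [polar_smul_left, polar_smul_right, h3]
  obtain ⟨a, ha⟩ := hev
  have hk1 : k + 1 = 2 * a := by omega
  let i₁ : Fin a → Fin (k + 1) := fun j => ⟨2 * j, by have := j.2; omega⟩
  let i₂ : Fin a → Fin (k + 1) := fun j => ⟨2 * j + 1, by have := j.2; omega⟩
  have hi₁ : ∀ j l, i₁ j = i₁ l → j = l := by
    intro j l h
    have := congrArg Fin.val h
    simp only [i₁] at this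
    exact Fin.ext (by omega)
  have hi₂ : ∀ j l, i₂ j = i₂ l → j = l := by
    intro j l h
    have := congrArg Fin.val h
    simp only [i₂] at this
    exact Fin.ext (by omega)
  have hi₁₂ : ∀ j l, i₁ j ≠ i₂ l := by
    intro j l h
    have := congrArg Fin.val h
    simp only [i₁, i₂] at this
    omega
  let u : Fin a → (ι → F) := fun j => v' (i₁ j) + c • v' (i₂ j)
  have hQself : ∀ i, polar Q (v' i) (v' i) = 2 := by
    intro i
    rw [polar_self_eq', hQ1, mul_one]
  have hu0 : ∀ j, Q (u j) = 0 := by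
    intro j
    simp only [u]
    rw [Cfsg.Agent.Lib.OrthGroup.Q_add, Cfsg.Agent.Lib.OrthGroup.Q_smul, hQ1, hQ1]
    show 1 + c * c * 1 + polar Q (v' (i₁ j)) (c • v' (i₂ j)) = 0
    rw [polar_smul_right, ho2 _ _ (hi₁₂ j j), hc]
    simp
  have hup : ∀ j l, polar Q (u j) (u l) = 0 := by
    intro j l
    by_cases hjl : j = l
    · subst hjl
      rw [polar_self_eq', hu0, mul_zero]
    · have hn1 : i₁ j ≠ i₁ l := fun h => hjl (hi₁ _ _ h)
      have hn2 : i₂ j ≠ i₂ l := fun h => hjl (hi₂ _ _ h)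
      simp only [u, polar_add_left, polar_add_right, polar_smul_left, polar_smul_right]
      rw [ho2 _ _ hn1, ho2 _ _ (hi₁₂ j l), ho2 _ _ (Ne.symm (hi₁₂ l j)), ho2 _ _ hn2]
      simp
  have hpair : ∀ j l, polar Q (v' (i₁ l)) (u j) = if j = l then 2 else 0 := by
    intro j l
    simp only [u, polar_add_right, polar_smul_right]
    rw [ho2 _ _ (hi₁₂ l j)]
    by_cases hjl : j = l
    · subst hjl
      rw [hQself, if_pos rfl]
      simp
    · have hn1 : i₁ l ≠ i₁ j := fun h => hjl (hi₁ _ _ h).symm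
      rw [ho2 _ _ hn1, if_neg hjl]
      simp
  have hli : LinearIndependent F u := by
    rw [Fintype.linearIndependent_iff]
    intro α hα l
    have h3 : polarBilin Q (v' (i₁ l)) (∑ j, α j • u j) = 0 := by
      rw [hα, map_zero]
    rw [map_sum] at h3
    simp only [map_smul, polarBilin_apply_apply, hpair, smul_eq_mul, mul_ite, mul_zero] at h3
    rw [Finset.sum_ite_eq' Finset.univ l, if_pos (Finset.mem_univ l)] at h3
    exact (mul_eq_zero.mp h3).resolve_right h2
  refine ⟨Submodule.span F (Set.range u), ?_, ts_span u hu0 hup, ?_⟩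
  · apply Submodule.span_le.mpr
    rintro _ ⟨j, rfl⟩
    exact M.add_mem (hv'M _) (M.smul_mem _ (hv'M _))
  · have h3 := finrank_span_eq_card hli
    have h4 : finrank F (Submodule.span F (Set.range u)) = a := by simpa using h3
    rw [h4, hk, hk1]

end spinor

section main

variable {F : Type*} [Field F] [Fintype F] {ι : Type} [Fintype ι] [DecidableEq ι]
variable {Q : QuadraticForm F (ι → F)}

/-- Involutions in `Ω` fix totally singular subspaces. -/
theorem exists_ts_invol_omega (h2 : (2 : F) ≠ 0) (hQ : (B Q).Nondegenerate) (hF : (∃ a : F, a ≠ 0 ∧ a ≠ 1) ∨ finrank F (ι → F) ≠ 4)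
    (g : ↥(Cfsg.isometryGroup F ⇑Q)) (hg : g ∈ Cfsg.Omega F ⇑Q)
    {T : (ι → F) →ₗ[F] (ι → F)} (hT : ∀ y, T y = ((g : GL ι F) : Matrix ι ι F) *ᵥ y)
    (hnd : NDOn (polarBilin Q) ⊤) (hQT : ∀ v, Q (T v) = Q v) (hT2 : T ^ 2 = 1) {m : ℕ}
    (hm : 2 * m + 3 ≤ finrank F (ι → F) ∨ ((∃ c : F, c * c = -1) ∧ 2 * m + 1 ≤ finrank F (ι → F))) :
    ∃ W : Submodule F (ι → F), InvOn T W ∧ TS Q W ∧ finrank F W = m := by
  obtain ⟨hP, hM, hMv, horth, hsup, hdim⟩ := invol_decomp h2 hnd hQT hT2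
  obtain ⟨hev, hsp⟩ := invol_spinor h2 hQ hF g hg hT hnd hQT hT2
  obtain ⟨WP, hWP, hWPts, hWPd, -⟩ := exists_ts_witt hP
  have hcase : ∃ WM ≤ fixS (-T) ⊤, TS Q WM ∧ m ≤ finrank F WP + finrank F WM := by
    rcases hm with hm | ⟨⟨c, hc⟩, hm⟩
    · obtain ⟨WM, hWM, hWMts, hWMd, -⟩ := exists_ts_witt hM
      refine ⟨WM, hWM, hWMts, ?_⟩
      obtain ⟨N, hN⟩ := hev
      have h3 : Odd (finrank F (fixS T ⊤)) ∨ Even (finrank F (ι → F)) := by
        by_cases hodd : Odd (finrank F (ι → F))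
        · left
          rw [← Nat.not_even_iff_odd]
          intro h4
          rw [← Nat.not_even_iff_odd] at hodd
          apply hodd
          rw [← hdim]
          exact h4.add ⟨N, hN⟩
        · right
          exact Nat.not_odd_iff_even.mp hodd
      rcases h3 with h3 | h3
      · obtain ⟨e, he⟩ := h3
        omega
      · obtain ⟨e, he⟩ := h3
        omega
    · obtain ⟨WM, hWM, hWMts, hWMd⟩ := hsp c hc
      refine ⟨WM, hWM, hWMts, ?_⟩
      obtain ⟨N, hN⟩ := hev
      omega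
  obtain ⟨WM, hWM, hWMts, hle⟩ := hcase
  obtain ⟨W₁, h11, h12⟩ := exists_sub_finrank WP (b := min m (finrank F WP)) (min_le_right _ _)
  obtain ⟨W₂, h21, h22⟩ := exists_sub_finrank WM (b := m - min m (finrank F WP)) (by omega)
  obtain ⟨h1, h3, h4⟩ := ts_of_parts h2 hMv horth (h11.trans hWP) (h21.trans hWM) (hWPts.mono h11) (hWMts.mono h21)
  refine ⟨W₁ ⊔ W₂, h1, h3, ?_⟩
  rw [h4, h12, h22]
  omega

/-- A product of two commuting reflections. -/
theorem exists_two_refl (h2 : (2 : F) ≠ 0) (hQ : (B Q).Nondegenerate) (hF : (∃ a : F, a ≠ 0 ∧ a ≠ 1) ∨ finrank F (ι → F) ≠ 4)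
    {u v : ι → F} (hu : Q u = 1) (hv : Q v = 1) (huv : polar Q u v = 0) :
    ∃ g : ↥(Cfsg.isometryGroup F ⇑Q), g ∈ Cfsg.Omega F ⇑Q ∧ orderOf g = 2 ∧
      ∀ y, ((g : GL ι F) : Matrix ι ι F) *ᵥ y = y - polar Q y v • v - polar Q y u • u := by
  classical
  have hvu : B Q v u = 0 := by
    show polar Q v u = 0
    rw [polar_comm]
    exact huv
  let g : ↥(Cfsg.isometryGroup F ⇑Q) := (toO Q).symm (prodO Q [u, v])
  have hgO : toO Q g = prodO Q [u, v] := by
    simp [g]
  have hact : ∀ y, ((g : GL ι F) : Matrix ι ι F) *ᵥ y = y - polar Q y v • v - polar Q y u • u := by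
    intro y
    rw [← toO_apply, hgO, prodO_coe]
    simp only [prodR_cons, prodR_nil, mul_one]
    show refl Q u (refl Q v y) = _
    rw [refl_apply, refl_apply, hu, hv]
    have h3 : B Q (y - ((1 : F)⁻¹ * B Q y v) • v) u = polar Q y u := by
      simp only [inv_one, one_mul, map_sub, map_smul, LinearMap.sub_apply, LinearMap.smul_apply, hvu, smul_zero, sub_zero]
      rfl
    rw [h3]
    simp only [inv_one, one_mul]
    rfl
  have hL : ∀ w ∈ [u, v], Q w ≠ 0 := by
    intro w hw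
    simp only [List.mem_cons, List.not_mem_nil, or_false] at hw
    rcases hw with rfl | rfl
    · rw [hu]
      exact one_ne_zero
    · rw [hv]
      exact one_ne_zero
  have hmem : g ∈ Cfsg.Omega F ⇑Q := by
    rw [mem_Omega_iff, hgO, mem_Omega_prodO_iff Q hQ hF _ hL]
    refine ⟨by simp, ?_⟩
    simp [hu, hv]
  refine ⟨g, hmem, ?_, hact⟩
  have hfixu : polar Q u u = 2 := by
    rw [polar_self_eq', hu, mul_one]
  have hfixv : polar Q v v = 2 := by
    rw [polar_self_eq', hv, mul_one]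
  haveI : Fact (Nat.Prime 2) := ⟨Nat.prime_two⟩
  apply orderOf_eq_prime
  · apply Subtype.ext
    apply Units.ext
    rw [matrix_eq_iff]
    intro y
    have e : (((g ^ 2 : ↥(Cfsg.isometryGroup F ⇑Q)) : GL ι F) : Matrix ι ι F) = ((g : GL ι F) : Matrix ι ι F) * ((g : GL ι F) : Matrix ι ι F) := by
      rw [pow_two]
      rfl
    rw [e, ← Matrix.mulVec_mulVec, hact, hact]
    simp only [Subgroup.coe_one, Units.val_one, Matrix.one_mulVec]
    have h5 : polar Q v u = 0 := hvu
    simp only [polar_sub_left, polar_smul_left, hfixu, hfixv, huv, h5]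
    simp only [smul_eq_mul, mul_zero, sub_zero]
    module
  · intro h1
    have h3 := hact u
    rw [h1] at h3
    simp only [Subgroup.coe_one, Units.val_one, Matrix.one_mulVec] at h3
    rw [huv, hfixu, zero_smul, sub_zero] at h3
    have h4 : (2 : F) • u = 0 := sub_eq_self.mp h3.symm
    have h5 : u = 0 := (smul_eq_zero.mp h4).resolve_left h2
    rw [h5, QuadraticMap.map_zero] at hu
    exact zero_ne_one hu

end main

end Cfsg.Agent.Lib.OTS
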