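import Mathlib
import Cfsg.Agent.Lib.OTS.Fix

/-!
# Invariant totally singular subspaces: numerical choices when the fixed space has odd dimension
-/

set_option autoImplicit false
set_option linter.unusedSimpArgs false
set_option linter.unusedVariables false
set_option linter.unusedSectionVars false

namespace Cfsg.Agent.Lib.OTS

open Module Polynomial Cfsg.Agent.Lib.IsomBlock QuadraticMap
open Cfsg.Agent.Lib.SpTI (TI Fs typesOf mem_typesOf card_Fs)

universe u

variable {F : Type*} [Field F] [Fintype F] {V : Type u} [AddCommGroup V] [Module F V] [FiniteDimensional F V]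
variable {Q : QuadraticForm F V} {T : V →ₗ[F] V}

/-- Numerical choice, `i` odd. -/
theorem exists_ts_of_iso_odd {r q : ℕ} [hrf : Fact r.Prime] (hq : Fintype.card F = q) (hr2 : r ≠ 2) (hrF : (r : F) ≠ 0)
    (hnd : NDOn (polarBilin Q) ⊤) (hQT : ∀ v, Q (T v) = Q v) (hTr : T ^ r = 1)
    {i m : ℕ} (hi : i = orderOf (q : ZMod r)) (hodd : ¬ Even i) (hm : 2 * m + 1 ≤ finrank F V)
    (hk : 2 * (m % i) < finrank F V % (2 * i)) :
    ∃ W : Submodule F V, InvOn T W ∧ TS Q W ∧ finrank F W = m := by
  subst hi
  set i := orderOf (q : ZMod r) with hi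
  have hB := goodForm_polar Q
  have hiso := polar_iso hQT
  have hipos : 0 < i := orderOf_pos' hq hrF
  have htop : InvOn T (⊤ : Submodule F V) := fun _ _ => trivial
  obtain ⟨s, hs⟩ := finrank_fix_add hq hr2 hrF hB hiso hTr hnd htop
  rw [finrank_top] at hs
  have hc : blockDim r q = 2 * i := by
    unfold blockDim
    rw [if_neg hodd]
  rw [hc] at hs
  set f := finrank F (fixS T (⊤ : Submodule F V)) with hf
  have hkf : finrank F V % (2 * i) ≤ f := by
    rw [hs, Nat.add_mul_mod_self_left]
    exact Nat.mod_le _ _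
  have hfnd : NDOn (polarBilin Q) (fixS T ⊤) := nd_fixS hB hiso hrf.out.ne_zero hrF hTr hnd htop
  have hm' := Nat.div_add_mod m i
  rcases le_total (m / i) s with h1 | h1
  · obtain ⟨W₀, h01, h02, h03⟩ := exists_ts_fix hfnd (b := m % i) (by omega)
    obtain ⟨W, -, h2, h3, h4⟩ := exists_ts_odd hq hr2 hrF hQT hTr hodd (m / i) ⊤ W₀ hnd htop
      (by
        rw [finrank_top, hs, ← hi]
        have : m / i * (2 * i) ≤ 2 * i * s := by
          calc m / i * (2 * i) ≤ s * (2 * i) := Nat.mul_le_mul_right _ h1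
            _ = 2 * i * s := by ring
        omega) h01 h02
    refine ⟨W, h2, h3, ?_⟩
    rw [h4, ← hi, h03, mul_comm]
    exact hm'
  · have h5 : i * s ≤ i * (m / i) := Nat.mul_le_mul_left _ h1
    obtain ⟨W₀, h01, h02, h03⟩ := exists_ts_fix hfnd (b := m - i * s) (by
        have : 2 * i * s = 2 * (i * s) := by ring
        omega)
    obtain ⟨W, -, h2, h3, h4⟩ := exists_ts_odd hq hr2 hrF hQT hTr hodd s ⊤ W₀ hnd htop
      (by
        rw [finrank_top, hs, ← hi]
        have : s * (2 * i) = 2 * i * s := by ring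
        omega) h01 h02
    refine ⟨W, h2, h3, ?_⟩
    rw [h4, ← hi, h03]
    have : s * i = i * s := by ring
    omega

/-- Numerical choice, `i` even. -/
theorem exists_ts_of_iso_even {r q : ℕ} [hrf : Fact r.Prime] (hq : Fintype.card F = q) (hr2 : r ≠ 2) (hrF : (r : F) ≠ 0)
    (hnd : NDOn (polarBilin Q) ⊤) (hQT : ∀ v, Q (T v) = Q v) (hTr : T ^ r = 1)
    {i m : ℕ} (hi : i = orderOf (q : ZMod r)) (hev : Even i)
    (hk : 2 * (m % i) < finrank F V % i) (ht : (r - 1) / i + 2 * (m / i) ≤ finrank F V / i) :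
    ∃ W : Submodule F V, InvOn T W ∧ TS Q W ∧ finrank F W = m := by
  classical
  subst hi
  set i := orderOf (q : ZMod r) with hi
  have hB := goodForm_polar Q
  have hiso := polar_iso hQT
  have hipos : 0 < i := orderOf_pos' hq hrF
  have htop : InvOn T (⊤ : Submodule F V) := fun _ _ => trivial
  obtain ⟨s, hs⟩ := finrank_fix_add hq hr2 hrF hB hiso hTr hnd htop
  rw [finrank_top] at hs
  have hc : blockDim r q = i := by
    unfold blockDim
    rw [if_pos hev]
  rw [hc] at hs
  set f := finrank F (fixS T (⊤ : Submodule F V)) with hf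
  have hfnd : NDOn (polarBilin Q) (fixS T ⊤) := nd_fixS hB hiso hrf.out.ne_zero hrF hTr hnd htop
  obtain ⟨e, he⟩ := hev
  have he2 : i = 2 * e := by omega
  have hepos : 0 < e := by omega
  set t := (r - 1) / i with ht'
  have hFs : (Fs F r).card = t := by
    have h1 := card_Fs hq hrF (F := F)
    rw [ht', ← h1, Nat.mul_div_cancel _ hipos]
  have hcard : (typesOf T r (⊤ : Submodule F V)).card ≤ t := by
    rw [← hFs]
    apply Finset.card_le_card
    intro h hh
    exact (mem_typesOf.mp hh).1
  have hkf : finrank F V % i ≤ f := by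
    rw [hs, Nat.add_mul_mod_self_left]
    exact Nat.mod_le _ _
  -- notation
  set n' := finrank F V / i with hn'
  set k := finrank F V % i with hk'
  set m' := m / i with hm'
  set l := m % i with hl
  have h1 : i * n' + k = finrank F V := Nat.div_add_mod _ _
  have h2 : i * m' + l = m := Nat.div_add_mod _ _
  have hsn : s ≤ n' := by
    by_contra hlt
    have h3 : i * (n' + 1) ≤ i * s := Nat.mul_le_mul_left _ (by omega)
    have h4 : k < i := Nat.mod_lt _ hipos
    rw [Nat.mul_add] at h3
    omega
  have hfe : f = i * (n' - s) + k := by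
    obtain ⟨y, hy⟩ := Nat.exists_eq_add_of_le hsn
    rw [hy] at h1 ⊢
    rw [Nat.add_sub_cancel_left, Nat.mul_add] at *
    omega
  set a := min m' ((s + 1 - t) / 2) with ha
  have ham : a ≤ m' := min_le_left _ _
  have hal : a ≤ (s + 1 - t) / 2 := min_le_right _ _
  have hiam : i * a ≤ i * m' := Nat.mul_le_mul_left _ ham
  have hcond : a = 0 ∨ (typesOf T r (⊤ : Submodule F V)).card + 2 * a ≤ s + 1 := by
    rcases Nat.eq_zero_or_pos a with h | h
    · exact Or.inl h
    · right
      omega
  have h2b : 2 * (m - a * i) + 1 ≤ f := by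
    rw [mul_comm a i]
    rcases eq_or_lt_of_le ham with h | h
    · rw [h]
      omega
    · have h3 : a = (s + 1 - t) / 2 := by
        rw [ha] at h ⊢
        exact min_eq_right (by
          by_contra hne
          rw [not_le] at hne
          rw [min_eq_left hne.le] at h
          omega)
      have h4 : s ≤ t + 2 * a := by omega
      have h5 : 2 * (m' - a) ≤ n' - s := by omega
      have h6 : i * (2 * (m' - a)) ≤ i * (n' - s) := Nat.mul_le_mul_left _ h5
      have h7 : m - i * a = i * (m' - a) + l := by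
        obtain ⟨y, hy⟩ := Nat.exists_eq_add_of_le ham
        rw [hy] at h2 ⊢
        rw [Nat.add_sub_cancel_left]
        rw [Nat.mul_add] at h2
        omega
      rw [h7, hfe]
      have h8 : i * (2 * (m' - a)) = 2 * (i * (m' - a)) := by ring
      omega
  obtain ⟨W₀, h01, h02, h03⟩ := exists_ts_fix hfnd h2b
  obtain ⟨W, -, h3, h4, h5⟩ := exists_ts_even hq hr2 hrF hQT hTr (e := e) (by omega) hepos _ ⊤ W₀ s a rfl hnd htop
    (by rw [finrank_top, hs, ← he2]; ring) hcond h01 h02
  refine ⟨W, h3, h4, ?_⟩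
  rw [h5, ← he2, h03, mul_comm a i]
  omega

end Cfsg.Agent.Lib.OTS
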