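import Mathlib
import Cfsg.Agent.Lib.OTS.Core
import Cfsg.Agent.Lib.ElusiveCount
import Cfsg.Agent.Lib.OrthoCount

/-!
# The number of totally singular subspaces
-/

set_option autoImplicit false
set_option linter.unusedSimpArgs false
set_option linter.unusedVariables false
set_option linter.unusedSectionVars false

namespace Cfsg.Agent.Lib.OTS

open Module QuadraticMap Cfsg.Agent.Lib.IsomBlock Cfsg.Agent.Lib.ElusiveCount

universe u

variable {F : Type*} [Field F] {V : Type u} [AddCommGroup V] [Module F V]
variable {Q : QuadraticForm F V}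

theorem Q_add' (Q : QuadraticForm F V) (x y : V) : Q (x + y) = Q x + Q y + polar Q x y := by
  rw [polar]
  ring

section off

variable {U : Submodule F V}

/-- The restriction of the polar form to `U`. -/
noncomputable def lam (Q : QuadraticForm F V) (U : Submodule F V) (x : V) : U →ₗ[F] F := (polarBilin Q x) ∘ₗ U.subtype

theorem lam_apply (x : V) (w : U) : lam Q U x w = polar Q x w := rfl

theorem lam_add_of_mem (hU : TS Q U) (x : V) {u : V} (hu : u ∈ U) (t : F) : lam Q U (x + t • u) = lam Q U x := by
  ext w
  simp only [lam_apply]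
  rw [polar_add_left, polar_smul_left]
  have h1 : polar Q u w = 0 := by
    have := hU.ti u hu w w.2
    rwa [polarBilin_apply_apply] at this
  rw [h1]
  simp

open scoped Classical in
/-- A choice of a vector with value one. -/
noncomputable def cho (Q : QuadraticForm F V) (U : Submodule F V) (l : U →ₗ[F] F) : U :=
  if h : ∃ u : U, l u = 1 then Classical.choose h else 0

theorem cho_spec {l : U →ₗ[F] F} (h : l ≠ 0) : l (cho Q U l) = 1 := by
  classical
  have hex : ∃ u : U, l u = 1 := by
    obtain ⟨w, hw⟩ : ∃ w, l w ≠ 0 := by
      by_contra hall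
      push Not at hall
      exact h (LinearMap.ext hall)
    refine ⟨(l w)⁻¹ • w, ?_⟩
    rw [map_smul, smul_eq_mul, inv_mul_cancel₀ hw]
  rw [cho, dif_pos hex]
  exact Classical.choose_spec hex

/-- Vectors off the perpendicular space: `Q` takes all values equally often. -/
theorem card_off (hU : TS Q U) :
    Nat.card {x : V // lam Q U x ≠ 0} = Nat.card F * Nat.card {x : V // lam Q U x ≠ 0 ∧ Q x = 0} := by
  classical
  let u : V → V := fun x => (cho Q U (lam Q U x) : V)
  have hu : ∀ x, u x ∈ U := fun x => (cho Q U (lam Q U x)).2
  have hQu : ∀ x, Q (u x) = 0 := fun x => hU _ (hu x)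
  have hlu : ∀ x, lam Q U x ≠ 0 → polar Q x (u x) = 1 := fun x hx => cho_spec (Q := Q) hx
  have hinv : ∀ (x : V) (t : F), u (x + t • u x) = u x := by
    intro x t
    show (cho Q U (lam Q U (x + t • u x)) : V) = _
    rw [lam_add_of_mem hU x (hu x) t]
  have hQ1 : ∀ (x : V) (t : F), lam Q U x ≠ 0 → Q (x + t • u x) = Q x + t := by
    intro x t hx
    rw [Q_add', QuadraticMap.map_smul, hQu, polar_smul_right, hlu x hx]
    simp
  let e : {x : V // lam Q U x ≠ 0} ≃ F × {x : V // lam Q U x ≠ 0 ∧ Q x = 0} :=
    { toFun := fun x => (Q x.1, ⟨x.1 + (-Q x.1) • u x.1, by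
        rw [lam_add_of_mem hU _ (hu _)]
        exact x.2, by
        rw [hQ1 _ _ x.2]
        ring⟩)
      invFun := fun z => ⟨z.2.1 + z.1 • u z.2.1, by
        rw [lam_add_of_mem hU _ (hu _)]
        exact z.2.2.1⟩
      left_inv := by
        rintro ⟨x, hx⟩
        apply Subtype.ext
        show x + (-Q x) • u x + Q x • u (x + (-Q x) • u x) = x
        rw [hinv, add_assoc, ← add_smul]
        simp
      right_inv := by
        rintro ⟨t, ⟨y, hy, hy0⟩⟩
        have h1 : Q (y + t • u y) = t := by
          rw [hQ1 y t hy, hy0, zero_add]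
        apply Prod.ext
        · exact h1
        · apply Subtype.ext
          show y + t • u y + (-Q (y + t • u y)) • u (y + t • u y) = y
          rw [hinv, h1, add_assoc, ← add_smul]
          simp }
  rw [Nat.card_congr e, Nat.card_prod]

end off

section frames

variable {k : ℕ}

/-- Totally singular independent tuples. -/
def SFrame (Q : QuadraticForm F V) (k : ℕ) : Set (Fin k → V) :=
  {f | LinearIndependent F f ∧ (∀ i, Q (f i) = 0) ∧ ∀ i j, polar Q (f i) (f j) = 0}

/-- The extensions of a tuple. -/
def SFib (Q : QuadraticForm F V) (f : Fin k → V) : Set V :=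
  {x | Q x = 0 ∧ (∀ i, polar Q (f i) x = 0) ∧ x ∉ Submodule.span F (Set.range f)}

/-- restriction of frames -/
def sinit (f : ↥(SFrame Q (k + 1))) : ↥(SFrame Q k) :=
  ⟨Fin.init f.1, (linearIndependent_finSucc'.1 f.2.1).1, fun i => f.2.2.1 _, fun i j => f.2.2.2 _ _⟩

/-- The fibre of the restriction map. -/
noncomputable def sfibEquiv (a : ↥(SFrame Q k)) :
    {x : ↥(SFrame Q (k + 1)) // sinit x = a} ≃ ↥(SFib Q a.1) where
  toFun x := ⟨x.1.1 (Fin.last k), by
    have h1 : Fin.init x.1.1 = a.1 := congrArg Subtype.val x.2
    refine ⟨x.1.2.2.1 _, ?_, ?_⟩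
    · intro i
      rw [← h1]
      exact x.1.2.2.2 _ _
    · rw [← h1]
      exact (linearIndependent_finSucc'.1 x.1.2.1).2⟩
  invFun v := ⟨⟨Fin.snoc a.1 v.1, by
      rw [linearIndependent_finSucc', Fin.init_snoc, Fin.snoc_last]
      exact ⟨a.2.1, v.2.2.2⟩, by
      intro i
      induction i using Fin.lastCases with
      | last =>
        rw [Fin.snoc_last]
        exact v.2.1
      | cast i =>
        rw [Fin.snoc_castSucc]
        exact a.2.2.1 i, by
      intro i j
      induction i using Fin.lastCases with
      | last =>
        induction j using Fin.lastCases with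
        | last =>
          rw [Fin.snoc_last, polar_self_eq', v.2.1, mul_zero]
        | cast j =>
          rw [Fin.snoc_last, Fin.snoc_castSucc, polar_comm, v.2.2.1 j]
      | cast i =>
        induction j using Fin.lastCases with
        | last =>
          rw [Fin.snoc_last, Fin.snoc_castSucc]
          exact v.2.2.1 i
        | cast j =>
          rw [Fin.snoc_castSucc, Fin.snoc_castSucc]
          exact a.2.2.2 i j⟩, by
      apply Subtype.ext
      funext i
      exact Fin.snoc_castSucc (α := fun _ => V) v.1 a.1 i⟩
  left_inv x := by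
    apply Subtype.ext
    apply Subtype.ext
    have h1 : Fin.init x.1.1 = a.1 := congrArg Subtype.val x.2
    change Fin.snoc a.1 (x.1.1 (Fin.last k)) = x.1.1
    rw [← h1, Fin.snoc_init_self]
  right_inv v := by
    apply Subtype.ext
    exact Fin.snoc_last (α := fun _ => V) v.1 a.1

variable [Fintype F] [FiniteDimensional F V]

theorem card_SFrame_succ (g : ℕ) (hg : ∀ a : ↥(SFrame Q k), Nat.card ↥(SFib Q a.1) = g) :
    Nat.card ↥(SFrame Q (k + 1)) = Nat.card ↥(SFrame Q k) * g := by
  classical
  haveI : Finite V := Module.finite_of_finite F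
  let _ : Fintype ↥(SFrame Q k) := Fintype.ofFinite _
  rw [← Nat.card_congr (Equiv.sigmaFiberEquiv (sinit (Q := Q) (k := k))), Nat.card_sigma]
  have h : ∀ a : ↥(SFrame Q k), Nat.card {x : ↥(SFrame Q (k + 1)) // sinit x = a} = g := by
    intro a
    rw [Nat.card_congr (sfibEquiv a), hg a]
  simp only [h]
  rw [Finset.sum_const, Finset.card_univ, smul_eq_mul, Nat.card_eq_fintype_card]

theorem card_SFrame_zero : Nat.card ↥(SFrame Q 0) = 1 := by
  rw [Nat.card_eq_one_iff_unique]
  constructor
  · constructor
    rintro ⟨a, _⟩ ⟨b, _⟩
    apply Subtype.ext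
    funext i
    exact i.elim0
  · exact ⟨⟨fun i => i.elim0, linearIndependent_empty_type, fun i => i.elim0, fun i => i.elim0⟩⟩

/-- The number of extensions of a frame. -/
theorem card_SFib (hQ : NDOn (polarBilin Q) ⊤) {f : Fin k → V} (hf : f ∈ SFrame Q k) :
    Fintype.card F * (Nat.card ↥(SFib Q f) + Fintype.card F ^ k) + Fintype.card F ^ finrank F V =
      Fintype.card F * Nat.card {v : V // Q v = 0} + Fintype.card F ^ (finrank F V - k) := by
  classical
  haveI : Finite V := Module.finite_of_finite F
  haveI : Fintype V := Fintype.ofFinite _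
  set q := Fintype.card F with hq
  set U := Submodule.span F (Set.range f) with hU
  have hUts : TS Q U := by
    have h1 : ∀ x ∈ U, ∀ y ∈ U, polarBilin Q x y = 0 := by
      intro x hx y hy
      induction hx using Submodule.span_induction with
      | mem x hx =>
        obtain ⟨i, rfl⟩ := hx
        induction hy using Submodule.span_induction with
        | mem y hy =>
          obtain ⟨j, rfl⟩ := hy
          rw [polarBilin_apply_apply]
          exact hf.2.2 i j
        | zero => simp
        | add x y _ _ hx hy => rw [map_add, hx, hy, add_zero]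
        | smul c x _ hx => rw [map_smul, hx, smul_zero]
      | zero => simp
      | add x y _ _ hx hy => rw [map_add, LinearMap.add_apply, hx, hy, add_zero]
      | smul c x _ hx => rw [map_smul, LinearMap.smul_apply, hx, smul_zero]
    intro w hw
    induction hw using Submodule.span_induction with
    | mem x hx =>
      obtain ⟨i, rfl⟩ := hx
      exact hf.2.1 i
    | zero => simp
    | add x y hx' hy' hx hy =>
      have h2 := h1 x hx' y hy'
      rw [polarBilin_apply_apply] at h2
      rw [Q_add', hx, hy, h2]
      ring
    | smul c x _ hx =>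
      rw [QuadraticMap.map_smul, hx, smul_zero]
  have hUfin : finrank F U = k := by
    rw [hU, finrank_span_eq_card hf.1]
    simp
  -- the perpendicular space
  have hB := goodForm_polar Q
  have hN : LinearMap.BilinForm.Nondegenerate (polarBilin Q : LinearMap.BilinForm F V) := by
    constructor
    · intro u hu
      exact hQ u trivial fun w _ => hu w
    · intro u hu
      exact hQ u trivial fun w _ => hB.refl (hu w)
  set P := LinearMap.BilinForm.orthogonal (polarBilin Q : LinearMap.BilinForm F V) U with hP
  have hPfin : finrank F P = finrank F V - k := by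
    rw [hP, LinearMap.BilinForm.finrank_orthogonal hN, hUfin]
  have hmemP : ∀ x, x ∈ P ↔ lam Q U x = 0 := by
    intro x
    rw [hP, LinearMap.BilinForm.mem_orthogonal_iff]
    constructor
    · intro h
      ext w
      rw [lam_apply, polar_comm]
      exact h w w.2
    · intro h w hw
      have h1 : lam Q U x ⟨w, hw⟩ = 0 := by rw [h]; rfl
      rw [lam_apply, polar_comm] at h1
      exact h1
  have hmemP' : ∀ x, x ∈ P ↔ ∀ i, polar Q (f i) x = 0 := by
    intro x
    rw [hP, LinearMap.BilinForm.mem_orthogonal_iff]
    constructor
    · intro h i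
      exact h _ (Submodule.subset_span ⟨i, rfl⟩)
    · intro h n hn
      induction hn using Submodule.span_induction with
      | mem u hu =>
        obtain ⟨i, rfl⟩ := hu
        exact h i
      | zero => simp [LinearMap.BilinForm.IsOrtho]
      | add a b _ _ ha hb =>
        show polarBilin Q (a + b) x = 0
        rw [map_add, LinearMap.add_apply]
        rw [show polarBilin Q a x = 0 from ha, show polarBilin Q b x = 0 from hb, add_zero]
      | smul c a _ ha =>
        show polarBilin Q (c • a) x = 0
        rw [map_smul, LinearMap.smul_apply, show polarBilin Q a x = 0 from ha, smul_zero]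
  have hUP : U ≤ P := fun x hx => by
    rw [hP, LinearMap.BilinForm.mem_orthogonal_iff]
    intro w hw
    exact hUts.ti w hw x hx
  -- the counts
  have h1 := card_off (Q := Q) hUts
  have h2 : Nat.card {x : V // lam Q U x ≠ 0} + q ^ (finrank F V - k) = q ^ finrank F V := by
    have h3 : Nat.card {x : V // lam Q U x ≠ 0} + Nat.card {x : V // lam Q U x = 0} = Nat.card V := by
      rw [← Nat.card_congr (Equiv.sumCompl (fun x : V => lam Q U x = 0)), Nat.card_sum, add_comm]
    have h4 : Nat.card {x : V // lam Q U x = 0} = q ^ (finrank F V - k) := by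
      have h5 : Nat.card {x : V // lam Q U x = 0} = Nat.card P := by
        apply Nat.card_congr
        exact Equiv.subtypeEquivRight (fun x => (hmemP x).symm)
      rw [h5, Module.natCard_eq_pow_finrank (K := F), hPfin, Nat.card_eq_fintype_card]
    have hV : Nat.card V = q ^ finrank F V := by
      rw [Module.natCard_eq_pow_finrank (K := F), Nat.card_eq_fintype_card]
    rw [h4, hV] at h3
    exact h3
  have h6 : Nat.card {v : V // Q v = 0} = Nat.card {x : V // x ∈ P ∧ Q x = 0} + Nat.card {x : V // lam Q U x ≠ 0 ∧ Q x = 0} := by
    rw [Nat.card_eq_fintype_card, Nat.card_eq_fintype_card, Nat.card_eq_fintype_card]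
    rw [Fintype.card_subtype, Fintype.card_subtype, Fintype.card_subtype]
    rw [← Finset.card_union_of_disjoint]
    · congr 1
      ext x
      simp only [Finset.mem_filter, Finset.mem_univ, true_and, Finset.mem_union]
      by_cases hx : x ∈ P
      · have h7 := (hmemP x).mp hx
        simp [hx, h7]
      · have h7 : lam Q U x ≠ 0 := fun h => hx ((hmemP x).mpr h)
        simp [hx, h7]
    · rw [Finset.disjoint_left]
      intro x hx hx'
      simp only [Finset.mem_filter, Finset.mem_univ, true_and] at hx hx'
      exact hx'.1 ((hmemP x).mp hx.1)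
  have h8 : Nat.card {x : V // x ∈ P ∧ Q x = 0} = Nat.card ↥(SFib Q f) + q ^ k := by
    have h9 : Nat.card U = q ^ k := by
      rw [Module.natCard_eq_pow_finrank (K := F), hUfin, Nat.card_eq_fintype_card]
    rw [← h9, Nat.card_eq_fintype_card, Nat.card_eq_fintype_card, Nat.card_eq_fintype_card]
    let e : {x : V // x ∈ P ∧ Q x = 0} ≃ ↥(SFib Q f) ⊕ U :=
      { toFun := fun x => if h : x.1 ∈ U then Sum.inr ⟨x.1, h⟩ else Sum.inl ⟨x.1, x.2.2, (hmemP' _).mp x.2.1, h⟩
        invFun := fun z => match z with
          | Sum.inl y => ⟨y.1, (hmemP' _).mpr y.2.2.1, y.2.1⟩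
          | Sum.inr y => ⟨y.1, hUP y.2, hUts _ y.2⟩
        left_inv := by
          rintro ⟨x, hx⟩
          by_cases h : x ∈ U
          · simp [h]
          · simp [h]
        right_inv := by
          rintro (⟨y, hy⟩ | ⟨y, hy⟩)
          · have : y ∉ U := hy.2.2
            simp [this]
          · simp [hy] }
    rw [Fintype.card_congr e, Fintype.card_sum]
  rw [h6, h8]
  rw [h1] at h2
  have hqc : Nat.card F = q := Nat.card_eq_fintype_card
  rw [hqc] at h2
  nlinarith

end frames

section subspaces

variable [Fintype F] [FiniteDimensional F V]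

/-- Double counting of frames. -/
theorem card_ts_mul (m : ℕ) :
    Nat.card {W : Submodule F V // finrank F W = m ∧ TS Q W} * ∏ i : Fin m, (Fintype.card F ^ m - Fintype.card F ^ (i : ℕ)) =
      Nat.card ↥(SFrame Q m) := by
  classical
  haveI : Finite V := Module.finite_of_finite F
  haveI : Finite (Submodule F V) := Finite.of_injective _ SetLike.coe_injective
  let P : Submodule F V → Prop := fun W => finrank F W = m ∧ TS Q W
  let f : ↥(SFrame Q m) → Submodule F V := fun a => Submodule.span F (Set.range a.1)
  have h2 := card_fiberwise f P (∏ i : Fin m, (Fintype.card F ^ m - Fintype.card F ^ (i : ℕ))) (by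
    rintro W ⟨hW1, hW2⟩
    have h3 := card_linearIndependent (K := F) (V := W) (k := m) (by rw [hW1])
    rw [hW1] at h3
    rw [← h3]
    refine Nat.card_congr
      { toFun := fun s => ⟨fun i => ⟨s.1.1 i, ?_⟩, ?_⟩
        invFun := fun s => ⟨⟨fun i => (s.1 i : V), ?_, ?_, ?_⟩, ?_⟩
        left_inv := ?_
        right_inv := ?_ }
    · have h4 : Submodule.span F (Set.range s.1.1) = W := s.2
      have h9 : (s.1.1 i) ∈ Submodule.span F (Set.range s.1.1) := Submodule.subset_span ⟨i, rfl⟩
      rw [h4] at h9
      exact h9
    · apply LinearIndependent.of_comp W.subtype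
      exact s.1.2.1
    · exact s.2.map' W.subtype (Submodule.ker_subtype W)
    · intro i
      exact hW2 _ (s.1 i).2
    · intro i j
      have := hW2.ti _ (s.1 i).2 _ (s.1 j).2
      rwa [polarBilin_apply_apply] at this
    · apply Submodule.eq_of_le_of_finrank_eq
      · apply Submodule.span_le.mpr
        rintro _ ⟨i, rfl⟩
        exact (s.1 i).2
      · rw [hW1]
        have h5 : LinearIndependent F (fun i => (s.1 i : V)) := s.2.map' W.subtype (Submodule.ker_subtype W)
        have := finrank_span_eq_card h5
        simpa using this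
    · intro s
      rfl
    · intro s
      rfl)
  have h3 : ∀ a : ↥(SFrame Q m), P (f a) := by
    intro a
    refine ⟨?_, ?_⟩
    · have := finrank_span_eq_card a.2.1
      simpa using this
    · intro w hw
      have h1 : ∀ x ∈ Submodule.span F (Set.range a.1), ∀ y ∈ Submodule.span F (Set.range a.1), polarBilin Q x y = 0 := by
        intro x hx y hy
        induction hx using Submodule.span_induction with
        | mem x hx =>
          obtain ⟨i, rfl⟩ := hx
          induction hy using Submodule.span_induction with
          | mem y hy =>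
            obtain ⟨j, rfl⟩ := hy
            rw [polarBilin_apply_apply]
            exact a.2.2.2 i j
          | zero => simp
          | add x y _ _ hx hy => rw [map_add, hx, hy, add_zero]
          | smul c x _ hx => rw [map_smul, hx, smul_zero]
        | zero => simp
        | add x y _ _ hx hy => rw [map_add, LinearMap.add_apply, hx, hy, add_zero]
        | smul c x _ hx => rw [map_smul, LinearMap.smul_apply, hx, smul_zero]
      induction hw using Submodule.span_induction with
      | mem x hx =>
        obtain ⟨i, rfl⟩ := hx
        exact a.2.2.1 i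
      | zero => simp
      | add x y hx' hy' hx hy =>
        have h2 := h1 x hx' y hy'
        rw [polarBilin_apply_apply] at h2
        rw [Q_add', hx, hy, h2]
        ring
      | smul c x _ hx =>
        rw [QuadraticMap.map_smul, hx, smul_zero]
  have h4 : Nat.card {a // P (f a)} = Nat.card ↥(SFrame Q m) := Nat.card_congr
    { toFun := fun a => a.1
      invFun := fun a => ⟨a, h3 a⟩
      left_inv := fun a => rfl
      right_inv := fun a => rfl }
  rw [h4] at h2
  exact h2.symm

end subspaces

end Cfsg.Agent.Lib.OTS
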