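import Mathlib
import Cfsg.Agent.Lib.OTS.Count
import Cfsg.Agent.Lib.OTS.Fix
import Cfsg.Agent.S2673

/-!
# The number of totally singular subspaces in odd dimension
-/

set_option autoImplicit false
set_option linter.unusedSimpArgs false
set_option linter.unusedVariables false
set_option linter.unusedSectionVars false

namespace Cfsg.Agent.Lib.OTS

open Module QuadraticMap Cfsg.Agent.Lib.IsomBlock Cfsg.Agent.Lib.ElusiveCount Cfsg.Agent.Lib.OrthoCount

universe u

section general

variable {F : Type*} [Field F] {V : Type u} [AddCommGroup V] [Module F V] [FiniteDimensional F V]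
variable {Q : QuadraticForm F V}

/-- Frames are bounded. -/
theorem frame_bound (hQ : NDOn (polarBilin Q) ⊤) {k : ℕ} {f : Fin k → V} (hf : f ∈ SFrame Q k) : 2 * k ≤ finrank F V := by
  have h1 := ts_span f hf.2.1 hf.2.2
  have h2 := ti_bound' (goodForm_polar Q) (fun v hv => hQ v trivial fun w _ => hv w) h1.ti
  have h3 := finrank_span_eq_card hf.1
  have h4 : finrank F (Submodule.span F (Set.range f)) = k := by simpa using h3
  omega

end general

variable {F : Type u} [Field F] [Fintype F]

/-- The number of frames in odd dimension. -/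
theorem card_SFrame_odd (hodd : Odd (Fintype.card F)) (d k : ℕ) :
    Nat.card ↥(SFrame (qOdd d F) k) = ∏ l ∈ Finset.range k, (Fintype.card F ^ (2 * d - l) - Fintype.card F ^ l) := by
  have hnd' := Cfsg.Agent.S2673.nd_odd hodd d
  have hnd : NDOn (polarBilin (qOdd d F)) ⊤ := fun v _ hv => hnd' v fun w => hv w trivial
  have hfin : finrank F (Unit ⊕ (Fin d ⊕ Fin d) → F) = 2 * d + 1 := by
    simp
    ring
  have hq : 0 < Fintype.card F := Fintype.card_pos
  induction k with
  | zero =>
    rw [card_SFrame_zero, Finset.range_zero, Finset.prod_empty]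
  | succ k ih =>
    rw [Finset.prod_range_succ, ← ih]
    apply card_SFrame_succ
    intro a
    have h1 := card_SFib hnd a.2
    have h2 := frame_bound hnd a.2
    rw [hfin] at h1 h2
    have hz : Nat.card {v : Unit ⊕ (Fin d ⊕ Fin d) → F // qOdd d F v = 0} = Fintype.card F ^ (2 * d) := by
      rw [← card_zeros_odd rfl d]
      apply Nat.card_congr
      apply Equiv.subtypeEquivRight
      intro v
      rw [qOdd_apply]
    rw [hz] at h1
    set q := Fintype.card F with hqdef
    have h3 : 2 * d + 1 - k = (2 * d - k) + 1 := by omega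
    rw [h3, pow_succ (q) (2 * d - k), pow_succ q (2 * d)] at h1
    have h4 : q * (Nat.card ↥(SFib (qOdd d F) a.1) + q ^ k) = q * q ^ (2 * d - k) := by
      nlinarith
    have h5 := Nat.eq_of_mul_eq_mul_left hq h4
    omega

/-- The number of totally singular subspaces, up to the cancellation of powers of `q`. -/
theorem card_ts_odd (hodd : Odd (Fintype.card F)) {d m : ℕ} (hm : m ≤ d) :
    Nat.card {W : Submodule F (Unit ⊕ (Fin d ⊕ Fin d) → F) // finrank F W = m ∧ TS (qOdd d F) W} * BB (Fintype.card F) m m =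
      ∏ j ∈ Finset.range m, (Fintype.card F ^ (2 * (d - j)) - 1) := by
  have h1 := card_ts_mul (Q := qOdd d F) m
  rw [card_SFrame_odd hodd] at h1
  have hq : 1 ≤ Fintype.card F := Fintype.card_pos
  set q := Fintype.card F with hqdef
  rw [prod_sub_pow _ _ _ hq le_rfl] at h1
  have h2 : ∏ i ∈ Finset.range m, (q ^ (2 * d - i) - q ^ i) = (∏ j ∈ Finset.range m, q ^ j) * ∏ j ∈ Finset.range m, (q ^ (2 * (d - j)) - 1) := by
    rw [← Finset.prod_mul_distrib]
    apply Finset.prod_congr rfl
    intro j hj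
    rw [Finset.mem_range] at hj
    have h3 : q ^ (2 * d - j) = q ^ j * q ^ (2 * (d - j)) := by
      rw [← pow_add]
      congr 1
      omega
    rw [h3, Nat.mul_sub_one]
  rw [h2] at h1
  have hpos : 0 < ∏ j ∈ Finset.range m, q ^ j := Finset.prod_pos fun j _ => pow_pos (by omega) _
  apply Nat.eq_of_mul_eq_mul_left hpos
  rw [← h1]
  ring

/-- A prime dividing the number of totally singular subspaces. -/
theorem prime_dvd_card_ts_odd {p : ℕ} [hp : Fact p.Prime] [CharP F p] (hodd : Odd (Fintype.card F)) {d m r : ℕ} (hm : m ≤ d) (hr : r.Prime)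
    (h : r ∣ Nat.card {W : Submodule F (Unit ⊕ (Fin d ⊕ Fin d) → F) // finrank F W = m ∧ ∀ w ∈ W, Cfsg.quadFormOdd d F w = 0}) :
    r ≠ p ∧ ∃ j, j < m ∧ r ∣ Fintype.card F ^ (2 * (d - j)) - 1 := by
  have e : Nat.card {W : Submodule F (Unit ⊕ (Fin d ⊕ Fin d) → F) // finrank F W = m ∧ ∀ w ∈ W, Cfsg.quadFormOdd d F w = 0} =
      Nat.card {W : Submodule F (Unit ⊕ (Fin d ⊕ Fin d) → F) // finrank F W = m ∧ TS (qOdd d F) W} := by
    apply Nat.card_congr
    apply Equiv.subtypeEquivRight
    intro W
    simp only [TS, qOdd_apply]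
  rw [e] at h
  have h1 := card_ts_odd hodd hm
  have h2 : r ∣ ∏ j ∈ Finset.range m, (Fintype.card F ^ (2 * (d - j)) - 1) := by
    rw [← h1]
    exact h.trans (dvd_mul_right _ _)
  obtain ⟨j, hj, hj2⟩ := (Prime.dvd_finsetProd_iff hr.prime _).mp h2
  rw [Finset.mem_range] at hj
  exact ⟨ne_char_of_dvd (p := p) hr (by omega) hj2, j, hj, hj2⟩

end Cfsg.Agent.Lib.OTS
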