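import Mathlib
import Cfsg.Agent.Lib.OTS.Count
import Cfsg.Agent.Lib.OTS.CountOdd

/-!
# The number of totally singular subspaces in even dimension
-/

set_option autoImplicit false
set_option linter.unusedSimpArgs false
set_option linter.unusedVariables false
set_option linter.unusedSectionVars false

namespace Cfsg.Agent.Lib.OTS

open Module QuadraticMap Cfsg.Agent.Lib.IsomBlock Cfsg.Agent.Lib.ElusiveCount Cfsg.Agent.Lib.OrthoCount

universe u

variable {F : Type*} [Field F] [Fintype F] {V : Type u} [AddCommGroup V] [Module F V] [FiniteDimensional F V]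
variable {Q : QuadraticForm F V}

theorem card_SFib_even {ε : ℤ} (hε : ε * ε = 1) {d' : ℕ} (hnd : NDOn (polarBilin Q) ⊤) (hdim : finrank F V = 2 * (d' + 1))
    (hz : (Nat.card {v // Q v = 0} : ℤ) = (Fintype.card F : ℤ) ^ (2 * d' + 1) + ε * (Fintype.card F : ℤ) ^ (d' + 1) - ε * (Fintype.card F : ℤ) ^ d')
    {k : ℕ} (hk : k ≤ d') {f : Fin k → V} (hf : f ∈ SFrame Q k) :
    (Nat.card ↥(SFib Q f) : ℤ) = (Fintype.card F : ℤ) ^ k * (((Fintype.card F : ℤ) ^ (d' + 1 - k) - ε) * ((Fintype.card F : ℤ) ^ (d' - k) + ε)) := by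
  have h1 := card_SFib hnd hf
  rw [hdim] at h1
  obtain ⟨y, rfl⟩ := Nat.exists_eq_add_of_le hk
  have e1 : 2 * (k + y + 1) - k = k + 2 * y + 2 := by omega
  have e2 : k + y + 1 - k = y + 1 := by omega
  have e3 : k + y - k = y := by omega
  rw [e1] at h1
  rw [e2, e3]
  have h2 := congrArg (Nat.cast : ℕ → ℤ) h1
  push_cast at h2
  rw [hz] at h2
  have hq0 : (Fintype.card F : ℤ) ≠ 0 := by exact_mod_cast Fintype.card_ne_zero
  apply mul_left_cancel₀ hq0
  set q : ℤ := (Fintype.card F : ℤ)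
  linear_combination h2 + q * q ^ k * (hε - 1 + 1) - q * q ^ k * 1

theorem card_SFrame_even {ε : ℤ} (hε : ε * ε = 1) {d' : ℕ} (hnd : NDOn (polarBilin Q) ⊤) (hdim : finrank F V = 2 * (d' + 1))
    (hz : (Nat.card {v // Q v = 0} : ℤ) = (Fintype.card F : ℤ) ^ (2 * d' + 1) + ε * (Fintype.card F : ℤ) ^ (d' + 1) - ε * (Fintype.card F : ℤ) ^ d')
    (k : ℕ) (hk : k ≤ d' + 1) :
    (Nat.card ↥(SFrame Q k) : ℤ) = ∏ l ∈ Finset.range k, ((Fintype.card F : ℤ) ^ l * (((Fintype.card F : ℤ) ^ (d' + 1 - l) - ε) * ((Fintype.card F : ℤ) ^ (d' - l) + ε))) := by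
  induction k with
  | zero =>
    rw [card_SFrame_zero, Finset.range_zero, Finset.prod_empty]
    rfl
  | succ k ih =>
    rw [Finset.prod_range_succ, ← ih (by omega)]
    have hg : ∀ a : ↥(SFrame Q k), Nat.card ↥(SFib Q a.1) =
        ((Fintype.card F : ℤ) ^ k * (((Fintype.card F : ℤ) ^ (d' + 1 - k) - ε) * ((Fintype.card F : ℤ) ^ (d' - k) + ε))).toNat := by
      intro a
      rw [← card_SFib_even hε hnd hdim hz (by omega) a.2]
      simp
    rw [card_SFrame_succ _ hg, Nat.cast_mul]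
    by_cases hne : Nonempty ↥(SFrame Q k)
    · obtain ⟨a⟩ := hne
      rw [Int.toNat_of_nonneg]
      rw [← card_SFib_even hε hnd hdim hz (by omega) a.2]
      positivity
    · have h0 : Nat.card ↥(SFrame Q k) = 0 := by
        rw [Nat.card_eq_zero]
        left
        exact not_nonempty_iff.mp hne
      rw [h0]
      simp

/-- The number of totally singular subspaces. -/
theorem card_ts_even {ε : ℤ} (hε : ε * ε = 1) {d' : ℕ} (hnd : NDOn (polarBilin Q) ⊤) (hdim : finrank F V = 2 * (d' + 1))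
    (hz : (Nat.card {v // Q v = 0} : ℤ) = (Fintype.card F : ℤ) ^ (2 * d' + 1) + ε * (Fintype.card F : ℤ) ^ (d' + 1) - ε * (Fintype.card F : ℤ) ^ d')
    {m : ℕ} (hm : m ≤ d' + 1) :
    (Nat.card {W : Submodule F V // finrank F W = m ∧ TS Q W} : ℤ) * (BB (Fintype.card F) m m : ℤ) =
      ∏ j ∈ Finset.range m, (((Fintype.card F : ℤ) ^ (d' + 1 - j) - ε) * ((Fintype.card F : ℤ) ^ (d' - j) + ε)) := by
  have h1 := card_ts_mul (Q := Q) m
  have hq : 1 ≤ Fintype.card F := Fintype.card_pos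
  have h3 := card_SFrame_even hε hnd hdim hz m hm
  rw [← h1, prod_sub_pow _ _ _ hq le_rfl] at h3
  rw [Finset.prod_mul_distrib] at h3
  push_cast at h3
  have hpos : (∏ j ∈ Finset.range m, (Fintype.card F : ℤ) ^ j) ≠ 0 := by
    apply Finset.prod_ne_zero_iff.mpr
    intro j _
    have : (Fintype.card F : ℤ) ≠ 0 := by exact_mod_cast Fintype.card_ne_zero
    positivity
  apply mul_left_cancel₀ hpos
  rw [← h3]
  unfold BB
  push_cast
  ring

/-- A prime dividing the number of totally singular subspaces. -/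
theorem prime_dvd_card_ts_even {p : ℕ} [hp : Fact p.Prime] [CharP F p] {ε : ℤ} (hε : ε * ε = 1) {d' : ℕ} (hnd : NDOn (polarBilin Q) ⊤) (hdim : finrank F V = 2 * (d' + 1))
    (hz : (Nat.card {v // Q v = 0} : ℤ) = (Fintype.card F : ℤ) ^ (2 * d' + 1) + ε * (Fintype.card F : ℤ) ^ (d' + 1) - ε * (Fintype.card F : ℤ) ^ d')
    {m r : ℕ} [hrf : Fact r.Prime] (hm : m ≤ d')
    (h : r ∣ Nat.card {W : Submodule F V // finrank F W = m ∧ TS Q W}) :
    r ≠ p ∧ ∃ j, j < m ∧ (((Fintype.card F : ℕ) : ZMod r) ^ (d' + 1 - j) = ((ε : ℤ) : ZMod r) ∨ ((Fintype.card F : ℕ) : ZMod r) ^ (d' - j) = -((ε : ℤ) : ZMod r)) := by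
  have hr := hrf.out
  have h1 := card_ts_even hε hnd hdim hz (m := m) (by omega)
  have h2 : (r : ℤ) ∣ ∏ j ∈ Finset.range m, (((Fintype.card F : ℤ) ^ (d' + 1 - j) - ε) * ((Fintype.card F : ℤ) ^ (d' - j) + ε)) := by
    rw [← h1]
    exact Dvd.dvd.mul_right (by exact_mod_cast h) _
  obtain ⟨j, hj, hj2⟩ := (Prime.dvd_finsetProd_iff (Nat.prime_iff_prime_int.mp hr) _).mp h2
  rw [Finset.mem_range] at hj
  have h3 := (ZMod.intCast_zmod_eq_zero_iff_dvd _ r).mpr hj2
  push_cast at h3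
  have hεne : ((ε : ℤ) : ZMod r) * ((ε : ℤ) : ZMod r) = 1 := by
    have := congrArg (Int.cast : ℤ → ZMod r) hε
    push_cast at this
    exact this
  refine ⟨?_, j, hj, ?_⟩
  · rintro rfl
    obtain ⟨n, -, hn⟩ := FiniteField.card F r
    have h4 : ((Fintype.card F : ℕ) : ZMod r) = 0 := by
      rw [hn]
      push_cast
      rw [ZMod.natCast_self]
      exact zero_pow n.ne_zero
    rw [h4, zero_pow (by omega), zero_pow (by omega)] at h3
    have h5 : (1 : ZMod r) = 0 := by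
      linear_combination -h3 - hεne
    exact one_ne_zero h5
  · rcases mul_eq_zero.mp h3 with h4 | h4
    · exact Or.inl (sub_eq_zero.mp h4)
    · exact Or.inr (eq_neg_of_add_eq_zero_left h4)

end Cfsg.Agent.Lib.OTS
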