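import Mathlib
import Cfsg.Agent.Lib.OTS.Fix
import Cfsg.Agent.Lib.OTS.Count
import Cfsg.Agent.Lib.Om9C
import Cfsg.Agent.Lib.HypBlock

/-!
# The type of a nondegenerate subspace of even dimension
-/

set_option autoImplicit false
set_option linter.unusedSimpArgs false
set_option linter.unusedVariables false
set_option linter.unusedSectionVars false

namespace Cfsg.Agent.Lib.OTS

open Module QuadraticMap Cfsg.Agent.Lib.IsomBlock
open Cfsg.Agent.Lib.QuadFF Cfsg.Agent.Lib.OrthoCount Cfsg.Agent.Lib.QuadClass Cfsg.Agent.Lib.OrthRealize Cfsg.Agent.Lib.QuadClass2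
open Cfsg.Agent.Lib.Om9 (Ty Ty_or Ty_of_ts)

universe u

variable {F : Type u} [Field F] [Fintype F] {V : Type u} [AddCommGroup V] [Module F V] [FiniteDimensional F V]
variable {Q : QuadraticForm F V}

/-- A totally singular subspace of half the dimension. -/
def PlusOn (Q : QuadraticForm F V) (U : Submodule F V) : Prop := ∃ W ≤ U, TS Q W ∧ 2 * finrank F W = finrank F U

theorem plusOn_of_zero {U : Submodule F V} (h : finrank F U = 0) : PlusOn Q U :=
  ⟨⊥, bot_le, ts_bot, by rw [finrank_bot, h]⟩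

theorem nd_restr' {U : Submodule F V} (hU : NDOn (polarBilin Q) U) : ND (restr Q U) := by
  rintro ⟨x, hx⟩ hall
  apply Subtype.ext
  apply hU x hx
  intro w hw
  have := hall ⟨w, hw⟩
  rw [polar_restr] at this
  rw [polarBilin_apply_apply]
  exact this

/-- Totally singular subspaces of `U` in terms of the restricted form. -/
theorem plusOn_iff_restr {U : Submodule F V} : PlusOn Q U ↔
    ∃ K : Submodule F U, (∀ v ∈ K, restr Q U v = 0) ∧ 2 * finrank F K = finrank F U := by
  constructor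
  · rintro ⟨W, hWU, hW, hd⟩
    refine ⟨W.comap U.subtype, fun v hv => hW _ hv, ?_⟩
    rw [← hd]
    congr 1
    exact (Submodule.comapSubtypeEquivOfLe hWU).finrank_eq
  · rintro ⟨K, hK, hd⟩
    refine ⟨K.map U.subtype, Submodule.map_subtype_le _ _, ?_, ?_⟩
    · rintro _ ⟨v, hv, rfl⟩
      exact hK v hv
    · rw [← hd]
      congr 1
      exact LinearEquiv.finrank_eq (Submodule.equivMapOfInjective _ U.injective_subtype K).symm

/-- Type of the restricted form, in terms of `PlusOn`. -/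
theorem ty_plus {U : Submodule F V} (hU : NDOn (polarBilin Q) U) {a : ℕ} (hd : finrank F U = 2 * a) (h : PlusOn Q U) :
    Ty (restr Q U) a 1 := by
  rcases Nat.eq_zero_or_pos a with rfl | hpos
  · intro c
    have hbot : U = ⊥ := by
      rw [← Submodule.finrank_eq_zero (R := F)]
      omega
    subst hbot
    have hsub : Subsingleton (⊥ : Submodule F V) := by infer_instance
    by_cases hc : c = 0
    · subst hc
      have h1 : Nat.card {v : (⊥ : Submodule F V) // restr Q ⊥ v = 0} = 1 := by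
        rw [Nat.card_eq_one_iff_unique]
        refine ⟨⟨fun x y => Subtype.ext (Subsingleton.elim _ _)⟩, ⟨⟨0, map_zero _⟩⟩⟩
      rw [h1, if_pos rfl]
      simp
    · have h1 : Nat.card {v : (⊥ : Submodule F V) // restr Q ⊥ v = c} = 0 := by
        rw [Nat.card_eq_zero]
        left
        constructor
        rintro ⟨v, hv⟩
        apply hc
        rw [← hv, Subsingleton.elim v 0, map_zero]
      rw [h1, if_neg hc]
      simp
  · obtain ⟨m, rfl⟩ : ∃ m, a = m + 1 := ⟨a - 1, by omega⟩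
    obtain ⟨K, hK, hKd⟩ := plusOn_iff_restr.mp h
    exact Ty_of_ts hd (nd_restr' hU) K hK (by omega)

theorem ty_unique {W : Type*} [AddCommGroup W] [Module F W] {Q' : QuadraticForm F W} {m : ℕ} (h : Ty Q' m 1) (h' : Ty Q' m (-1)) : False := by
  have h1 := h 0
  have h2 := h' 0
  rw [if_pos rfl] at h1 h2
  have hq : (1 : ℤ) < Fintype.card F := by exact_mod_cast Fintype.one_lt_card
  have h3 : ((Fintype.card F : ℤ)) ^ m * ((Fintype.card F : ℤ) - 1) = 0 := by
    have h4 : (1 : ℤ) * (Fintype.card F : ℤ) ^ m * ((Fintype.card F : ℤ) - 1) = -1 * (Fintype.card F : ℤ) ^ m * ((Fintype.card F : ℤ) - 1) := by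
      linarith
    linarith
  have h5 : (0 : ℤ) < (Fintype.card F : ℤ) ^ m := by positivity
  have h6 : (0 : ℤ) < (Fintype.card F : ℤ) - 1 := by linarith
  have := mul_pos h5 h6
  omega

/-- The dichotomy. -/
theorem ty_or {U : Submodule F V} (hU : NDOn (polarBilin Q) U) {a : ℕ} (hd : finrank F U = 2 * a) :
    (PlusOn Q U ∧ Ty (restr Q U) a 1) ∨ (¬ PlusOn Q U ∧ Ty (restr Q U) a (-1)) := by
  by_cases h : PlusOn Q U
  · exact Or.inl ⟨h, ty_plus hU hd h⟩
  · right
    refine ⟨h, ?_⟩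
    rcases Nat.eq_zero_or_pos a with rfl | hpos
    · exact absurd (plusOn_of_zero (by omega)) h
    · obtain ⟨m, rfl⟩ : ∃ m, a = m + 1 := ⟨a - 1, by omega⟩
      rcases Ty_or hd (restr Q U) (nd_restr' hU) with h1 | h1
      · -- a form of plus count has a hyperbolic basis
        exfalso
        apply h
        rw [plusOn_iff_restr]
        rcases std_cases hd (restr Q U) (nd_restr' hU) with ⟨b, hb⟩ | ⟨k, hk, b, ζ, hb⟩
        · obtain ⟨K, h2, h3⟩ := exists_ts_of_hyp hb
          exact ⟨K, h2, by rw [h3, hd]⟩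
        · obtain rfl : m = k := by omega
          obtain ⟨e, he⟩ := iso_of_minus_basis (nd_restr' hU) hb
          have h4 := (Cfsg.Agent.Lib.Om9.Ty_qMinus hb.1 m).congr e.symm (fun v => by rw [← he, e.apply_symm_apply])
          exact (ty_unique h1 h4).elim
      · exact h1

/-- The type of an orthogonal decomposition. -/
theorem plusOn_sum (hnd : NDOn (polarBilin Q) ⊤) {U : Submodule F V} (hU : NDOn (polarBilin Q) U) {a b : ℕ} (hd : finrank F U = 2 * a)
    (hd' : finrank F (perp (polarBilin Q) U) = 2 * b) :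
    PlusOn Q ⊤ ↔ (PlusOn Q U ↔ PlusOn Q (perp (polarBilin Q) U)) := by
  classical
  have hB := goodForm_polar Q
  have hU' : NDOn (polarBilin Q) (perp (polarBilin Q) U) := by
    have h := nd_rel hB (le_top : U ≤ ⊤) hU hnd
    rwa [top_inf_eq] at h
  have hc := isCompl_perp hB hU
  have hdim : finrank F V = 2 * (a + b) := by
    have h := finrank_rel hB (le_top : U ≤ ⊤) hU
    rw [top_inf_eq, finrank_top] at h
    omega
  have hndQ : ND Q := fun v hv => hnd v trivial fun w _ => hv w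
  -- the isometry
  let e : (U × perp (polarBilin Q) U) ≃ₗ[F] V := Submodule.prodEquivOfIsCompl _ _ hc
  have he : ∀ v, Q (e v) = ((restr Q U).prod (restr Q (perp (polarBilin Q) U))) v := by
    rintro ⟨u, u'⟩
    have h1 : e (u, u') = (u : V) + u' := by
      simp [e, Submodule.coe_prodEquivOfIsCompl']
    rw [h1, Q_add', QuadraticMap.prod_apply]
    have h2 : polar Q (u : V) u' = 0 := u'.2 u u.2
    rw [h2, add_zero]
    rfl
  haveI : Finite V := Module.finite_of_finite F
  haveI : Finite U := inferInstance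
  have hV : ∀ {ε : ℤ}, Ty ((restr Q U).prod (restr Q (perp (polarBilin Q) U))) (a + b) ε → Ty Q (a + b) ε := by
    intro ε h
    exact h.congr e (fun v => he v)
  have hVtop : ∀ {ε : ℤ}, Ty Q (a + b) ε → Ty (restr Q (⊤ : Submodule F V)) (a + b) ε := by
    intro ε h
    exact h.congr (LinearEquiv.ofTop ⊤ rfl).symm (fun v => rfl)
  have htop : NDOn (polarBilin Q) (⊤ : Submodule F V) := hnd
  have hdtop : finrank F (⊤ : Submodule F V) = 2 * (a + b) := by
    rw [finrank_top, hdim]
  rcases ty_or hU hd with ⟨h1, t1⟩ | ⟨h1, t1⟩ <;> rcases ty_or hU' hd' with ⟨h2, t2⟩ | ⟨h2, t2⟩ <;>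
    rcases ty_or htop hdtop with ⟨h3, t3⟩ | ⟨h3, t3⟩
  · tauto
  · have t4 := hVtop (hV (t1.prod t2))
    norm_num at t4
    exact (ty_unique t4 t3).elim
  · have t4 := hVtop (hV (t1.prod t2))
    norm_num at t4
    exact (ty_unique t3 t4).elim
  · tauto
  · have t4 := hVtop (hV (t1.prod t2))
    norm_num at t4
    exact (ty_unique t3 t4).elim
  · tauto
  · tauto
  · have t4 := hVtop (hV (t1.prod t2))
    norm_num at t4
    exact (ty_unique t4 t3).elim


section free

variable {T : V →ₗ[F] V} {r q : ℕ}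

theorem restrict_pow_apply {U : Submodule F V} (hinv : InvOn T U) (n : ℕ) (x : U) :
    (((T.restrict hinv) ^ n) x : V) = (T ^ n) x := by
  induction n generalizing x with
  | zero => rfl
  | succ n ih =>
    rw [pow_succ, pow_succ]
    show (((T.restrict hinv) ^ n) (T.restrict hinv x) : V) = (T ^ n) (T x)
    rw [ih]
    rfl

/-- Types of fixed-point-free subspaces. -/
theorem free_plus [hrf : Fact r.Prime] {U' : Submodule F V} (hU' : NDOn (polarBilin Q) U') (hQT : ∀ v, Q (T v) = Q v) (hTr : T ^ r = 1)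
    (hinv : InvOn T U') (hfree : FixFree T U') (hrq : ((Fintype.card F : ℕ) : ZMod r) ≠ 0) {k : ℕ} (hd : finrank F U' = 2 * (k + 1)) :
    (PlusOn Q U' → ((Fintype.card F : ℕ) : ZMod r) ^ (k + 1) = 1) ∧ (¬ PlusOn Q U' → ((Fintype.card F : ℕ) : ZMod r) ^ (k + 1) = -1) := by
  have hN := nd_restr' hU'
  have hT' : ∀ x : U', restr Q U' (T.restrict hinv x) = restr Q U' x := fun x => hQT x
  have hr' : (T.restrict hinv) ^ r = 1 := by
    ext x
    rw [restrict_pow_apply, hTr]
    rfl
  have hfree' : ∀ x : U', T.restrict hinv x = x → x = 0 := by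
    rintro ⟨x, hx⟩ h
    apply Subtype.ext
    exact hfree x hx (congrArg Subtype.val h)
  obtain ⟨h1, h2⟩ := free_type hN (k := k) (T.restrict hinv) hT' hr' hfree' hrq
  constructor
  · intro hp
    obtain ⟨K, hK, hKd⟩ := plusOn_iff_restr.mp hp
    exact h1 (hyp_of_ts hd hN K hK (by omega))
  · intro hp
    apply h2
    apply minus_of_no_ts hd hN
    intro K hK hKd
    apply hp
    exact plusOn_iff_restr.mpr ⟨K, hK, by omega⟩

theorem q_ne_zero_zmod [hrf : Fact r.Prime] (hrF : (r : F) ≠ 0) : ((Fintype.card F : ℕ) : ZMod r) ≠ 0 := by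
  intro h
  exact not_dvd_card (r := r) rfl hrF ((ZMod.natCast_eq_zero_iff _ _).mp h)

/-- The perpendicular of the fixed space. -/
theorem perp_fix_data [hrf : Fact r.Prime] (hrF : (r : F) ≠ 0) (hnd : NDOn (polarBilin Q) ⊤) (hQT : ∀ v, Q (T v) = Q v) (hTr : T ^ r = 1) :
    NDOn (polarBilin Q) (fixS T ⊤) ∧ NDOn (polarBilin Q) (perp (polarBilin Q) (fixS T ⊤)) ∧ InvOn T (perp (polarBilin Q) (fixS T ⊤)) ∧
      FixFree T (perp (polarBilin Q) (fixS T ⊤)) ∧ finrank F (perp (polarBilin Q) (fixS T ⊤)) + finrank F (fixS T ⊤) = finrank F V := by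
  have hB := goodForm_polar Q
  have hiso := polar_iso hQT
  have hr0 : r ≠ 0 := hrf.out.ne_zero
  have h0 : NDOn (polarBilin Q) (fixS T ⊤) := nd_fixS hB hiso hr0 hrF hTr hnd (fun _ _ => trivial)
  have h1 : NDOn (polarBilin Q) (perp (polarBilin Q) (fixS T ⊤)) := by
    have h := nd_rel hB (le_top : fixS T ⊤ ≤ ⊤) h0 hnd
    rwa [top_inf_eq] at h
  refine ⟨h0, h1, inv_perp hiso hr0 hTr (inv_fixS ⊤), ?_, ?_⟩
  · intro u hu hfix
    apply h0 u (mem_fixS.mpr ⟨trivial, hfix⟩)
    intro w hw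
    exact hB.refl (hu w hw)
  · have h := finrank_rel hB (le_top : fixS T ⊤ ≤ ⊤) h0
    rw [top_inf_eq, finrank_top] at h
    omega

/-- The type of the fixed space, `i` even. -/
theorem fix_type_even [hrf : Fact r.Prime] (hq : Fintype.card F = q) (hr2 : r ≠ 2) (hrF : (r : F) ≠ 0) (hnd : NDOn (polarBilin Q) ⊤) (hQT : ∀ v, Q (T v) = Q v) (hTr : T ^ r = 1)
    {e : ℕ} (hi : orderOf (q : ZMod r) = 2 * e) (he : 0 < e) {s : ℕ} (hs : finrank F V = finrank F (fixS T ⊤) + s * (2 * e)) (hev : Even (finrank F V)) :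
    PlusOn Q ⊤ ↔ (PlusOn Q (fixS T ⊤) ↔ Even s) := by
  subst hq
  obtain ⟨h0, h1, hinv, hfree, hdim⟩ := perp_fix_data hrF hnd hQT hTr
  have hd' : finrank F (perp (polarBilin Q) (fixS T ⊤)) = 2 * (s * e) := by
    have : s * (2 * e) = 2 * (s * e) := by ring
    omega
  have hfe : ∃ a, finrank F (fixS T ⊤) = 2 * a := by
    obtain ⟨n, hn⟩ := hev
    exact ⟨n - s * e, by
      have : s * (2 * e) = 2 * (s * e) := by ring
      omega⟩
  obtain ⟨a, ha⟩ := hfe
  rw [plusOn_sum hnd h0 ha hd']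
  suffices h : PlusOn Q (perp (polarBilin Q) (fixS T ⊤)) ↔ Even s by rw [h]
  rcases Nat.eq_zero_or_pos s with rfl | hspos
  · simp only [Even.zero, iff_true]
    exact plusOn_of_zero (by omega)
  obtain ⟨k, hk⟩ : ∃ k, s * e = k + 1 := ⟨s * e - 1, by
    have : 0 < s * e := Nat.mul_pos hspos he
    omega⟩
  rw [hk] at hd'
  obtain ⟨h2, h3⟩ := free_plus h1 hQT hTr hinv hfree (q_ne_zero_zmod hrF) hd'
  have h4 : ((Fintype.card F : ℕ) : ZMod r) ^ e = -1 := by
    have h5 := Cfsg.Agent.Lib.HypBlock.dvd_of_order_even hi he.ne'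
    have h6 : (((Fintype.card F : ℕ) ^ e + 1 : ℕ) : ZMod r) = 0 := (ZMod.natCast_eq_zero_iff _ _).mpr h5
    push_cast at h6
    exact eq_neg_of_add_eq_zero_left h6
  have h5 : ((Fintype.card F : ℕ) : ZMod r) ^ (k + 1) = (-1) ^ s := by
    rw [← hk, mul_comm, pow_mul, h4]
  rw [h5] at h2 h3
  have hne := Cfsg.Agent.Lib.DualFactors.neg_one_ne hr2
  constructor
  · intro hp
    by_contra hs'
    rw [Nat.not_even_iff_odd] at hs'
    have := h2 hp
    rw [hs'.neg_one_pow] at this
    exact hne this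
  · intro hs'
    by_contra hp
    have := h3 hp
    rw [hs'.neg_one_pow] at this
    exact hne this.symm

/-- The type of the fixed space, `i` odd. -/
theorem fix_type_odd [hrf : Fact r.Prime] (hq : Fintype.card F = q) (hr2 : r ≠ 2) (hrF : (r : F) ≠ 0) (hnd : NDOn (polarBilin Q) ⊤) (hQT : ∀ v, Q (T v) = Q v) (hTr : T ^ r = 1)
    {s : ℕ} (hs : finrank F V = finrank F (fixS T ⊤) + s * (2 * orderOf (q : ZMod r))) (hev : Even (finrank F V)) :
    PlusOn Q ⊤ ↔ PlusOn Q (fixS T ⊤) := by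
  subst hq
  obtain ⟨h0, h1, hinv, hfree, hdim⟩ := perp_fix_data hrF hnd hQT hTr
  set i := orderOf ((Fintype.card F : ℕ) : ZMod r) with hi
  have hd' : finrank F (perp (polarBilin Q) (fixS T ⊤)) = 2 * (s * i) := by
    have : s * (2 * i) = 2 * (s * i) := by ring
    omega
  have hfe : ∃ a, finrank F (fixS T ⊤) = 2 * a := by
    obtain ⟨n, hn⟩ := hev
    exact ⟨n - s * i, by
      have : s * (2 * i) = 2 * (s * i) := by ring
      omega⟩
  obtain ⟨a, ha⟩ := hfe
  rw [plusOn_sum hnd h0 ha hd']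
  suffices h : PlusOn Q (perp (polarBilin Q) (fixS T ⊤)) by
    simp [h]
  rcases Nat.eq_zero_or_pos (s * i) with h5 | hspos
  · exact plusOn_of_zero (by omega)
  obtain ⟨k, hk⟩ : ∃ k, s * i = k + 1 := ⟨s * i - 1, by omega⟩
  rw [hk] at hd'
  obtain ⟨h2, h3⟩ := free_plus h1 hQT hTr hinv hfree (q_ne_zero_zmod hrF) hd'
  by_contra hp
  have h6 := h3 hp
  rw [← hk, mul_comm, pow_mul, hi, pow_orderOf_eq_one, one_pow] at h6
  exact Cfsg.Agent.Lib.DualFactors.neg_one_ne hr2 h6.symm

end free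

end Cfsg.Agent.Lib.OTS
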