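import Mathlib
import Cfsg.Agent.Lib.OTS.Type

/-!
# Invariant totally singular subspaces in even dimension: numerical choices
-/

set_option autoImplicit false
set_option linter.unusedSimpArgs false
set_option linter.unusedVariables false
set_option linter.unusedSectionVars false

namespace Cfsg.Agent.Lib.OTS

open Module Polynomial Cfsg.Agent.Lib.IsomBlock QuadraticMap
open Cfsg.Agent.Lib.SpTI (TI Fs typesOf mem_typesOf card_Fs)

universe u

/-- The numerical choice, `i` even. -/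
theorem back_even_num {i n' k m' l t s f σ : ℕ} {P : Prop} (hi : 0 < i) (hie : i % 2 = 0) (hl : l < i) (hke : k % 2 = 0)
    (hsn : s ≤ n') (hf : f = i * (n' - s) + k) (ht : t + 2 * m' ≤ n')
    (hP : P ↔ (s + σ) % 2 = 0) (hzero : f = 0 → P)
    (hcase : (2 * l ≤ i ∧ k = 0 ∧ (n' + σ) % 2 = 1 ∧ t + 2 * m' < n') ∨ (2 * l ≤ k ∧ (n' + σ) % 2 = 0) ∨ (2 * l < k ∧ (n' + σ) % 2 = 1)) :
    ∃ a b, (a = 0 ∨ t + 2 * a ≤ s + 1) ∧ a * i + b = i * m' + l ∧ (P → 2 * b ≤ f) ∧ (¬ P → 2 * b + 2 ≤ f) := by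
  obtain ⟨a, ham, hal, hac⟩ : ∃ a, a ≤ m' ∧ a ≤ (s + 1 - t) / 2 ∧ (a < m' → a = (s + 1 - t) / 2) := by
    rcases le_total m' ((s + 1 - t) / 2) with h | h
    · exact ⟨m', le_rfl, h, fun h => absurd h (lt_irrefl _)⟩
    · exact ⟨_, h, le_rfl, fun _ => rfl⟩
  obtain ⟨c, rfl⟩ : ∃ c, m' = a + c := ⟨m' - a, by omega⟩
  obtain ⟨y', hy1, hy2⟩ : ∃ y', n' - s = y' + 2 * c ∧ (0 < c → t + 2 * (a + c) < n' → 1 ≤ y') := by
    rcases Nat.eq_zero_or_pos c with rfl | hc
    · exact ⟨n' - s, by omega, fun h => absurd h (lt_irrefl _)⟩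
    · have h1 := hac (by omega)
      exact ⟨n' - s - 2 * c, by omega, fun _ h => by omega⟩
  rw [hy1] at hf
  have e1 : i * (y' + 2 * c) = i * y' + 2 * (i * c) := by ring
  rw [e1] at hf
  have e2 : i * (a + c) = i * a + i * c := by ring
  have e3 : a * i = i * a := by ring
  have hv : (y' = 0 ∧ i * y' = 0) ∨ (y' = 1 ∧ i * y' = i) ∨ (2 ≤ y' ∧ 2 * i ≤ i * y') := by
    rcases y' with _ | _ | y'
    · simp
    · simp
    · right
      right
      refine ⟨by omega, ?_⟩
      rw [mul_comm 2 i]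
      exact Nat.mul_le_mul_left _ (by omega)
  have hu : (c = 0 ∧ i * c = 0) ∨ (1 ≤ c ∧ i ≤ i * c) := by
    rcases Nat.eq_zero_or_pos c with rfl | hc
    · simp
    · right
      refine ⟨hc, ?_⟩
      calc i = i * 1 := (mul_one i).symm
        _ ≤ i * c := Nat.mul_le_mul_left _ hc
  generalize i * y' = v at *
  generalize i * c = w at *
  refine ⟨a, w + l, ?_, ?_, ?_, ?_⟩
  · omega
  · rw [e3, e2]
    omega
  · intro hp
    have h1 := hP.mp hp
    omega
  · intro hp
    have h1 : (s + σ) % 2 = 1 := by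
      rw [hP] at hp
      omega
    have h2 : f ≠ 0 := fun h => hp (hzero h)
    omega

variable {F : Type u} [Field F] [Fintype F] {V : Type u} [AddCommGroup V] [Module F V] [FiniteDimensional F V]
variable {Q : QuadraticForm F V} {T : V →ₗ[F] V}

/-- A totally singular subspace of a given dimension. -/
theorem exists_ts_of_type {U : Submodule F V} (hU : NDOn (polarBilin Q) U) {b : ℕ} (h1 : PlusOn Q U → 2 * b ≤ finrank F U) (h2 : ¬ PlusOn Q U → 2 * b + 2 ≤ finrank F U) :
    ∃ W₀ ≤ U, TS Q W₀ ∧ finrank F W₀ = b := by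
  by_cases hp : PlusOn Q U
  · obtain ⟨W, hWU, hW, hd⟩ := hp
    have h3 := h1 ⟨W, hWU, hW, hd⟩
    obtain ⟨W', h4, h5⟩ := exists_sub_finrank W (b := b) (by omega)
    exact ⟨W', h4.trans hWU, hW.mono h4, h5⟩
  · have h3 := h2 hp
    obtain ⟨W₀, h4, h5, h6, -⟩ := exists_ts_witt hU
    obtain ⟨W', h7, h8⟩ := exists_sub_finrank W₀ (b := b) (by omega)
    exact ⟨W', h7.trans h4, h5.mono h7, h8⟩

/-- Numerical choice, `i` even, even dimension. -/
theorem back_even {r q : ℕ} [hrf : Fact r.Prime] (hq : Fintype.card F = q) (hr2 : r ≠ 2) (hrF : (r : F) ≠ 0)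
    (hnd : NDOn (polarBilin Q) ⊤) (hQT : ∀ v, Q (T v) = Q v) (hTr : T ^ r = 1)
    {i m σ : ℕ} (hi : i = orderOf (q : ZMod r)) (hev : Even i) (hVe : Even (finrank F V)) (hσ : PlusOn Q ⊤ ↔ Even σ)
    (ht : (r - 1) / i + 2 * (m / i) ≤ finrank F V / i)
    (hcase : (2 * (m % i) ≤ i ∧ finrank F V % i = 0 ∧ Odd (finrank F V / i + σ) ∧ (r - 1) / i + 2 * (m / i) < finrank F V / i) ∨
      (2 * (m % i) ≤ finrank F V % i ∧ Even (finrank F V / i + σ)) ∨
      (2 * (m % i) < finrank F V % i ∧ Odd (finrank F V / i + σ))) :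
    ∃ W : Submodule F V, InvOn T W ∧ TS Q W ∧ finrank F W = m := by
  classical
  subst hi
  set i := orderOf (q : ZMod r) with hi
  have hB := goodForm_polar Q
  have hiso := polar_iso hQT
  have hipos : 0 < i := orderOf_pos' hq hrF
  have htop : InvOn T (⊤ : Submodule F V) := fun _ _ => trivial
  obtain ⟨s, hs⟩ := finrank_fix_add hq hr2 hrF hB hiso hTr hnd htop
  rw [finrank_top] at hs
  have hc : blockDim r q = i := by
    unfold blockDim
    rw [if_pos hev]
  rw [hc] at hs
  set f := finrank F (fixS T (⊤ : Submodule F V)) with hf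
  have hfnd : NDOn (polarBilin Q) (fixS T ⊤) := nd_fixS hB hiso hrf.out.ne_zero hrF hTr hnd htop
  obtain ⟨e, he⟩ := hev
  have he2 : i = 2 * e := by omega
  have hepos : 0 < e := by omega
  have hty := fix_type_even hq hr2 hrF hnd hQT hTr (s := s) (e := e) he2 hepos (by rw [hs, ← he2, mul_comm]) hVe
  have hfix : PlusOn Q (fixS T ⊤) ↔ (s + σ) % 2 = 0 := by
    rw [hσ] at hty
    rw [Nat.even_iff, Nat.even_iff] at hty
    by_cases hP : PlusOn Q (fixS T ⊤) <;> simp only [hP, true_iff, false_iff, iff_true, iff_false] at hty ⊢ <;> omega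
  set t := (r - 1) / i with ht'
  have hFs : (Fs F r).card = t := by
    have h1 := card_Fs hq hrF (F := F)
    rw [ht', ← h1, Nat.mul_div_cancel _ hipos]
  have hcard : (typesOf T r (⊤ : Submodule F V)).card ≤ t := by
    rw [← hFs]
    apply Finset.card_le_card
    intro h hh
    exact (mem_typesOf.mp hh).1
  -- notation
  set n' := finrank F V / i with hn'
  set k := finrank F V % i with hk'
  set m' := m / i with hm'
  set l := m % i with hl
  have h1 : i * n' + k = finrank F V := Nat.div_add_mod _ _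
  have h2 : i * m' + l = m := Nat.div_add_mod _ _
  have hklt : k < i := Nat.mod_lt _ hipos
  have hllt : l < i := Nat.mod_lt _ hipos
  have hsn : s ≤ n' := by
    by_contra hlt
    have h3 : i * (n' + 1) ≤ i * s := Nat.mul_le_mul_left _ (by omega)
    rw [Nat.mul_add] at h3
    omega
  have hfe : f = i * (n' - s) + k := by
    obtain ⟨y, hy⟩ := Nat.exists_eq_add_of_le hsn
    rw [hy] at h1 ⊢
    rw [Nat.add_sub_cancel_left, Nat.mul_add] at *
    omega
  have hke : k % 2 = 0 := by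
    obtain ⟨n0, hn0⟩ := hVe
    have h3 : i * n' = 2 * (e * n') := by
      rw [he2]
      ring
    omega
  obtain ⟨a, b, ha, hab, hb1, hb2⟩ := back_even_num (i := i) (n' := n') (k := k) (m' := m') (l := l) (t := t) (s := s) (f := f) (σ := σ) (P := PlusOn Q (fixS T ⊤))
    hipos (by omega) hllt hke hsn hfe ht hfix (fun h0 => plusOn_of_zero h0) (by
      simpa only [Nat.even_iff, Nat.odd_iff] using hcase)
  obtain ⟨W₀, h01, h02, h03⟩ := exists_ts_of_type hfnd (b := b) hb1 hb2
  obtain ⟨W, -, h3, h4, h5⟩ := exists_ts_even hq hr2 hrF hQT hTr (e := e) (by omega) hepos _ ⊤ W₀ s a rfl hnd htop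
    (by rw [finrank_top, hs, ← he2]; ring) (by
      rcases ha with h | h
      · exact Or.inl h
      · right
        omega) h01 h02
  refine ⟨W, h3, h4, ?_⟩
  rw [h5, ← he2, h03, hab, h2]

/-- Numerical choice, `i` odd, even dimension. -/
theorem back_odd {r q : ℕ} [hrf : Fact r.Prime] (hq : Fintype.card F = q) (hr2 : r ≠ 2) (hrF : (r : F) ≠ 0)
    (hnd : NDOn (polarBilin Q) ⊤) (hQT : ∀ v, Q (T v) = Q v) (hTr : T ^ r = 1)
    {i m : ℕ} (hi : i = orderOf (q : ZMod r)) (hodd : ¬ Even i) (hVe : Even (finrank F V))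
    (hcase : (PlusOn Q ⊤ ∧ 2 * (m % i) ≤ finrank F V % (2 * i) ∧ 2 * m ≤ finrank F V) ∨
      (¬ PlusOn Q ⊤ ∧ (finrank F V % (2 * i) = 0 ∨ 2 * (m % i) < finrank F V % (2 * i)) ∧ 2 * m + 2 ≤ finrank F V)) :
    ∃ W : Submodule F V, InvOn T W ∧ TS Q W ∧ finrank F W = m := by
  subst hi
  set i := orderOf (q : ZMod r) with hi
  have hB := goodForm_polar Q
  have hiso := polar_iso hQT
  have hipos : 0 < i := orderOf_pos' hq hrF
  have htop : InvOn T (⊤ : Submodule F V) := fun _ _ => trivial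
  obtain ⟨s, hs⟩ := finrank_fix_add hq hr2 hrF hB hiso hTr hnd htop
  rw [finrank_top] at hs
  have hc : blockDim r q = 2 * i := by
    unfold blockDim
    rw [if_neg hodd]
  rw [hc] at hs
  set f := finrank F (fixS T (⊤ : Submodule F V)) with hf
  have hfnd : NDOn (polarBilin Q) (fixS T ⊤) := nd_fixS hB hiso hrf.out.ne_zero hrF hTr hnd htop
  have hty := fix_type_odd hq hr2 hrF hnd hQT hTr (s := s) (by rw [hs, ← hi, mul_comm]) hVe
  set n := finrank F V with hn
  set k := n % (2 * i) with hk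
  have hm' : i * (m / i) + m % i = m := Nat.div_add_mod m i
  have hllt : m % i < i := Nat.mod_lt _ hipos
  have hkmod : f % (2 * i) = k := by
    rw [hk, hs, Nat.add_mul_mod_self_left]
  have hn2 : 2 * i * (n / (2 * i)) + k = n := Nat.div_add_mod _ _
  have hf2 : 2 * i * (f / (2 * i)) + k = f := by
    have := Nat.div_add_mod f (2 * i)
    rwa [hkmod] at this
  have hke : k % 2 = 0 := by
    obtain ⟨n0, hn0⟩ := hVe
    have h3 : 2 * i * (n / (2 * i)) = 2 * (i * (n / (2 * i))) := by ring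
    omega
  have hfi : (f / (2 * i) = 0 ∧ 2 * i * (f / (2 * i)) = 0) ∨ (1 ≤ f / (2 * i) ∧ 2 * i ≤ 2 * i * (f / (2 * i))) := by
    rcases Nat.eq_zero_or_pos (f / (2 * i)) with h0 | h0
    · left
      rw [h0]
      simp
    · right
      refine ⟨h0, ?_⟩
      calc 2 * i = 2 * i * 1 := (mul_one _).symm
        _ ≤ 2 * i * (f / (2 * i)) := Nat.mul_le_mul_left _ h0
  generalize 2 * i * (f / (2 * i)) = g at hfi hf2
  have hf0 : ¬ PlusOn Q ⊤ → f ≠ 0 := by
    intro hp h0
    exact hp (hty.mpr (plusOn_of_zero h0))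
  rcases le_total (m / i) s with h1 | h1
  · obtain ⟨W₀, h01, h02, h03⟩ := exists_ts_of_type hfnd (b := m % i)
      (by
        intro hp
        have hp' := hty.mpr hp
        rcases hcase with ⟨-, h2, -⟩ | ⟨h2, -⟩
        · omega
        · exact absurd hp' h2)
      (by
        intro hp
        have hp' : ¬ PlusOn Q ⊤ := fun h => hp (hty.mp h)
        have hf0' := hf0 hp'
        rcases hcase with ⟨h2, -⟩ | ⟨-, h2, -⟩
        · exact absurd h2 hp'
        · omega)
    obtain ⟨W, -, h2, h3, h4⟩ := exists_ts_odd hq hr2 hrF hQT hTr hodd (m / i) ⊤ W₀ hnd htop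
      (by
        rw [finrank_top, ← hf, ← hi, ← hn, hs]
        have : m / i * (2 * i) ≤ 2 * i * s := by
          calc m / i * (2 * i) ≤ s * (2 * i) := Nat.mul_le_mul_right _ h1
            _ = 2 * i * s := by ring
        omega) h01 h02
    refine ⟨W, h2, h3, ?_⟩
    rw [h4, ← hi, h03, mul_comm]
    exact hm'
  · have h5 : i * s ≤ i * (m / i) := Nat.mul_le_mul_left _ h1
    have e1 : 2 * i * s = 2 * (i * s) := by ring
    obtain ⟨W₀, h01, h02, h03⟩ := exists_ts_of_type hfnd (b := m - i * s)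
      (by
        intro hp
        have hp' := hty.mpr hp
        rcases hcase with ⟨-, -, h2⟩ | ⟨h2, -⟩
        · omega
        · exact absurd hp' h2)
      (by
        intro hp
        have hp' : ¬ PlusOn Q ⊤ := fun h => hp (hty.mp h)
        rcases hcase with ⟨h2, -⟩ | ⟨-, -, h2⟩
        · exact absurd h2 hp'
        · omega)
    obtain ⟨W, -, h2, h3, h4⟩ := exists_ts_odd hq hr2 hrF hQT hTr hodd s ⊤ W₀ hnd htop
      (by
        rw [finrank_top, ← hf, ← hi, ← hn, hs]
        have : s * (2 * i) = 2 * i * s := by ring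
        omega) h01 h02
    refine ⟨W, h2, h3, ?_⟩
    rw [h4, ← hi, h03]
    have : s * i = i * s := by ring
    omega

end Cfsg.Agent.Lib.OTS
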