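import Mathlib
import Cfsg.Agent.Lib.OTS.EvenBack
import Cfsg.Agent.Lib.OTS.Bound
import Cfsg.Agent.Lib.OTS.Ker
import Cfsg.Agent.Lib.OTS.OddElt

/-!
# Test elements for the forward direction in even dimension
-/

set_option autoImplicit false
set_option linter.unusedSimpArgs false
set_option linter.unusedVariables false
set_option linter.unusedSectionVars false

namespace Cfsg.Agent.Lib.OTS

open Module Polynomial Matrix QuadraticMap
open scoped MatrixGroups
open Cfsg.Agent.Lib.IsomBlock Cfsg.Agent.Lib.PrimeFactors Cfsg.Agent.Lib.DualFactors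
open Cfsg.Agent.Lib.SpTI (Fs)

universe u

variable {F : Type u} [Field F] [Fintype F] {V : Type u} [AddCommGroup V] [Module F V] [FiniteDimensional F V]
variable {Q : QuadraticForm F V} {T : V →ₗ[F] V}

/-- The abstract form of the hypothesis of the forward direction. -/
def TestHyp (Q : QuadraticForm F V) (r d m : ℕ) [Fact r.Prime] (ε : ZMod r) (hrF : (r : F) ≠ 0) (hr0 : r ≠ 0) : Prop :=
  ∀ a : ↥(Idx F r) → ℕ, a ≠ 0 → a ∘ dl (σ := RingHom.id F) (fun x => rfl) rfl hrF hr0 = a →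
    orderOf ((Fintype.card F : ℕ) : ZMod r) * ∑ j, a j ≤ 2 * d →
    (orderOf ((Fintype.card F : ℕ) : ZMod r) * ∑ j, a j = 2 * d → ((Fintype.card F : ℕ) : ZMod r) ^ d = ε) →
    ∃ T : V →ₗ[F] V, (∀ v, Q (T v) = Q v) ∧ T ^ r = 1 ∧
      (∀ j : ↥(Idx F r), finrank F (LinearMap.ker (aeval T (j : F[X]))) ≤ a j * orderOf ((Fintype.card F : ℕ) : ZMod r)) ∧
      finrank F (LinearMap.ker (aeval T (X - C 1 : F[X]))) ≤ 2 * d - orderOf ((Fintype.card F : ℕ) : ZMod r) * ∑ j, a j ∧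
      ∃ W : Submodule F V, InvOn T W ∧ TS Q W ∧ finrank F W = m

theorem fixS_eq_ker : fixS T ⊤ = LinearMap.ker (aeval T (X - C 1 : F[X])) := by
  ext v
  rw [mem_fixS, LinearMap.mem_ker]
  simp [sub_eq_zero]

/-- Bounds for totally singular subspaces of the fixed space, `i` even. -/
theorem fix_bound_even {r : ℕ} [hrf : Fact r.Prime] (hr2 : r ≠ 2) (hrF : (r : F) ≠ 0) (hnd : NDOn (polarBilin Q) ⊤) (hQT : ∀ v, Q (T v) = Q v) (hTr : T ^ r = 1)
    {d σ e : ℕ} (hVd : finrank F V = 2 * d) (hσ : PlusOn Q ⊤ ↔ Even σ) (hi : orderOf ((Fintype.card F : ℕ) : ZMod r) = 2 * e) (he : 0 < e) {s₀ : ℕ}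
    (hker : finrank F (LinearMap.ker (aeval T (X - C 1 : F[X]))) ≤ 2 * d - s₀ * (2 * e)) (hs₀ : s₀ * (2 * e) ≤ 2 * d)
    {W' : Submodule F V} (hW' : W' ≤ fixS T ⊤) (hts : TS Q W') :
    (Even (s₀ + σ) → 2 * finrank F W' ≤ 2 * d - s₀ * (2 * e)) ∧ (Odd (s₀ + σ) → 2 * finrank F W' + 2 ≤ 2 * d - s₀ * (2 * e)) := by
  have hB := goodForm_polar Q
  have hiso := polar_iso hQT
  have htop : InvOn T (⊤ : Submodule F V) := fun _ _ => trivial
  have hfnd := nd_fixS hB hiso hrf.out.ne_zero hrF hTr hnd htop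
  have h1 := ti_bound_on' hB hfnd hW' hts.ti
  rw [fixS_eq_ker] at h1 hW' hfnd
  have hfixeq := fixS_eq_ker (T := T)
  obtain ⟨s, hs⟩ := finrank_fix_add rfl hr2 hrF hB hiso hTr hnd htop
  have hc : blockDim r (Fintype.card F) = 2 * e := by
    unfold blockDim
    rw [if_pos ⟨e, by omega⟩, hi]
  rw [finrank_top, hc, hVd, hfixeq] at hs
  have e1 : 2 * e * s = s * (2 * e) := by ring
  rw [e1] at hs
  set f := finrank F (LinearMap.ker (aeval T (X - C 1 : F[X]))) with hf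
  have hss : s₀ ≤ s := by
    by_contra hlt
    have h3 : (s + 1) * (2 * e) ≤ s₀ * (2 * e) := Nat.mul_le_mul_right _ (by omega)
    rw [Nat.add_mul] at h3
    omega
  rcases eq_or_lt_of_le hss with rfl | hlt
  · have hfe : f = 2 * d - s₀ * (2 * e) := by omega
    rw [← hfe]
    refine ⟨fun _ => h1, fun hodd => ?_⟩
    have hnp : ¬ PlusOn Q (fixS T ⊤) := by
      intro hp
      have hty := fix_type_even rfl hr2 hrF hnd hQT hTr (s := s₀) (e := e) hi he (by rw [hVd, hfixeq]; omega) (by rw [hVd]; exact even_two_mul d)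
      rw [hσ] at hty
      rw [Nat.odd_add] at hodd
      have h5 : Even σ ↔ Even s₀ := by
        rw [hty]
        simp [hp]
      have h6 : Odd s₀ ↔ Even σ := hodd
      rw [← Nat.not_even_iff_odd, h5] at h6
      tauto
    have hne : 2 * finrank F W' ≠ f := by
      intro h5
      apply hnp
      refine ⟨W', ?_, hts, ?_⟩
      · rw [hfixeq]
        exact hW'
      · rw [hfixeq]
        exact h5
    have hfev : f % 2 = 0 := by
      have e2 : s₀ * (2 * e) = 2 * (s₀ * e) := by ring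
      omega
    omega
  · have h3 : (s₀ + 1) * (2 * e) ≤ s * (2 * e) := Nat.mul_le_mul_right _ (by omega)
    rw [Nat.add_mul, one_mul] at h3
    constructor <;> intro _ <;> omega

/-- Bounds for totally singular subspaces of the fixed space, `i` odd. -/
theorem fix_bound_odd {r : ℕ} [hrf : Fact r.Prime] (hr2 : r ≠ 2) (hrF : (r : F) ≠ 0) (hnd : NDOn (polarBilin Q) ⊤) (hQT : ∀ v, Q (T v) = Q v) (hTr : T ^ r = 1)
    {d s₀ : ℕ} (hVd : finrank F V = 2 * d) (hodd : ¬ Even (orderOf ((Fintype.card F : ℕ) : ZMod r)))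
    (hker : finrank F (LinearMap.ker (aeval T (X - C 1 : F[X]))) ≤ 2 * d - s₀ * (2 * orderOf ((Fintype.card F : ℕ) : ZMod r)))
    (hs₀ : s₀ * (2 * orderOf ((Fintype.card F : ℕ) : ZMod r)) ≤ 2 * d)
    {W' : Submodule F V} (hW' : W' ≤ fixS T ⊤) (hts : TS Q W') :
    2 * finrank F W' ≤ 2 * d - s₀ * (2 * orderOf ((Fintype.card F : ℕ) : ZMod r)) ∧
    (¬ PlusOn Q ⊤ → 2 * finrank F W' + 2 ≤ 2 * d - s₀ * (2 * orderOf ((Fintype.card F : ℕ) : ZMod r))) := by
  have hB := goodForm_polar Q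
  have hiso := polar_iso hQT
  have htop : InvOn T (⊤ : Submodule F V) := fun _ _ => trivial
  have hfnd := nd_fixS hB hiso hrf.out.ne_zero hrF hTr hnd htop
  have h1 := ti_bound_on' hB hfnd hW' hts.ti
  have hfixeq := fixS_eq_ker (T := T)
  rw [hfixeq] at h1
  set i := orderOf ((Fintype.card F : ℕ) : ZMod r) with hi
  obtain ⟨s, hs⟩ := finrank_fix_add rfl hr2 hrF hB hiso hTr hnd htop
  have hc : blockDim r (Fintype.card F) = 2 * i := by
    unfold blockDim
    rw [if_neg hodd]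
  rw [finrank_top, hc, hVd] at hs
  have e1 : 2 * i * s = s * (2 * i) := by ring
  rw [e1] at hs
  refine ⟨h1.trans hker, fun hnp => ?_⟩
  have hnp' : ¬ PlusOn Q (fixS T ⊤) := by
    intro hp
    exact hnp ((fix_type_odd rfl hr2 hrF hnd hQT hTr (s := s) (by rw [hVd]; exact hs) (by rw [hVd]; exact even_two_mul d)).mpr hp)
  have hne : 2 * finrank F W' ≠ finrank F (fixS T ⊤) := fun h5 => hnp' ⟨W', hW', hts, h5⟩
  rw [hfixeq] at hne hs
  have e2 : s * (2 * i) = 2 * (s * i) := by ring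
  omega

/-- Test elements with prescribed types. -/
theorem test_types {r d m σ e : ℕ} [hrf : Fact r.Prime] {ε : ZMod r} (hr2 : r ≠ 2) (hrF : (r : F) ≠ 0) (hr0 : r ≠ 0) (hnd : NDOn (polarBilin Q) ⊤)
    (hVd : finrank F V = 2 * d) (hσ : PlusOn Q ⊤ ↔ Even σ) (HT : TestHyp Q r d m ε hrF hr0)
    (hi : orderOf ((Fintype.card F : ℕ) : ZMod r) = 2 * e) (he : 0 < e) {h₁ : F[X]} (hh₁ : h₁ ∈ Fs F r) {a₁ : ℕ} (ha₁ : 0 < a₁)
    (S : Finset F[X]) (hS : ∀ h ∈ S, h ∈ Fs F r ∧ h ≠ h₁) (hle : (a₁ + S.card) * (2 * e) ≤ 2 * d)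
    (hε : (a₁ + S.card) * (2 * e) = 2 * d → ((Fintype.card F : ℕ) : ZMod r) ^ d = ε) :
    ∃ a' b', m = a' * (2 * e) + b' ∧ 2 * a' ≤ a₁ ∧ (Even (a₁ + S.card + σ) → 2 * b' ≤ 2 * d - (a₁ + S.card) * (2 * e)) ∧
      (Odd (a₁ + S.card + σ) → 2 * b' + 2 ≤ 2 * d - (a₁ + S.card) * (2 * e)) := by
  classical
  have hFI : Fs F r = Idx F r := Fs_eq_Idx
  have hh₁' := hh₁
  rw [hFI] at hh₁'
  let a : ↥(Idx F r) → ℕ := fun j => (if (j : F[X]) = h₁ then a₁ else 0) + (if (j : F[X]) ∈ S then 1 else 0)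
  have hsum : ∑ j, a j = a₁ + S.card := by
    simp only [a]
    rw [Finset.sum_add_distrib]
    have h1 : ∑ j : ↥(Idx F r), (if (j : F[X]) = h₁ then a₁ else 0) = a₁ := by
      rw [Finset.sum_coe_sort (Idx F r) (fun x => if x = h₁ then a₁ else 0), Finset.sum_ite_eq' , if_pos hh₁']
    have h2 : ∑ j : ↥(Idx F r), (if (j : F[X]) ∈ S then 1 else 0) = S.card := by
      rw [Finset.sum_coe_sort (Idx F r) (fun x => if x ∈ S then 1 else 0), Finset.sum_boole]
      simp only [Nat.cast_id]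
      congr 1
      ext x
      simp only [Finset.mem_filter]
      constructor
      · exact fun h => h.2
      · intro h
        refine ⟨?_, h⟩
        rw [← hFI]
        exact (hS x h).1
    rw [h1, h2]
  have ha0 : a ≠ 0 := by
    intro h0
    have h1 : a ⟨h₁, hh₁'⟩ = 0 := by rw [h0]; rfl
    simp only [a, if_true] at h1
    omega
  have hev : Even (orderOf ((Fintype.card F : ℕ) : ZMod r)) := ⟨e, by omega⟩
  have hinv : a ∘ dl (σ := RingHom.id F) (fun x => rfl) rfl hrF hr0 = a := by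
    funext j
    show a _ = a j
    rw [(dl_fixed_iff hr2 hrF hr0 j).mpr hev]
  have e1 : orderOf ((Fintype.card F : ℕ) : ZMod r) * ∑ j, a j = (a₁ + S.card) * (2 * e) := by
    rw [hsum, hi]
    ring
  obtain ⟨T, hQT, hTr, hk1, hk2, W, hW1, hW2, hW3⟩ := HT a ha0 hinv (by rw [e1]; exact hle) (by rw [e1]; exact hε)
  rw [e1] at hk2
  have hbdd := fun (W' : Submodule F V) (hW' : W' ≤ fixS T ⊤) (hts : TS Q W') =>
    fix_bound_even hr2 hrF hnd hQT hTr hVd hσ hi he hk2 hle hW' hts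
  set f₀ := 2 * d - (a₁ + S.card) * (2 * e) with hf₀
  have hker1 : finrank F (LinearMap.ker (aeval T h₁)) ≤ a₁ * (2 * e) := by
    have h1 := hk1 ⟨h₁, hh₁'⟩
    have h2 : a ⟨h₁, hh₁'⟩ = a₁ := by
      have hns : h₁ ∉ S := fun hmem => (hS h₁ hmem).2 rfl
      simp only [a, if_true, if_neg hns, add_zero]
    rw [h2, hi] at h1
    exact h1
  have hker2 : ∀ h ∈ Fs F r, h ≠ h₁ → finrank F (LinearMap.ker (aeval T h)) ≤ 2 * e := by
    intro h hh hne
    rw [hFI] at hh
    have h1 := hk1 ⟨h, hh⟩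
    have h2 : a ⟨h, hh⟩ ≤ 1 := by
      simp only [a, if_neg hne, zero_add]
      split_ifs <;> omega
    rw [hi] at h1
    calc _ ≤ _ := h1
      _ ≤ 1 * (2 * e) := Nat.mul_le_mul_right _ h2
      _ = 2 * e := one_mul _
  have hbd : ∀ W' : Submodule F V, W' ≤ fixS T ⊤ → TS Q W' → finrank F W' ≤ (f₀ - (if Odd (a₁ + S.card + σ) then 2 else 0)) / 2 := by
    intro W' hW' hts
    obtain ⟨h3, h4⟩ := hbdd W' hW' hts
    split_ifs with h5
    · have := h4 h5
      omega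
    · have := h3 (Nat.not_odd_iff_even.mp h5)
      omega
  obtain ⟨a', b', hab', ha', hb'⟩ := bound_types_q (Q := Q) rfl hrF hnd hQT hTr hi he hh₁ hker1 hker2 hbd hW1 hW2
  rw [hW3] at hab'
  refine ⟨a', b', hab', ha', fun h5 => ?_, fun h5 => ?_⟩
  · rw [if_neg (Nat.not_odd_iff_even.mpr h5)] at hb'
    omega
  · rw [if_pos h5] at hb'
    have h6 := (hbdd ⊥ bot_le ts_bot).2 h5
    rw [finrank_bot] at h6
    omega

/-- The test element for `i` odd. -/
theorem test_odd {r d m s : ℕ} [hrf : Fact r.Prime] {ε : ZMod r} (hr2 : r ≠ 2) (hrF : (r : F) ≠ 0) (hr0 : r ≠ 0) (hnd : NDOn (polarBilin Q) ⊤)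
    (hVd : finrank F V = 2 * d) (HT : TestHyp Q r d m ε hrF hr0)
    (hodd : ¬ Even (orderOf ((Fintype.card F : ℕ) : ZMod r))) (hs : 0 < s) (hle : s * (2 * orderOf ((Fintype.card F : ℕ) : ZMod r)) ≤ 2 * d)
    (hε : s * (2 * orderOf ((Fintype.card F : ℕ) : ZMod r)) = 2 * d → ((Fintype.card F : ℕ) : ZMod r) ^ d = ε) :
    ∃ a' b', m = a' * orderOf ((Fintype.card F : ℕ) : ZMod r) + b' ∧ 2 * b' ≤ 2 * d - s * (2 * orderOf ((Fintype.card F : ℕ) : ZMod r)) ∧
      (¬ PlusOn Q ⊤ → 2 * b' + 2 ≤ 2 * d - s * (2 * orderOf ((Fintype.card F : ℕ) : ZMod r))) := by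
  classical
  have hr := hrf.out
  have hcard := card_Idx (F := F) (r := r) hrF
  have hne : Nonempty ↥(Idx F r) := by
    by_contra hemp
    rw [not_nonempty_iff] at hemp
    rw [Fintype.card_eq_zero, zero_mul] at hcard
    have := hr.two_le
    omega
  obtain ⟨j₀⟩ := hne
  set i := orderOf ((Fintype.card F : ℕ) : ZMod r) with hi
  let D := dl (F := F) (r := r) (σ := RingHom.id F) (fun x => rfl) rfl hrF hr0
  have hD : ∀ j, D (D j) = j := fun j => dl_dl (σ := RingHom.id F) (fun x => rfl) rfl hrF hr0 j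
  have hj₁ : D j₀ ≠ j₀ := fun h => hodd ((dl_fixed_iff hr2 hrF hr0 j₀).mp h)
  let a : ↥(Idx F r) → ℕ := fun j => (if j = j₀ then s else 0) + (if j = D j₀ then s else 0)
  have hsum : ∑ j, a j = s + s := by
    simp only [a]
    rw [Finset.sum_add_distrib, Finset.sum_ite_eq', Finset.sum_ite_eq', if_pos (Finset.mem_univ _), if_pos (Finset.mem_univ _)]
  have ha0 : a ≠ 0 := by
    intro h0
    have h1 : a j₀ = 0 := by rw [h0]; rfl
    simp only [a, if_true] at h1
    omega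
  have hinv : a ∘ D = a := by
    funext j
    show a (D j) = a j
    simp only [a]
    have e1 : (D j = j₀) ↔ (j = D j₀) := by
      constructor
      · intro h
        rw [← h, hD]
      · intro h
        rw [h, hD]
    have e2 : (D j = D j₀) ↔ (j = j₀) := by
      constructor
      · intro h
        have := congrArg D h
        rwa [hD, hD] at this
      · intro h
        rw [h]
    simp only [e1, e2]
    ring
  have e1 : i * ∑ j, a j = s * (2 * i) := by
    rw [hsum]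
    ring
  obtain ⟨T, hQT, hTr, -, hk2, W, hW1, hW2, hW3⟩ := HT a ha0 hinv (by rw [← hi, e1]; exact hle) (by rw [← hi, e1]; exact hε)
  rw [← hi, e1] at hk2
  have hbdd := fun (W' : Submodule F V) (hW' : W' ≤ fixS T ⊤) (hts : TS Q W') =>
    fix_bound_odd hr2 hrF hnd hQT hTr hVd hodd hk2 hle hW' hts
  set f₀ := 2 * d - s * (2 * i) with hf₀
  have hbd : ∀ W' : Submodule F V, W' ≤ fixS T ⊤ → TS Q W' → finrank F W' ≤ (f₀ - (if PlusOn Q ⊤ then 0 else 2)) / 2 := by
    classical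
    intro W' hW' hts
    obtain ⟨h3, h4⟩ := hbdd W' hW' hts
    split_ifs with h5
    · omega
    · have := h4 h5
      omega
  obtain ⟨a', b', hab', hb'⟩ := bound_basic_q (Q := Q) rfl hrF hTr hbd hW1 hW2
  rw [hW3] at hab'
  refine ⟨a', b', hab', ?_, fun h5 => ?_⟩
  · have h6 := (hbdd ⊥ bot_le ts_bot).1
    rw [finrank_bot] at h6
    split_ifs at hb' <;> omega
  · rw [if_neg h5] at hb'
    have h6 := (hbdd ⊥ bot_le ts_bot).2 h5
    rw [finrank_bot] at h6
    omega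

end Cfsg.Agent.Lib.OTS
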