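import Mathlib
import Cfsg.Agent.Lib.OTS.EvenTest
import Cfsg.Agent.S2674
import Cfsg.Agent.S2675

/-!
# Test elements for the forward direction in even dimension: realization
-/

set_option autoImplicit false
set_option linter.unusedSimpArgs false
set_option linter.unusedVariables false
set_option linter.unusedSectionVars false

namespace Cfsg.Agent.Lib.OTS

open Module Polynomial Matrix QuadraticMap
open scoped MatrixGroups
open Cfsg.Agent.Lib.IsomBlock Cfsg.Agent.Lib.PrimeFactors Cfsg.Agent.Lib.DualFactors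
open Cfsg.Agent.Lib.SemisimpleGL
open Cfsg.Agent.Lib.OrthGroup Cfsg.Agent.Lib.OrthOmega Cfsg.Agent.Lib.OrthMatrix

universe u

section generic

variable {F : Type u} [Field F] [Fintype F] {ι : Type} [Fintype ι] [DecidableEq ι]

/-- Building the test hypothesis from a realization statement. -/
theorem testHyp_of_hex (Q : QuadraticForm F (ι → F)) (hQ : (B Q).Nondegenerate) (hF : (∃ a : F, a ≠ 0 ∧ a ≠ 1) ∨ finrank F (ι → F) ≠ 4)
    {d m r : ℕ} [hrp : Fact r.Prime] (hcι : Fintype.card ι = 2 * d) (hr2 : r ≠ 2) (hrF : (r : F) ≠ 0) (hr0 : r ≠ 0) {ε : ZMod r}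
    (hex : ∀ a : ↥(Idx F r) → ℕ, a ≠ 0 → a ∘ dl (σ := RingHom.id F) (fun x => rfl) rfl hrF hr0 = a →
      orderOf ((Fintype.card F : ℕ) : ZMod r) * ∑ j, a j ≤ Fintype.card ι →
      (orderOf ((Fintype.card F : ℕ) : ZMod r) * ∑ j, a j = 2 * d → ((Fintype.card F : ℕ) : ZMod r) ^ d = ε) →
      ∃ g : ↥(Cfsg.isometryGroup F ⇑Q), ((g : GL ι F) : Matrix ι ι F).charpoly = Pa F r (Fintype.card ι) a ∧ orderOf g = r)
    (H : ∀ x : GL ι F, x ∈ Cfsg.Geo.omegaGL (⇑Q) → orderOf x = r →
      ∃ W : Submodule F (ι → F), InvOn (Matrix.toLin' (x : Matrix ι ι F)) W ∧ TS Q W ∧ finrank F W = m) :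
    TestHyp Q r d m ε hrF hr0 := by
  classical
  intro a ha hinv hle hP
  obtain ⟨g, hg1, hg2⟩ := hex a ha hinv (by rw [hcι]; exact hle) hP
  have hpow : ((g : GL ι F) : Matrix ι ι F) ^ r = 1 := by
    have h2 := pow_orderOf_eq_one g
    rw [hg2] at h2
    have h3 := congrArg (fun y : ↥(Cfsg.isometryGroup F (⇑Q)) => ((y : GL ι F) : Matrix ι ι F)) h2
    simpa using h3
  have hTr : (Matrix.toLin' ((g : GL ι F) : Matrix ι ι F)) ^ r = 1 := by
    rw [Cfsg.Agent.Lib.SpRealize.toLin_pow, hpow, Matrix.toLin'_one]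
    rfl
  have hmem : (g : GL ι F) ∈ Cfsg.Geo.omegaGL (⇑Q) := by
    refine ⟨g, ?_, rfl⟩
    refine mem_Omega_of_odd _ hQ hF g ?_
    rw [hg2]
    exact hrp.out.odd_of_ne_two hr2
  have hord : orderOf (g : GL ι F) = r := by
    rw [← hg2]
    exact Subgroup.orderOf_coe g
  rw [hcι] at hg1
  refine ⟨Matrix.toLin' ((g : GL ι F) : Matrix ι ι F), fun v => ?_, hTr, fun j => ?_, ?_, H _ hmem hord⟩
  · rw [Matrix.toLin'_apply]
    exact Cfsg.Agent.H97.Asch.omegaGL_isometry hmem v
  · refine finrank_ker_of_Pa (n := 2 * d) hrF _ hTr ?_ j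
    rw [Matrix.charpoly_toLin']
    exact hg1
  · refine finrank_fix_of_Pa (n := 2 * d) hrF _ hTr ?_
    rw [Matrix.charpoly_toLin']
    exact hg1

/-- An isometry whose `r`-th power is scalar, `r` odd: its square-root of unity. -/
theorem scalar_sq_eq_one {V : Type*} [AddCommGroup V] [Module F V] {Q : QuadraticForm F V} {T : V →ₗ[F] V} {v : V} (hv : Q v ≠ 0)
    (hQT : ∀ v, Q (T v) = Q v) {r : ℕ} {z : F} (hz : T ^ r = z • 1) : z * z = 1 := by
  have h1 : ∀ (n : ℕ) (w : V), Q ((T ^ n) w) = Q w := by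
    intro n
    induction n with
    | zero => intro w; simp
    | succ n ih =>
      intro w
      rw [pow_succ, Module.End.mul_apply, ih, hQT]
  have h2 := h1 r v
  rw [hz] at h2
  have h3 : (z • (1 : V →ₗ[F] V)) v = z • v := by simp
  rw [h3, QuadraticMap.map_smul] at h2
  have h4 : (z * z) * Q v = 1 * Q v := by
    rw [one_mul]
    simpa [smul_eq_mul] using h2
  exact mul_right_cancel₀ hv h4

/-- A scalar isometry of odd prime order does not exist. -/
theorem not_scalar_of_order {r : ℕ} [hrp : Fact r.Prime] (hr2 : r ≠ 2) {V : Type*} [AddCommGroup V] [Module F V] {Q : QuadraticForm F V}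
    {v : V} (hv : Q v ≠ 0) {z : F} (hz : ∀ w, Q (z • w) = Q w) (hzr : z ^ r = 1) : z = 1 := by
  have h1 := hz v
  rw [QuadraticMap.map_smul] at h1
  have h2 : (z * z) * Q v = 1 * Q v := by
    rw [one_mul]
    simpa [smul_eq_mul] using h1
  have h3 : z * z = 1 := mul_right_cancel₀ hv h2
  obtain ⟨k, hk⟩ := hrp.out.odd_of_ne_two hr2
  rw [hk, pow_succ, pow_mul, _root_.sq, h3, one_pow, one_mul] at hzr
  exact hzr

/-- Reduction for odd `r` of the scalar condition. -/
theorem reduce_scalar {V : Type*} [AddCommGroup V] [Module F V] {Q : QuadraticForm F V} {T : V →ₗ[F] V} {v : V} (hv : Q v ≠ 0)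
    (hQT : ∀ v, Q (T v) = Q v) {r : ℕ} [hrp : Fact r.Prime] (hr2 : r ≠ 2) {z : F} (hz : T ^ r = z • 1) :
    ∃ T' : V →ₗ[F] V, (∀ v, Q (T' v) = Q v) ∧ T' ^ r = 1 ∧ ∀ W : Submodule F V, InvOn T' W → InvOn T W := by
  have h1 : z * z = 1 := scalar_sq_eq_one hv hQT hz
  have h2 : (z - 1) * (z + 1) = 0 := by linear_combination h1
  rcases mul_eq_zero.mp h2 with h3 | h3
  · have h4 : z = 1 := by linear_combination h3
    subst h4
    exact ⟨T, hQT, by rw [hz, one_smul], fun W h => h⟩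
  · have h4 : z = -1 := by linear_combination h3
    subst h4
    refine ⟨-T, fun w => ?_, ?_, fun W h y hy => ?_⟩
    · rw [LinearMap.neg_apply, QuadraticMap.map_neg, hQT]
    · obtain ⟨k, hk⟩ := hrp.out.odd_of_ne_two hr2
      have h5 : Odd r := ⟨k, hk⟩
      rw [h5.neg_pow, hz]
      simp
    · have h5 := W.neg_mem (h y hy)
      simpa using h5

end generic

end Cfsg.Agent.Lib.OTS
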