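import Mathlib
import Cfsg.Agent.Lib.OTS.EvenTest

/-!
# The forward direction in even dimension
-/

set_option autoImplicit false
set_option linter.unusedSimpArgs false
set_option linter.unusedVariables false
set_option linter.unusedSectionVars false

namespace Cfsg.Agent.Lib.OTS

open Module Polynomial QuadraticMap
open Cfsg.Agent.Lib.IsomBlock Cfsg.Agent.Lib.PrimeFactors Cfsg.Agent.Lib.DualFactors
open Cfsg.Agent.Lib.SpTI (Fs)

universe u

section arith

theorem neg_one_pow_congr' {r : ℕ} {a b : ℕ} (h : Even (a + b)) : ((-1 : ZMod r) ^ a = (-1) ^ b) := by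
  rcases Nat.even_or_odd a with ha | ha
  · have hb : Even b := by
      rcases Nat.even_or_odd b with hb | hb
      · exact hb
      · exact absurd h (Nat.not_even_iff_odd.mpr (ha.add_odd hb))
    rw [ha.neg_one_pow, hb.neg_one_pow]
  · have hb : Odd b := by
      rcases Nat.even_or_odd b with hb | hb
      · exact absurd h (Nat.not_even_iff_odd.mpr (ha.add_even hb))
      · exact hb
    rw [ha.neg_one_pow, hb.neg_one_pow]

/-- Division by `e` of `J + e * u`. -/
theorem div_shape {d e J u n g : ℕ} (he : 0 < e) (hd : d = J + e * u) (hJ : J < 2 * e) (hn : e * n + g = d) (hg : g < e) :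
    (J < e ∧ n = u ∧ g = J) ∨ (e ≤ J ∧ n = u + 1 ∧ g = J - e) := by
  rcases lt_or_ge J e with h | h
  · left
    have h1 : g = J ∧ n = u := by
      have h2 := (Nat.div_mod_unique he (a := d) (c := J) (d := u)).mpr ⟨hd.symm, h⟩
      have h3 := (Nat.div_mod_unique he (a := d) (c := g) (d := n)).mpr ⟨by rw [← hn]; ring, hg⟩
      exact ⟨by omega, by omega⟩
    exact ⟨h, h1.2, h1.1⟩
  · right
    have h4 : J - e < e := by omega
    have e1 : J - e + e * (u + 1) = d := by
      rw [hd, Nat.mul_add]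
      omega
    have h2 := (Nat.div_mod_unique he (a := d) (c := J - e) (d := u + 1)).mpr ⟨e1, h4⟩
    have h3 := (Nat.div_mod_unique he (a := d) (c := g) (d := n)).mpr ⟨by rw [← hn]; ring, hg⟩
    exact ⟨h, by omega, by omega⟩

end arith

variable {F : Type u} [Field F] [Fintype F] {V : Type u} [AddCommGroup V] [Module F V] [FiniteDimensional F V]
variable {Q : QuadraticForm F V} {T : V →ₗ[F] V}

/-- Powers of `q` equal to plus or minus one, when the order is even. -/
theorem pow_eq_neg_pow {r e x τ : ℕ} [hrf : Fact r.Prime] (hr2 : r ≠ 2) (hi : orderOf ((Fintype.card F : ℕ) : ZMod r) = 2 * e) (he : 0 < e)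
    (h : ((Fintype.card F : ℕ) : ZMod r) ^ x = (-1) ^ τ) : ∃ u, x = e * u ∧ Even (u + τ) := by
  have h1 : ((Fintype.card F : ℕ) : ZMod r) ^ e = -1 := by
    have h5 := Cfsg.Agent.Lib.HypBlock.dvd_of_order_even hi he.ne'
    have h6 : (((Fintype.card F : ℕ) ^ e + 1 : ℕ) : ZMod r) = 0 := (ZMod.natCast_eq_zero_iff _ _).mpr h5
    push_cast at h6
    exact eq_neg_of_add_eq_zero_left h6
  have h2 : ((Fintype.card F : ℕ) : ZMod r) ^ (2 * x) = 1 := by
    rw [mul_comm, pow_mul, h, ← pow_mul, mul_comm, pow_mul]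
    simp
  have h3 : 2 * e ∣ 2 * x := by
    rw [← hi]
    exact orderOf_dvd_of_pow_eq_one h2
  obtain ⟨u, rfl⟩ := Nat.dvd_of_mul_dvd_mul_left (by norm_num) h3
  refine ⟨u, rfl, ?_⟩
  rw [pow_mul, h1] at h
  by_contra hodd
  rw [Nat.not_even_iff_odd] at hodd
  have hne := Cfsg.Agent.Lib.DualFactors.neg_one_ne hr2
  rcases Nat.even_or_odd u with hu | hu
  · have hτ : Odd τ := by
      rcases Nat.even_or_odd τ with hτ | hτ
      · exact absurd (hu.add hτ) (Nat.not_even_iff_odd.mpr hodd)
      · exact hτ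
    rw [hu.neg_one_pow, hτ.neg_one_pow] at h
    exact hne h.symm
  · have hτ : Even τ := by
      rcases Nat.even_or_odd τ with hτ | hτ
      · exact hτ
      · exact absurd (hu.add_odd hτ) (Nat.not_even_iff_odd.mpr hodd)
    rw [hu.neg_one_pow, hτ.neg_one_pow] at h
    exact hne h

set_option maxHeartbeats 1000000 in
/-- The forward direction, `i` even. -/
theorem forward_i_even {r d m σ e : ℕ} [hrf : Fact r.Prime] {ε : ZMod r} (hεσ : ε = (-1) ^ σ) (hr2 : r ≠ 2) (hrF : (r : F) ≠ 0) (hr0 : r ≠ 0) (hnd : NDOn (polarBilin Q) ⊤)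
    (hVd : finrank F V = 2 * d) (hσ : PlusOn Q ⊤ ↔ Even σ) (HT : TestHyp Q r d m ε hrF hr0)
    (hi : orderOf ((Fintype.card F : ℕ) : ZMod r) = 2 * e) (he : 0 < e) (hm1 : 1 ≤ m) (hmd : m < d)
    (hj : ∃ j, j < m ∧ (((Fintype.card F : ℕ) : ZMod r) ^ (d - j) = ε ∨ ((Fintype.card F : ℕ) : ZMod r) ^ (d - j - 1) = -ε)) :
    2 * e ≤ m ∧ (r - 1) / (2 * e) + 2 * (m / (2 * e)) ≤ (2 * d) / (2 * e) ∧
      ((2 * (m % (2 * e)) ≤ 2 * e ∧ (2 * d) % (2 * e) = 0 ∧ Odd ((2 * d) / (2 * e) + σ) ∧ (r - 1) / (2 * e) + 2 * (m / (2 * e)) < (2 * d) / (2 * e)) ∨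
        (2 * (m % (2 * e)) ≤ (2 * d) % (2 * e) ∧ Even ((2 * d) / (2 * e) + σ)) ∨
        (2 * (m % (2 * e)) < (2 * d) % (2 * e) ∧ Odd ((2 * d) / (2 * e) + σ))) := by
  classical
  have hr := hrf.out
  have hq1 : ((Fintype.card F : ℕ) : ZMod r) ^ e = -1 := by
    have h5 := Cfsg.Agent.Lib.HypBlock.dvd_of_order_even hi he.ne'
    have h6 : (((Fintype.card F : ℕ) ^ e + 1 : ℕ) : ZMod r) = 0 := (ZMod.natCast_eq_zero_iff _ _).mpr h5
    push_cast at h6
    exact eq_neg_of_add_eq_zero_left h6
  have hn'eq : (2 * d) / (2 * e) = d / e := Nat.mul_div_mul_left _ _ (by norm_num)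
  have hkeq : (2 * d) % (2 * e) = 2 * (d % e) := Nat.mul_mod_mul_left 2 d e
  rw [hn'eq, hkeq]
  have hd : e * (d / e) + d % e = d := Nat.div_add_mod d e
  have hglt : d % e < e := Nat.mod_lt _ he
  have hme : 2 * e * (m / (2 * e)) + m % (2 * e) = m := Nat.div_add_mod m (2 * e)
  have hllt : m % (2 * e) < 2 * e := Nat.mod_lt _ (by omega)
  have hcard : (Fs F r).card * (2 * e) = r - 1 := by
    rw [← hi]
    exact Cfsg.Agent.Lib.SpTI.card_Fs rfl hrF
  have ht : (r - 1) / (2 * e) = (Fs F r).card := by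
    rw [← hcard]
    exact Nat.mul_div_cancel _ (by omega)
  rw [ht]
  have htpos : 0 < (Fs F r).card := by
    rcases Nat.eq_zero_or_pos (Fs F r).card with h0 | h0
    · rw [h0, zero_mul] at hcard
      have := hr.two_le
      omega
    · exact h0
  obtain ⟨h₁, hh₁⟩ := Finset.card_pos.mp htpos
  clear hn'eq hkeq ht
  generalize d / e = n' at hd ⊢
  generalize d % e = g at hd hglt ⊢
  generalize m / (2 * e) = m' at hme ⊢
  generalize m % (2 * e) = l at hme hllt ⊢
  generalize ht' : (Fs F r).card = t at hcard htpos ⊢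
  have hcarderase : ((Fs F r).erase h₁).card = t - 1 := by
    rw [Finset.card_erase_of_mem hh₁, ht']
  have hSerase : ∀ h ∈ (Fs F r).erase h₁, h ∈ Fs F r ∧ h ≠ h₁ := fun h hh => by
    rw [Finset.mem_erase] at hh
    exact ⟨hh.2, hh.1⟩
  have hpowd : ∀ s, e * s = d → ((Fintype.card F : ℕ) : ZMod r) ^ d = (-1) ^ s := by
    intro s hs
    rw [← hs, pow_mul, hq1]
  have he2 : 2 * d = n' * (2 * e) + 2 * g := by
    rw [← hd]
    ring
  -- the minimal tests
  have hmin : (0 < g ∨ Even (n' + σ)) → 0 < n' → ∃ a' b', m = a' * (2 * e) + b' ∧ (Even (n' + σ) → 2 * b' ≤ 2 * g) ∧ (Odd (n' + σ) → 2 * b' + 2 ≤ 2 * g) := by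
    intro h0 hn0
    obtain ⟨a', b', h1, -, h2, h3⟩ := test_types hr2 hrF hr0 hnd hVd hσ HT hi he hh₁ hn0 ∅ (by simp) (by
        simp only [Finset.card_empty, add_zero]
        omega) (by
        simp only [Finset.card_empty, add_zero]
        intro h5
        have hg0 : g = 0 := by omega
        rw [hεσ, hpowd n' (by omega)]
        apply neg_one_pow_congr'
        rcases h0 with h0 | h0
        · omega
        · exact h0)
    simp only [Finset.card_empty, add_zero] at h2 h3
    refine ⟨a', b', h1, fun h5 => ?_, fun h5 => ?_⟩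
    · have := h2 h5
      omega
    · have := h3 h5
      omega
  have hmin2 : g = 0 → Odd (n' + σ) → 1 < n' → ∃ a' b', m = a' * (2 * e) + b' ∧ 2 * b' ≤ 2 * e := by
    intro hg0 hodd hn1
    obtain ⟨N, hN⟩ : ∃ N, n' = N + 2 := ⟨n' - 2, by omega⟩
    have e3 : (N + 1) * (2 * e) = N * (2 * e) + 2 * e := by ring
    have e4 : n' * (2 * e) = N * (2 * e) + 2 * (2 * e) := by
      rw [hN]
      ring
    obtain ⟨a', b', h1, -, h2, h3⟩ := test_types hr2 hrF hr0 hnd hVd hσ HT hi he (a₁ := N + 1) hh₁ (by omega) ∅ (by simp) (by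
        simp only [Finset.card_empty, add_zero]
        omega) (by
        simp only [Finset.card_empty, add_zero]
        intro h5
        omega)
    simp only [Finset.card_empty, add_zero] at h2 h3
    refine ⟨a', b', h1, ?_⟩
    have hpar : Even (N + 1 + σ) := by
      rw [hN] at hodd
      obtain ⟨c, hc⟩ := hodd
      exact ⟨c, by omega⟩
    have := h2 hpar
    omega
  -- `i ≤ m`
  have him : 2 * e ≤ m := by
    by_contra hlt
    rw [not_le] at hlt
    have hzero : ∀ a' b', m = a' * (2 * e) + b' → b' = m := by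
      intro a' b' h
      have h1 : a' = 0 := by
        by_contra hne
        have : 1 * (2 * e) ≤ a' * (2 * e) := Nat.mul_le_mul_right _ (Nat.pos_of_ne_zero hne)
        omega
      rw [h1, zero_mul, zero_add] at h
      exact h.symm
    obtain ⟨j, hjm, hj1 | hj1⟩ := hj
    · rw [hεσ] at hj1
      obtain ⟨u, hu, hpar⟩ := pow_eq_neg_pow hr2 hi he hj1
      have hu0 : 0 < u := by
        rcases Nat.eq_zero_or_pos u with rfl | h
        · rw [mul_zero] at hu
          omega
        · exact h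
      have hdj : d = j + e * u := by omega
      rcases div_shape he hdj (by omega) hd hglt with ⟨h1, h2, h3⟩ | ⟨h1, h2, h3⟩
      · rw [← h2] at hpar
        obtain ⟨a', b', h4, h5, -⟩ := hmin (Or.inr hpar) (by omega)
        have h6 := h5 hpar
        have h7 := hzero _ _ h4
        omega
      · have hpar' : Odd (n' + σ) := by
          rw [h2]
          obtain ⟨c, hc⟩ := hpar
          exact ⟨c, by omega⟩
        rcases Nat.eq_zero_or_pos g with hg0 | hgpos
        · obtain ⟨a', b', h4, h5⟩ := hmin2 hg0 hpar' (by omega)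
          have h7 := hzero _ _ h4
          omega
        · obtain ⟨a', b', h4, -, h5⟩ := hmin (Or.inl hgpos) (by omega)
          have h6 := h5 hpar'
          have h7 := hzero _ _ h4
          omega
    · have hj2 : ((Fintype.card F : ℕ) : ZMod r) ^ (d - j - 1) = (-1) ^ (σ + 1) := by
        rw [hj1, hεσ, pow_succ]
        ring
      obtain ⟨u, hu, hpar⟩ := pow_eq_neg_pow hr2 hi he hj2
      have hu0 : 0 < u := by
        rcases Nat.eq_zero_or_pos u with rfl | h
        · rw [mul_zero] at hu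
          omega
        · exact h
      have hdj : d = (j + 1) + e * u := by omega
      rcases div_shape he hdj (by omega) hd hglt with ⟨h1, h2, h3⟩ | ⟨h1, h2, h3⟩
      · have hpar' : Odd (n' + σ) := by
          rw [h2]
          obtain ⟨c, hc⟩ := hpar
          exact ⟨c - 1, by omega⟩
        obtain ⟨a', b', h4, -, h5⟩ := hmin (Or.inl (by omega)) (by omega)
        have h6 := h5 hpar'
        have h7 := hzero _ _ h4
        omega
      · have hpar' : Even (n' + σ) := by
          rw [h2]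
          obtain ⟨c, hc⟩ := hpar
          exact ⟨c, by omega⟩
        obtain ⟨a', b', h4, h5, -⟩ := hmin (Or.inr hpar') (by omega)
        have h6 := h5 hpar'
        have h7 := hzero _ _ h4
        omega
  clear hj
  have hm'pos : 1 ≤ m' := by
    by_contra h0
    have h1 : m' = 0 := by omega
    rw [h1, mul_zero, zero_add] at hme
    omega
  have hn2 : 2 ≤ n' := by
    by_contra h0
    have h1 : n' = 0 ∨ n' = 1 := by omega
    rcases h1 with h1 | h1 <;> rw [h1] at hd <;> simp at hd <;> omega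
  obtain ⟨N, hN⟩ : ∃ N, n' = N + 2 := ⟨n' - 2, by omega⟩
  have e4 : n' * (2 * e) = N * (2 * e) + 2 * (2 * e) := by
    rw [hN]
    ring
  have e3 : (N + 1) * (2 * e) = N * (2 * e) + 2 * e := by ring
  -- division helper
  have hdiv : ∀ a' b', m = a' * (2 * e) + b' → b' < 2 * e → m' = a' ∧ l = b' := by
    intro a' b' h1 h2
    have h3 := (Nat.div_mod_unique (by omega : 0 < 2 * e) (a := m) (c := b') (d := a')).mpr ⟨by rw [h1]; ring, h2⟩
    have h4 := (Nat.div_mod_unique (by omega : 0 < 2 * e) (a := m) (c := l) (d := m')).mpr ⟨by rw [← hme]; ring, hllt⟩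
    exact ⟨h4.1.symm.trans h3.1, h4.2.symm.trans h3.2⟩
  -- the bound
  have hbound : t + 2 * m' ≤ n' := by
    clear hmin hmin2
    by_contra hlt
    rw [not_le] at hlt
    rcases le_or_gt n' (t + 1) with h1 | h1
    · obtain ⟨S, hSsub, hScard⟩ := Finset.exists_subset_card_eq (s := (Fs F r).erase h₁) (n := N) (by rw [hcarderase]; omega)
      have hS : ∀ h ∈ S, h ∈ Fs F r ∧ h ≠ h₁ := fun h hh => hSerase h (hSsub hh)
      have e5 : (1 + S.card) * (2 * e) = N * (2 * e) + 2 * e := by
        rw [hScard]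
        ring
      obtain ⟨a', b', h2, h3, h4, h5⟩ := test_types hr2 hrF hr0 hnd hVd hσ HT hi he (a₁ := 1) hh₁ one_pos S hS (by
          rw [e5]
          omega) (by
          rw [e5]
          intro h5
          omega)
      rw [e5] at h4 h5
      have h6 : a' = 0 := by omega
      rw [h6, zero_mul, zero_add] at h2
      have h7 : 2 * b' ≤ 2 * d - (N * (2 * e) + 2 * e) := by
        rcases Nat.even_or_odd (1 + S.card + σ) with h8 | h8
        · exact h4 h8
        · have := h5 h8
          omega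
      omega
    · have e5 : (n' - t + ((Fs F r).erase h₁).card) * (2 * e) = N * (2 * e) + 2 * e := by
        rw [hcarderase, show n' - t + (t - 1) = N + 1 by omega]
        exact e3
      obtain ⟨a', b', h2, h3, h4, h5⟩ := test_types hr2 hrF hr0 hnd hVd hσ HT hi he (a₁ := n' - t) hh₁ (by omega) _ hSerase (by
          rw [e5]
          omega) (by
          rw [e5]
          intro h5
          omega)
      rw [e5] at h4 h5
      have h7 : 2 * b' ≤ 2 * d - (N * (2 * e) + 2 * e) := by
        rcases Nat.even_or_odd (n' - t + ((Fs F r).erase h₁).card + σ) with h8 | h8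
        · exact h4 h8
        · have := h5 h8
          omega
      obtain ⟨h8, h9⟩ := hdiv a' b' h2 (by omega)
      omega
  refine ⟨him, hbound, ?_⟩
  by_cases hp : 0 < g ∨ Even (n' + σ)
  · obtain ⟨a', b', h1, h2, h3⟩ := hmin hp (by clear hmin hmin2; omega)
    clear hmin hmin2
    rcases Nat.even_or_odd (n' + σ) with h4 | h4
    · have h5 := h2 h4
      obtain ⟨-, h6⟩ := hdiv a' b' h1 (by omega)
      right
      left
      exact ⟨by omega, h4⟩
    · have h5 := h3 h4
      obtain ⟨-, h6⟩ := hdiv a' b' h1 (by omega)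
      right
      right
      exact ⟨by omega, h4⟩
  · push Not at hp
    obtain ⟨hg0, hp2⟩ := hp
    have hg0' : g = 0 := by omega
    rw [Nat.not_even_iff_odd] at hp2
    obtain ⟨a', b', h1, h2⟩ := hmin2 hg0' hp2 (by clear hmin hmin2; omega)
    clear hmin hmin2
    obtain ⟨-, h6⟩ := hdiv a' b' h1 (by omega)
    left
    refine ⟨by omega, by omega, hp2, ?_⟩
    -- the strict inequality
    by_contra hge
    have heq : t + 2 * m' = n' := by omega
    have e5 : (n' - t - 1 + ((Fs F r).erase h₁).card) * (2 * e) = N * (2 * e) := by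
      rw [hcarderase, show n' - t - 1 + (t - 1) = N by omega]
    obtain ⟨a'', b'', h2, h3, h4, h5⟩ := test_types hr2 hrF hr0 hnd hVd hσ HT hi he (a₁ := n' - t - 1) hh₁ (by omega) _ hSerase (by
        rw [e5]
        omega) (by
        rw [e5]
        intro h5
        omega)
    rw [e5] at h4 h5
    have hpar : Odd (n' - t - 1 + ((Fs F r).erase h₁).card + σ) := by
      rw [hcarderase, show n' - t - 1 + (t - 1) = N by omega]
      rw [hN] at hp2
      obtain ⟨c, hc⟩ := hp2
      exact ⟨c - 1, by omega⟩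
    have h7 := h5 hpar
    have h8 : a'' + 1 ≤ m' := by omega
    have h9 : (a'' + 1) * (2 * e) ≤ m' * (2 * e) := Nat.mul_le_mul_right _ h8
    have e6 : (a'' + 1) * (2 * e) = a'' * (2 * e) + 2 * e := by ring
    have e7 : m' * (2 * e) = 2 * e * m' := by ring
    omega

/-- The forward direction, `i` odd. -/
theorem forward_i_odd {r d m σ : ℕ} [hrf : Fact r.Prime] {ε : ZMod r} (hεσ : ε = (-1) ^ σ) (hr2 : r ≠ 2) (hrF : (r : F) ≠ 0) (hr0 : r ≠ 0) (hnd : NDOn (polarBilin Q) ⊤)
    (hVd : finrank F V = 2 * d) (hσ : PlusOn Q ⊤ ↔ Even σ) (HT : TestHyp Q r d m ε hrF hr0)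
    (hodd : ¬ Even (orderOf ((Fintype.card F : ℕ) : ZMod r))) (hm1 : 1 ≤ m) (hmd : m < d)
    (hj : ∃ j, j < m ∧ (((Fintype.card F : ℕ) : ZMod r) ^ (d - j) = ε ∨ ((Fintype.card F : ℕ) : ZMod r) ^ (d - j - 1) = -ε)) :
    orderOf ((Fintype.card F : ℕ) : ZMod r) ≤ m ∧
      ((Even σ ∧ 2 * (m % orderOf ((Fintype.card F : ℕ) : ZMod r)) ≤ (2 * d) % (2 * orderOf ((Fintype.card F : ℕ) : ZMod r))) ∨
       (Odd σ ∧ ((2 * d) % (2 * orderOf ((Fintype.card F : ℕ) : ZMod r)) = 0 ∨ 2 * (m % orderOf ((Fintype.card F : ℕ) : ZMod r)) < (2 * d) % (2 * orderOf ((Fintype.card F : ℕ) : ZMod r))))) := by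
  classical
  have hipos : 0 < orderOf ((Fintype.card F : ℕ) : ZMod r) := orderOf_pos' rfl hrF
  have hipow : ((Fintype.card F : ℕ) : ZMod r) ^ orderOf ((Fintype.card F : ℕ) : ZMod r) = 1 := pow_orderOf_eq_one _
  have hne := Cfsg.Agent.Lib.DualFactors.neg_one_ne hr2
  have hnpow : ∀ x, ((Fintype.card F : ℕ) : ZMod r) ^ x ≠ -1 := by
    intro x hx
    have h2 : ((Fintype.card F : ℕ) : ZMod r) ^ (2 * x) = 1 := by
      rw [mul_comm, pow_mul, hx]
      simp
    have h3 := orderOf_dvd_of_pow_eq_one h2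
    have h4 : orderOf ((Fintype.card F : ℕ) : ZMod r) ∣ x := (Nat.Coprime.dvd_of_dvd_mul_left (Nat.coprime_two_right.mpr (Nat.not_even_iff_odd.mp hodd)) h3)
    obtain ⟨u, rfl⟩ := h4
    rw [pow_mul, hipow, one_pow] at hx
    exact hne hx.symm
  have hpos1 : ∀ x, ((Fintype.card F : ℕ) : ZMod r) ^ x = 1 → orderOf ((Fintype.card F : ℕ) : ZMod r) ∣ x := fun x hx => orderOf_dvd_of_pow_eq_one hx
  have hkeq : (2 * d) % (2 * orderOf ((Fintype.card F : ℕ) : ZMod r)) = 2 * (d % orderOf ((Fintype.card F : ℕ) : ZMod r)) := Nat.mul_mod_mul_left 2 _ _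
  rw [hkeq]
  have hd : orderOf ((Fintype.card F : ℕ) : ZMod r) * (d / orderOf ((Fintype.card F : ℕ) : ZMod r)) + d % orderOf ((Fintype.card F : ℕ) : ZMod r) = d := Nat.div_add_mod _ _
  have hglt : d % orderOf ((Fintype.card F : ℕ) : ZMod r) < orderOf ((Fintype.card F : ℕ) : ZMod r) := Nat.mod_lt _ hipos
  have hme : orderOf ((Fintype.card F : ℕ) : ZMod r) * (m / orderOf ((Fintype.card F : ℕ) : ZMod r)) + m % orderOf ((Fintype.card F : ℕ) : ZMod r) = m := Nat.div_add_mod _ _
  have hllt : m % orderOf ((Fintype.card F : ℕ) : ZMod r) < orderOf ((Fintype.card F : ℕ) : ZMod r) := Nat.mod_lt _ hipos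
  have htest : ∀ hn : 0 < d / orderOf ((Fintype.card F : ℕ) : ZMod r), (d % orderOf ((Fintype.card F : ℕ) : ZMod r) = 0 → ((Fintype.card F : ℕ) : ZMod r) ^ d = ε) →
      ∃ a' b', m = a' * orderOf ((Fintype.card F : ℕ) : ZMod r) + b' ∧ 2 * b' ≤ 2 * (d % orderOf ((Fintype.card F : ℕ) : ZMod r)) ∧
        (¬ PlusOn Q ⊤ → 2 * b' + 2 ≤ 2 * (d % orderOf ((Fintype.card F : ℕ) : ZMod r))) := by
    intro hn hε
    have e1 : d / orderOf ((Fintype.card F : ℕ) : ZMod r) * (2 * orderOf ((Fintype.card F : ℕ) : ZMod r)) = 2 * (orderOf ((Fintype.card F : ℕ) : ZMod r) * (d / orderOf ((Fintype.card F : ℕ) : ZMod r))) := by ring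
    obtain ⟨a', b', h1, h2, h3⟩ := test_odd hr2 hrF hr0 hnd hVd HT hodd hn (by omega) (fun h5 => hε (by omega))
    exact ⟨a', b', h1, by omega, fun h5 => by
      have := h3 h5
      omega⟩
  have hpowd : d % orderOf ((Fintype.card F : ℕ) : ZMod r) = 0 → ((Fintype.card F : ℕ) : ZMod r) ^ d = 1 := by
    intro h0
    have h1 : orderOf ((Fintype.card F : ℕ) : ZMod r) ∣ d := Nat.dvd_of_mod_eq_zero h0
    exact orderOf_dvd_iff_pow_eq_one.mp h1
  have hσ1 : Even σ → ε = 1 := fun h => by
    rw [hεσ, h.neg_one_pow]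
  have hσ2 : Odd σ → ε = -1 := fun h => by
    rw [hεσ, h.neg_one_pow]
  generalize orderOf ((Fintype.card F : ℕ) : ZMod r) = i at *
  generalize d / i = n at *
  generalize d % i = g at *
  generalize m / i = m' at *
  generalize m % i = l at *
  have hdiv : ∀ a' b', m = a' * i + b' → b' < i → l = b' := by
    intro a' b' h1 h2
    have h3 := (Nat.div_mod_unique hipos (a := m) (c := b') (d := a')).mpr ⟨by rw [h1]; ring, h2⟩
    have h4 := (Nat.div_mod_unique hipos (a := m) (c := l) (d := m')).mpr ⟨by rw [← hme]; ring, hllt⟩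
    exact h4.2.symm.trans h3.2
  have hzero : ∀ a' b', m < i → m = a' * i + b' → b' = m := by
    intro a' b' hlt h
    have h1 : a' = 0 := by
      by_contra hne
      have : 1 * i ≤ a' * i := Nat.mul_le_mul_right _ (Nat.pos_of_ne_zero hne)
      omega
    rw [h1, zero_mul, zero_add] at h
    exact h.symm
  rcases Nat.even_or_odd σ with hσe | hσo
  · have hε1 := hσ1 hσe
    obtain ⟨j, hjm, hj1 | hj1⟩ := hj
    swap
    · rw [hε1] at hj1
      exact absurd hj1 (hnpow _)
    rw [hε1] at hj1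
    obtain ⟨u, hu⟩ := hpos1 _ hj1
    have hu0 : 0 < u := by
      rcases Nat.eq_zero_or_pos u with rfl | h
      · rw [mul_zero] at hu
        omega
      · exact h
    have hdj : d = j + i * u := by omega
    have hiu : i ≤ i * u := Nat.le_mul_of_pos_right _ hu0
    have hn0 : 0 < n := by
      rcases Nat.eq_zero_or_pos n with h | h
      · rw [h, mul_zero] at hd
        omega
      · exact h
    obtain ⟨a', b', h1, h2, -⟩ := htest hn0 (fun h5 => by rw [hε1]; exact hpowd h5)
    clear htest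
    have h3 := hdiv a' b' h1 (by omega)
    refine ⟨?_, Or.inl ⟨hσe, by omega⟩⟩
    by_contra hlt
    rw [not_le] at hlt
    have h4 := hzero a' b' hlt h1
    rcases div_shape hipos hdj (by omega) hd hglt with ⟨h5, h6, h7⟩ | ⟨h5, h6, h7⟩ <;> omega
  · have hε1 := hσ2 hσo
    have hnp : ¬ PlusOn Q ⊤ := by
      rw [hσ, Nat.not_even_iff_odd]
      exact hσo
    obtain ⟨j, hjm, hj1 | hj1⟩ := hj
    · rw [hε1] at hj1
      exact absurd hj1 (hnpow _)
    rw [hε1, neg_neg] at hj1
    obtain ⟨u, hu⟩ := hpos1 _ hj1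
    have hu0 : 0 < u := by
      rcases Nat.eq_zero_or_pos u with rfl | h
      · rw [mul_zero] at hu
        omega
      · exact h
    have hdj : d = (j + 1) + i * u := by omega
    have hiu : i ≤ i * u := Nat.le_mul_of_pos_right _ hu0
    have hn0 : 0 < n := by
      rcases Nat.eq_zero_or_pos n with h | h
      · rw [h, mul_zero] at hd
        omega
      · exact h
    have him : i ≤ m := by
      by_contra hlt
      rw [not_le] at hlt
      rcases div_shape hipos hdj (by omega) hd hglt with ⟨h5, h6, h7⟩ | ⟨h5, h6, h7⟩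
      · obtain ⟨a', b', h1, -, h2⟩ := htest hn0 (fun h8 => by omega)
        clear htest
        have h3 := h2 hnp
        have h4 := hzero a' b' hlt h1
        omega
      · omega
    refine ⟨him, Or.inr ⟨hσo, ?_⟩⟩
    rcases Nat.eq_zero_or_pos g with h0 | hgpos
    · left
      omega
    · right
      obtain ⟨a', b', h1, -, h2⟩ := htest hn0 (fun h8 => by omega)
      clear htest
      have h3 := h2 hnp
      have h4 := hdiv a' b' h1 (by omega)
      omega

end Cfsg.Agent.Lib.OTS
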