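import Mathlib
import Cfsg.Agent.Lib.OTS.Type
import Cfsg.Agent.Lib.OTS.Two

/-!
# Isometries whose square is `-1`
-/

set_option autoImplicit false
set_option linter.unusedSimpArgs false
set_option linter.unusedVariables false
set_option linter.unusedSectionVars false

namespace Cfsg.Agent.Lib.OTS

open Module Matrix QuadraticMap Cfsg.Agent.Lib.IsomBlock
open scoped MatrixGroups
open Cfsg.Agent.Lib.OrthGroup Cfsg.Agent.Lib.OrthOmega Cfsg.Agent.Lib.OrthMatrix Cfsg.Agent.Lib.SpinorCrit

universe u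

section abstract

variable {F : Type u} [Field F] [Fintype F] {V : Type u} [AddCommGroup V] [Module F V] [FiniteDimensional F V]
variable {Q : QuadraticForm F V} {T : V →ₗ[F] V}

theorem polar_J (hQT : ∀ v, Q (T v) = Q v) (hT2 : ∀ v, T (T v) = -v) (v w : V) : polar Q (T v) w = - polar Q v (T w) := by
  have h1 : polar Q (T (T v)) (T w) = polar Q (T v) w := polar_iso hQT (T v) w
  rw [hT2, polar_neg_left] at h1
  exact h1.symm

theorem polar_self_J (h2 : (2 : F) ≠ 0) (hQT : ∀ v, Q (T v) = Q v) (hT2 : ∀ v, T (T v) = -v) (v : V) : polar Q v (T v) = 0 := by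
  have h1 := polar_J hQT hT2 v v
  rw [polar_comm] at h1
  have h3 : (2 : F) * polar Q v (T v) = 0 := by linear_combination h1
  exact (mul_eq_zero.mp h3).resolve_left h2

theorem inv_perp_J (hQT : ∀ v, Q (T v) = Q v) (hT2 : ∀ v, T (T v) = -v) {U : Submodule F V} (hU : InvOn T U) : InvOn T (perp (polarBilin Q) U) := by
  intro u hu w hw
  show polar Q w (T u) = 0
  have h1 := polar_J hQT hT2 w u
  have h3 : polar Q (T w) u = 0 := hu _ (hU w hw)
  rw [h3] at h1
  linear_combination h1

/-- Invariant subspaces have even dimension, when `-1` is not a square. -/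
theorem even_finrank_of_J (hsq : ∀ c : F, c * c ≠ -1) (hT2 : ∀ v, T (T v) = -v) {W : Submodule F V} (hW : InvOn T W) : Even (finrank F W) := by
  classical
  by_contra hodd
  rw [Nat.not_even_iff_odd] at hodd
  apply hsq (LinearMap.det (T.restrict hW))
  have h1 : (T.restrict hW) * (T.restrict hW) = (-1 : F) • LinearMap.id := by
    ext x
    show T (T x) = _
    rw [hT2]
    simp
  have h3 := congrArg LinearMap.det h1
  rw [map_mul, LinearMap.det_smul, LinearMap.det_id, mul_one, hodd.neg_one_pow] at h3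
  exact h3

theorem finrank_perp_add (hnd : NDOn (polarBilin Q) ⊤) (X : Submodule F V) : finrank F (perp (polarBilin Q) X) + finrank F X = finrank F V := by
  have hnd2 : (polarBilin Q).Nondegenerate := Cfsg.Agent.Lib.QuadFF.nondegenerate_of_ND fun v hv => hnd v trivial fun w _ => hv w
  have h1 := LinearMap.BilinForm.finrank_orthogonal hnd2 X
  have h2 : perp (polarBilin Q) X = LinearMap.BilinForm.orthogonal (polarBilin Q) X := by
    ext v
    rw [mem_perp, LinearMap.BilinForm.mem_orthogonal_iff]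
  rw [h2, h1]
  have := Submodule.finrank_le X
  omega

/-- An invariant totally singular subspace extends, when `-1` is not a square. -/
theorem exists_ts_J_step (h2 : (2 : F) ≠ 0) (hsq : ∀ c : F, c * c ≠ -1) (hnd : NDOn (polarBilin Q) ⊤) (hQT : ∀ v, Q (T v) = Q v) (hT2 : ∀ v, T (T v) = -v)
    {S W : Submodule F V} (hS : TS Q S) (hW : TS Q W) (hWinv : InvOn T W) (hlt : finrank F W < finrank F S) :
    ∃ W' : Submodule F V, InvOn T W' ∧ TS Q W' ∧ finrank F W' = finrank F W + 2 := by
  classical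
  have hB := goodForm_polar Q
  have hpd := finrank_perp_add hnd
  have hWW : W ≤ perp (polarBilin Q) W := fun v hv w hw => hW.ti w hw v hv
  have hle : S ⊔ perp (polarBilin Q) W ≤ perp (polarBilin Q) (S ⊓ W) := by
    apply sup_le
    · intro v hv w hw
      exact hS.ti w hw.1 v hv
    · intro v hv w hw
      exact hv w hw.2
  have h1 := Submodule.finrank_mono hle
  have h3 := Submodule.finrank_sup_add_finrank_inf_eq S (perp (polarBilin Q) W)
  have h4 := hpd W
  have h5 := hpd (S ⊓ W)
  -- a new vector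
  obtain ⟨v, hvS, hvW⟩ : ∃ v ∈ S ⊓ perp (polarBilin Q) W, v ∉ W := by
    by_contra hall
    push Not at hall
    have h6 : S ⊓ perp (polarBilin Q) W ≤ S ⊓ W := fun v hv => ⟨hv.1, hall v hv⟩
    have h7 := Submodule.finrank_mono h6
    omega
  have hv0 : Q v = 0 := hS v hvS.1
  have hTv0 : Q (T v) = 0 := by rw [hQT, hv0]
  have hvTv := polar_self_J h2 hQT hT2 v
  have hindep : ∀ α β : F, α • v + β • T v ∈ W → α = 0 ∧ β = 0 := by
    intro α β hab
    have h6 : T (α • v + β • T v) ∈ W := hWinv _ hab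
    have h7 : α • (α • v + β • T v) - β • T (α • v + β • T v) = (α * α + β * β) • v := by
      rw [map_add, map_smul, map_smul, hT2, smul_add, smul_add, smul_smul, smul_smul, smul_smul, smul_smul, smul_neg, add_smul]
      rw [mul_comm α β]
      abel
    have h8 : (α * α + β * β) • v ∈ W := by
      rw [← h7]
      exact W.sub_mem (W.smul_mem _ hab) (W.smul_mem _ h6)
    have h9 : α * α + β * β = 0 := by
      by_contra hne
      exact hvW ((W.smul_mem_iff hne).mp h8)
    have hb0 : β = 0 := by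
      by_contra hne
      apply hsq (α / β)
      field_simp
      linear_combination h9
    rw [hb0, mul_zero, add_zero] at h9
    exact ⟨mul_self_eq_zero.mp h9, hb0⟩
  have hA2 : finrank F (Submodule.span F {v, T v}) = 2 := Cfsg.Agent.Lib.HypEll.finrank_pair (fun s t h => hindep s t (by rw [h]; exact W.zero_mem))
  have hATS : TS Q (Submodule.span F {v, T v}) := by
    intro u hu
    obtain ⟨a, b, rfl⟩ := Submodule.mem_span_pair.mp hu
    rw [Q_add', QuadraticMap.map_smul, QuadraticMap.map_smul, hv0, hTv0, polar_smul_left, polar_smul_right, hvTv]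
    simp
  have hTvperp : T v ∈ perp (polarBilin Q) W := inv_perp_J hQT hT2 hWinv v hvS.2
  have hAperp : Submodule.span F {v, T v} ≤ perp (polarBilin Q) W := by
    apply Submodule.span_le.mpr
    rintro u (rfl | rfl)
    · exact hvS.2
    · exact hTvperp
  have hdisj : W ⊓ Submodule.span F {v, T v} = ⊥ := by
    rw [eq_bot_iff]
    rintro u ⟨h6, h7⟩
    obtain ⟨a, b, rfl⟩ := Submodule.mem_span_pair.mp h7
    obtain ⟨h8, h9⟩ := hindep a b h6
    simp [h8, h9]
  refine ⟨W ⊔ Submodule.span F {v, T v}, Cfsg.Agent.Lib.SpTI.inv_sup hWinv ?_, ts_sup hW hATS fun a ha b hb => hAperp hb a ha, ?_⟩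
  · intro u hu
    obtain ⟨a, b, rfl⟩ := Submodule.mem_span_pair.mp hu
    rw [map_add, map_smul, map_smul, hT2, Submodule.mem_span_pair]
    exact ⟨-b, a, by simp [add_comm]⟩
  · have h6 := Submodule.finrank_sup_add_finrank_inf_eq W (Submodule.span F {v, T v})
    rw [hdisj, finrank_bot, hA2] at h6
    omega

/-- Invariant totally singular subspaces of even dimension, when `-1` is not a square. -/
theorem exists_ts_J (h2 : (2 : F) ≠ 0) (hsq : ∀ c : F, c * c ≠ -1) (hnd : NDOn (polarBilin Q) ⊤) (hQT : ∀ v, Q (T v) = Q v) (hT2 : ∀ v, T (T v) = -v)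
    {S : Submodule F V} (hS : TS Q S) (g : ℕ) (hg : 2 * g ≤ finrank F S) :
    ∃ W : Submodule F V, InvOn T W ∧ TS Q W ∧ finrank F W = 2 * g := by
  induction g with
  | zero => exact ⟨⊥, fun v hv => by
      rw [Submodule.mem_bot] at hv ⊢
      rw [hv, map_zero], ts_bot, by simp⟩
  | succ g ih =>
    obtain ⟨W, h1, h3, h4⟩ := ih (by omega)
    obtain ⟨W', h5, h6, h7⟩ := exists_ts_J_step h2 hsq hnd hQT hT2 hS h3 h1 (by omega)
    exact ⟨W', h5, h6, by omega⟩

/-- Invariant totally singular subspaces, when `-1` is a square. -/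
theorem exists_ts_J_sq (h2 : (2 : F) ≠ 0) {c : F} (hc : c * c = -1) (hQT : ∀ v, Q (T v) = Q v) (hT2 : ∀ v, T (T v) = -v) {m : ℕ} (hm : 2 * m ≤ finrank F V) :
    ∃ W : Submodule F V, InvOn T W ∧ TS Q W ∧ finrank F W = m := by
  classical
  have hc0 : c ≠ 0 := by
    rintro rfl
    have : (1 : F) = 0 := by linear_combination hc
    exact one_ne_zero this
  have hkey : ∀ a : F, a * a = -1 → ∀ v, T v = a • v → Q v = 0 := by
    intro a ha v hv
    have h1 := hQT v
    rw [hv, QuadraticMap.map_smul] at h1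
    have h3 : (2 : F) * Q v = 0 := by
      have h4 : (a * a) • Q v = Q v := h1
      rw [ha] at h4
      simp only [smul_eq_mul] at h4
      linear_combination -h4
    exact (mul_eq_zero.mp h3).resolve_left h2
  let E (a : F) : Submodule F V := LinearMap.ker (T - a • LinearMap.id)
  have hE : ∀ a v, v ∈ E a ↔ T v = a • v := by
    intro a v
    simp [E, sub_eq_zero]
  have hsup : E c ⊔ E (-c) = ⊤ := by
    rw [eq_top_iff]
    intro v _
    have h1 : T (T v) = -v := hT2 v
    have e1 : T v + c • v ∈ E c := by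
      rw [hE, map_add, map_smul, h1, smul_add, smul_smul, hc]
      simp [add_comm]
    have e2 : T v - c • v ∈ E (-c) := by
      rw [hE, map_sub, map_smul, h1, smul_sub, smul_smul, neg_mul, hc]
      simp [add_comm, sub_eq_add_neg]
    have e3 : v = ((2 : F) * c)⁻¹ • (T v + c • v) + (-((2 : F) * c)⁻¹) • (T v - c • v) := by
      have h3 : (2 * c) ≠ 0 := mul_ne_zero h2 hc0
      have h4 : ((2 : F) * c)⁻¹ • (T v + c • v) + (-((2 : F) * c)⁻¹) • (T v - c • v) = (((2 : F) * c)⁻¹ * (2 * c)) • v := by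
        module
      rw [h4, inv_mul_cancel₀ h3, one_smul]
    rw [e3]
    exact Submodule.add_mem_sup (Submodule.smul_mem _ _ e1) (Submodule.smul_mem _ _ e2)
  have h5 := Submodule.finrank_sup_add_finrank_inf_eq (E c) (E (-c))
  rw [hsup, finrank_top] at h5
  have hgood : ∀ a, a * a = -1 → m ≤ finrank F (E a) → ∃ W : Submodule F V, InvOn T W ∧ TS Q W ∧ finrank F W = m := by
    intro a ha hle
    obtain ⟨W, h1, h3⟩ := exists_sub_finrank (E a) hle
    refine ⟨W, ?_, fun w hw => hkey a ha w ((hE a w).mp (h1 hw)), h3⟩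
    intro w hw
    rw [(hE a w).mp (h1 hw)]
    exact W.smul_mem _ hw
  have h6 : E c ⊓ E (-c) = ⊥ := by
    rw [eq_bot_iff]
    rintro v ⟨h7, h8⟩
    have h9 := (hE c v).mp h7
    have h10 := (hE (-c) v).mp h8
    rw [h9] at h10
    have h11 : ((2 : F) * c) • v = 0 := by
      rw [mul_smul, two_smul]
      nth_rw 1 [h10]
      simp
    rw [Submodule.mem_bot]
    exact (smul_eq_zero.mp h11).resolve_left (mul_ne_zero h2 hc0)
  rw [h6, finrank_bot, add_zero] at h5
  rcases le_total (finrank F (E c)) (finrank F (E (-c))) with h7 | h7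
  · exact hgood (-c) (by simp [hc]) (by omega)
  · exact hgood c hc (by omega)

end abstract

section count

/-- A free action of a cyclic group of order four. -/
theorem four_dvd_card {X : Type*} [Finite X] (σ : Equiv.Perm X) (h4 : σ ^ 4 = 1) (h2 : ∀ x, (σ ^ 2) x ≠ x) : 4 ∣ Nat.card X := by
  classical
  by_cases hX : IsEmpty X
  · rw [Nat.card_of_isEmpty]
    exact dvd_zero _
  rw [not_isEmpty_iff] at hX
  obtain ⟨x₀⟩ := hX
  haveI : Fact (Nat.Prime 2) := ⟨Nat.prime_two⟩
  have hord : orderOf σ = 4 := by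
    have := orderOf_eq_prime_pow (p := 2) (n := 1) (x := σ) (by
      intro h
      apply h2 x₀
      have h3 : σ ^ 2 = 1 := h
      rw [h3]
      rfl) (by simpa using h4)
    simpa using this
  let G := Subgroup.zpowers σ
  have hstab : ∀ b : X, MulAction.stabilizer G b = ⊥ := by
    intro b
    rw [eq_bot_iff]
    rintro ⟨g, hg⟩ hgb
    have h5 := (mem_zpowers_iff_mem_range_orderOf).mp hg
    simp only [Finset.mem_image, Finset.mem_range, hord] at h5
    obtain ⟨n, hn, rfl⟩ := h5
    have hb : (σ ^ n) b = b := hgb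
    have hfix : σ b = b → False := by
      intro h7
      apply h2 b
      rw [pow_two]
      show σ (σ b) = b
      rw [h7, h7]
    interval_cases n
    · rw [Subgroup.mem_bot]
      apply Subtype.ext
      simp
    · exfalso
      apply hfix
      simpa using hb
    · exact absurd hb (h2 b)
    · exfalso
      apply hfix
      have h8 : (σ ^ 4) b = σ ((σ ^ 3) b) := by
        rw [pow_succ']
        rfl
      rw [h4, hb] at h8
      exact h8.symm
  have e := MulAction.selfEquivOrbitsQuotientProd (G := G) (X := X) hstab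
  rw [Nat.card_congr e, Nat.card_prod]
  have hG : Nat.card G = 4 := by
    rw [Nat.card_zpowers, hord]
  rw [hG]
  exact dvd_mul_left _ _

end count

section type

variable {F : Type u} [Field F] [Fintype F] {V : Type u} [AddCommGroup V] [Module F V] [FiniteDimensional F V]
variable {Q : QuadraticForm F V} {T : V →ₗ[F] V}

open Cfsg.Agent.Lib.QuadFF Cfsg.Agent.Lib.OrthoCount Cfsg.Agent.Lib.QuadClass Cfsg.Agent.Lib.OrthRealize Cfsg.Agent.Lib.QuadClass2

/-- The type of a form admitting an isometry with square `-1`, when `-1` is not a square. -/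
theorem J_type (h2 : (2 : F) ≠ 0) (hq3 : Fintype.card F % 4 = 3) (hnd : NDOn (polarBilin Q) ⊤) (hQT : ∀ v, Q (T v) = Q v) (hT2 : ∀ v, T (T v) = -v)
    {d : ℕ} (hd : finrank F V = 2 * d) : PlusOn Q ⊤ ↔ Even d := by
  classical
  rcases Nat.eq_zero_or_pos d with rfl | hdpos
  · simp only [Even.zero, iff_true]
    exact plusOn_of_zero (by rw [finrank_top]; omega)
  obtain ⟨k, rfl⟩ : ∃ k, d = k + 1 := ⟨d - 1, by omega⟩
  haveI : Finite V := Module.finite_of_finite F
  have hN : ND Q := fun v hv => hnd v trivial fun w _ => hv w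
  -- the free action
  let σ : Equiv.Perm {v // Q v = 1} :=
    { toFun := fun x => ⟨T x.1, by rw [hQT]; exact x.2⟩
      invFun := fun x => ⟨-T x.1, by rw [QuadraticMap.map_neg, hQT]; exact x.2⟩
      left_inv := fun x => Subtype.ext (by
        show -T (T x.1) = x.1
        rw [hT2, neg_neg])
      right_inv := fun x => Subtype.ext (by
        show T (-T x.1) = x.1
        rw [map_neg, hT2, neg_neg]) }
  have hσ : ∀ x, (σ x).1 = T x.1 := fun x => rfl
  have hσ2 : ∀ x, ((σ ^ 2) x).1 = -x.1 := by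
    intro x
    rw [pow_two]
    show T (T x.1) = _
    rw [hT2]
  have hdvd := four_dvd_card σ (by
      rw [show (4 : ℕ) = 2 * 2 by norm_num, pow_mul]
      ext x
      show (((σ ^ 2) ^ 2) x).1 = x.1
      rw [pow_two]
      show ((σ ^ 2) ((σ ^ 2) x)).1 = x.1
      rw [hσ2, hσ2, neg_neg]) (by
      intro x hx
      have h1 := congrArg Subtype.val hx
      rw [hσ2] at h1
      have h3 : (2 : F) • x.1 = 0 := by
        rw [two_smul]
        nth_rw 1 [← h1]
        simp
      have h4 : x.1 = 0 := (smul_eq_zero.mp h3).resolve_left h2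
      have h5 := x.2
      rw [h4, QuadraticMap.map_zero] at h5
      exact zero_ne_one h5)
  have hdvdZ : ((4 : ℕ) : ℤ) ∣ (Nat.card {v // Q v = 1} : ℤ) := by exact_mod_cast hdvd
  have hqZ : ((Fintype.card F : ℕ) : ZMod 4) = -1 := by
    have h1 : ((Fintype.card F : ℕ) : ZMod 4) = ((3 : ℕ) : ZMod 4) := (ZMod.natCast_eq_natCast_iff' _ _ _).mpr (by omega)
    rw [h1]
    decide
  have h0Z : (((Nat.card {v // Q v = 1} : ℕ) : ℤ) : ZMod 4) = 0 := (ZMod.intCast_zmod_eq_zero_iff_dvd _ 4).mpr hdvdZ
  rcases std_cases hd Q hN with ⟨b, hb⟩ | ⟨k', hk', b, ζ, hb⟩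
  · have hp : PlusOn Q ⊤ := by
      obtain ⟨K, h1, h3⟩ := exists_ts_of_hyp hb
      exact ⟨K, le_top, h1, by rw [h3, finrank_top, hd]⟩
    simp only [hp, true_iff]
    obtain ⟨e, he⟩ := iso_qPlus_of_hyp hb
    have h1 := natCard_fibre_congr e he 1
    have h3 := fibre_plus (F := F) k (c := 1) one_ne_zero
    rw [← h1] at h3
    rw [h3] at h0Z
    push_cast at h0Z
    rw [hqZ] at h0Z
    rcases Nat.even_or_odd k with hk | hk
    · exfalso
      rw [pow_succ, hk.neg_one_pow] at h0Z
      revert h0Z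
      decide
    · exact hk.add_one
  · obtain rfl : k = k' := by omega
    have hp : ¬ PlusOn Q ⊤ := by
      rintro ⟨K, -, h1, h3⟩
      have := finrank_le_of_minus hN hb K h1
      rw [finrank_top, hd] at h3
      omega
    simp only [hp, false_iff]
    obtain ⟨e, he⟩ := iso_of_minus_basis hN hb
    have h1 := natCard_fibre_congr e he 1
    have h3 := fibre_minus (F := F) hb.1 k (c := 1) one_ne_zero
    rw [← h1] at h3
    rw [h3] at h0Z
    push_cast at h0Z
    rw [hqZ] at h0Z
    rcases Nat.even_or_odd k with hk | hk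
    · rw [Nat.not_even_iff_odd]
      exact hk.add_one
    · exfalso
      rw [pow_succ, hk.neg_one_pow] at h0Z
      revert h0Z
      decide

end type

section prod

variable {F : Type u} [Field F] [Fintype F] {ι : Type} [Fintype ι] [DecidableEq ι]
variable {Q : QuadraticForm F (ι → F)} {T : (ι → F) →ₗ[F] (ι → F)}

/-- A nonsingular vector in a nondegenerate subspace. -/
theorem exists_nonsing {V : Type*} [AddCommGroup V] [Module F V] {Q : QuadraticForm F V} {U : Submodule F V} (hU : NDOn (polarBilin Q) U) (h0 : U ≠ ⊥) : ∃ v ∈ U, Q v ≠ 0 := by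
  by_contra hall
  push Not at hall
  apply h0
  rw [eq_bot_iff]
  intro u hu
  rw [Submodule.mem_bot]
  apply hU u hu
  intro w hw
  rw [polarBilin_apply_apply, polar, hall _ (U.add_mem hu hw), hall u hu, hall w hw]
  simp

/-- The decomposition into products of reflections. -/
theorem J_prodR (h2 : (2 : F) ≠ 0) (hQT : ∀ v, Q (T v) = Q v) (hT2 : ∀ v, T (T v) = -v) :
    ∀ (n : ℕ) (U : Submodule F (ι → F)), finrank F U = n → NDOn (polarBilin Q) U → InvOn T U →
      ∃ (k : ℕ) (L : List (ι → F)) (c : F), n = 2 * k ∧ c ≠ 0 ∧ L.length = 2 * k ∧ (∀ w ∈ L, Q w ≠ 0) ∧ (L.map Q).prod = 2 ^ k * (c * c) ∧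
        (∀ y ∈ U, prodR Q L y = T y) ∧ (∀ y ∈ perp (polarBilin Q) U, prodR Q L y = y) := by
  classical
  intro n
  induction n using Nat.strong_induction_on with
  | _ n ih =>
    intro U hn hU hinv
    have hB := goodForm_polar Q
    by_cases h0 : U = ⊥
    · subst h0
      refine ⟨0, [], 1, by rw [← hn, finrank_bot], one_ne_zero, rfl, by simp, by simp, ?_, by simp⟩
      intro y hy
      rw [Submodule.mem_bot] at hy
      rw [hy, map_zero, map_zero]
    obtain ⟨v, hvU, hv⟩ := exists_nonsing hU h0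
    set α := Q v with hα
    have hTv : T v ∈ U := hinv v hvU
    have hQTv : Q (T v) = α := hQT v
    have hvTv : polar Q v (T v) = 0 := polar_self_J h2 hQT hT2 v
    have hTvv : polar Q (T v) v = 0 := by
      rw [polar_comm]
      exact hvTv
    have hvv : polar Q v v = 2 * α := polar_self_eq' v
    have hTT : polar Q (T v) (T v) = 2 * α := by
      rw [polar_self_eq', hQTv]
    have h2α : (2 : F) * α ≠ 0 := mul_ne_zero h2 hv
    have hQs : Q (v + T v) = 2 * α := by
      rw [Q_add', hQTv, hvTv, ← hα]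
      ring
    have hindep : ∀ s t : F, s • v + t • T v = 0 → s = 0 ∧ t = 0 := by
      intro s t h
      have h3 := congrArg (fun y => polarBilin Q y v) h
      have h4 := congrArg (fun y => polarBilin Q y (T v)) h
      simp only [map_add, map_smul, LinearMap.add_apply, LinearMap.smul_apply, polarBilin_apply_apply, map_zero, LinearMap.zero_apply,
        hvv, hTvv, hvTv, hTT, smul_eq_mul, mul_zero, add_zero, zero_add] at h3 h4
      exact ⟨(mul_eq_zero.mp h3).resolve_right h2α, (mul_eq_zero.mp h4).resolve_right h2α⟩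
    set P := Submodule.span F {v, T v} with hP
    have hPd : finrank F P = 2 := Cfsg.Agent.Lib.HypEll.finrank_pair hindep
    have hPU : P ≤ U := by
      apply Submodule.span_le.mpr
      rintro u (rfl | rfl)
      · exact hvU
      · exact hTv
    have hPinv : InvOn T P := by
      intro u hu
      obtain ⟨a, b, rfl⟩ := Submodule.mem_span_pair.mp hu
      rw [map_add, map_smul, map_smul, hT2, Submodule.mem_span_pair]
      exact ⟨-b, a, by simp [add_comm]⟩
    have hPnd : NDOn (polarBilin Q) P := by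
      intro u hu hall
      obtain ⟨a, b, rfl⟩ := Submodule.mem_span_pair.mp hu
      have h3 := hall v (Submodule.subset_span (by simp))
      have h4 := hall (T v) (Submodule.subset_span (by simp))
      simp only [map_add, map_smul, LinearMap.add_apply, LinearMap.smul_apply, polarBilin_apply_apply,
        hvv, hTvv, hvTv, hTT, smul_eq_mul, mul_zero, add_zero, zero_add] at h3 h4
      rw [(mul_eq_zero.mp h3).resolve_right h2α, (mul_eq_zero.mp h4).resolve_right h2α]
      simp
    have hfin := finrank_rel hB hPU hPnd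
    obtain ⟨k', L', c', hk', hc', hL'len, hL', hL'prod, hL'U, hL'perp⟩ := ih (finrank F (U ⊓ perp (polarBilin Q) P : Submodule F (ι → F))) (by omega)
      (U ⊓ perp (polarBilin Q) P) rfl (nd_rel hB hPU hPnd hU) (inv_inf hinv (inv_perp_J hQT hT2 hPinv))
    -- the two reflections
    have hR : ∀ x, prodR Q [v + T v, v] x = refl Q (v + T v) (refl Q v x) := by
      intro x
      simp [prodR_cons]
    have hRv : refl Q (v + T v) (refl Q v v) = T v := by
      rw [refl_apply Q v v, refl_apply, hQs]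
      show (v - ((Q v)⁻¹ * polar Q v v) • v) - ((2 * α)⁻¹ * polar Q (v - ((Q v)⁻¹ * polar Q v v) • v) (v + T v)) • (v + T v) = T v
      rw [hvv, ← hα]
      have e1 : α⁻¹ * (2 * α) = 2 := by
        field_simp
      rw [e1]
      simp only [polar_sub_left, polar_smul_left, polar_add_right, hvv, hvTv, smul_eq_mul]
      have e2 : ((2 * α)⁻¹ * (2 * α - 2 * (2 * α) + (0 - 2 * 0))) = -1 := by
        field_simp
        ring
      rw [e2]
      module
    have hRTv : refl Q (v + T v) (refl Q v (T v)) = -v := by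
      rw [refl_of_perp Q (v := v) (x := T v) hTvv, refl_apply, hQs]
      show T v - ((2 * α)⁻¹ * polar Q (T v) (v + T v)) • (v + T v) = -v
      rw [polar_add_right, hTvv, hTT, zero_add, inv_mul_cancel₀ h2α, one_smul]
      abel
    have hRP : ∀ x ∈ P, prodR Q [v + T v, v] x = T x := by
      intro x hx
      obtain ⟨a, b, rfl⟩ := Submodule.mem_span_pair.mp hx
      rw [hR, map_add, map_add, map_smul, map_smul, map_smul, map_smul, hRv, hRTv, map_add, map_smul, map_smul, hT2]
    have hRperp : ∀ x ∈ perp (polarBilin Q) P, prodR Q [v + T v, v] x = x := by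
      intro x hx
      have h3 : polar Q x v = 0 := by
        rw [polar_comm]
        exact hx v (Submodule.subset_span (by simp))
      have h4 : polar Q x (T v) = 0 := by
        rw [polar_comm]
        exact hx (T v) (Submodule.subset_span (by simp))
      rw [hR, refl_of_perp Q (v := v) (x := x) h3, refl_of_perp Q (x := x)]
      show polar Q x (v + T v) = 0
      rw [polar_add_right, h3, h4, add_zero]
    refine ⟨k' + 1, (v + T v) :: v :: L', c' * α, by omega, mul_ne_zero hc' hv, by simp [hL'len]; ring, ?_, ?_, ?_, ?_⟩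
    · intro w hw
      simp only [List.mem_cons] at hw
      rcases hw with rfl | rfl | hw
      · rw [hQs]
        exact h2α
      · exact hv
      · exact hL' w hw
    · simp only [List.map_cons, List.prod_cons]
      rw [hL'prod, hQs, ← hα, pow_succ]
      ring
    · intro y hy
      have hsup := sup_rel hB hPU hPnd
      have hy' : y ∈ P ⊔ (U ⊓ perp (polarBilin Q) P) := by
        rw [hsup]
        exact hy
      obtain ⟨p, hp, u', hu', rfl⟩ := Submodule.mem_sup.mp hy'
      have hsplit : ∀ x, prodR Q ((v + T v) :: v :: L') x = prodR Q [v + T v, v] (prodR Q L' x) := by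
        intro x
        simp [prodR_cons]
      have hpperp : p ∈ perp (polarBilin Q) (U ⊓ perp (polarBilin Q) P) := by
        intro w hw
        show polar Q w p = 0
        rw [polar_comm]
        exact hw.2 p hp
      rw [hsplit, map_add, map_add, hL'perp p hpperp, hL'U u' hu', map_add, hRP p hp, hRperp _ (inv_perp_J hQT hT2 hPinv _ hu'.2)]
    · intro y hy
      have hsplit : ∀ x, prodR Q ((v + T v) :: v :: L') x = prodR Q [v + T v, v] (prodR Q L' x) := by
        intro x
        simp [prodR_cons]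
      have h3 : y ∈ perp (polarBilin Q) (U ⊓ perp (polarBilin Q) P) := fun w hw => hy w hw.1
      have h4 : y ∈ perp (polarBilin Q) P := fun w hw => hy w (hPU hw)
      rw [hsplit, hL'perp y h3, hRperp y h4]

/-- Membership in `Ω` of an isometry with square `-1`. -/
theorem J_mem_Omega (h2 : (2 : F) ≠ 0) (hQ : (B Q).Nondegenerate) (hF : (∃ a : F, a ≠ 0 ∧ a ≠ 1) ∨ finrank F (ι → F) ≠ 4) (hnd : NDOn (polarBilin Q) ⊤)
    (hQT : ∀ v, Q (T v) = Q v) (hT2 : ∀ v, T (T v) = -v) {d : ℕ} (hd : finrank F (ι → F) = 2 * d)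
    (g : ↥(Cfsg.isometryGroup F ⇑Q)) (hT : ∀ y, T y = ((g : GL ι F) : Matrix ι ι F) *ᵥ y) :
    g ∈ Cfsg.Omega F ⇑Q ↔ IsSquare ((2 : F) ^ d) := by
  classical
  obtain ⟨k, L, c, hk, hc, hlen, hL, hprod, hU, -⟩ := J_prodR h2 hQT hT2 _ ⊤ (by rw [finrank_top]) hnd (fun _ _ => trivial)
  have hkd : k = d := by
    rw [hd] at hk
    omega
  subst hkd
  have hgO : toO Q g = prodO Q L := by
    apply Subtype.ext
    apply LinearEquiv.ext
    intro x
    rw [toO_apply, ← hT, prodO_coe, hU x trivial]
  rw [mem_Omega_iff, hgO, mem_Omega_prodO_iff Q hQ hF L hL, hlen, hprod]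
  constructor
  · rintro ⟨-, h3⟩
    obtain ⟨s, hs⟩ := h3
    refine ⟨s / c, ?_⟩
    field_simp
    linear_combination hs
  · rintro ⟨s, hs⟩
    exact ⟨even_two_mul k, ⟨s * c, by rw [hs]; ring⟩⟩

end prod

section model

variable {F : Type u} [Field F] [Fintype F]

open Cfsg.Agent.Lib.QuadFF Cfsg.Agent.Lib.OrthoCount Cfsg.Agent.Lib.QuadClass Cfsg.Agent.Lib.OrthRealize Cfsg.Agent.Lib.QuadClass2

/-- The model form, a sum of squares. -/
noncomputable def qSq (d : ℕ) (F : Type u) [Field F] : QuadraticForm F (Fin d ⊕ Fin d → F) :=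
  ∑ i : Fin d ⊕ Fin d, QuadraticMap.linMulLin (LinearMap.proj i) (LinearMap.proj i)

theorem qSq_apply (d : ℕ) (v : Fin d ⊕ Fin d → F) : qSq d F v = ∑ i, v i * v i := by
  simp [qSq]

/-- The rotation. -/
noncomputable def TSq (d : ℕ) (F : Type u) [Field F] : (Fin d ⊕ Fin d → F) →ₗ[F] (Fin d ⊕ Fin d → F) where
  toFun v := Sum.elim (fun i => -v (Sum.inr i)) (fun i => v (Sum.inl i))
  map_add' u v := by
    funext i
    rcases i with i | i <;> simp
    ring
  map_smul' c v := by
    funext i
    rcases i with i | i <;> simp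

theorem nd_qSq (h2 : (2 : F) ≠ 0) (d : ℕ) : ND (qSq d F) := by
  intro v hv
  funext i
  have h1 := hv (Pi.single i 1)
  have h3 : polar (qSq d F) v (Pi.single i 1) = 2 * v i := by
    rw [polar, qSq_apply, qSq_apply, qSq_apply, ← Finset.sum_sub_distrib, ← Finset.sum_sub_distrib]
    rw [Finset.sum_eq_single i]
    · simp
      ring
    · intro j _ hj
      simp [Pi.single_apply, hj]
    · simp
  rw [h3] at h1
  exact (mul_eq_zero.mp h1).resolve_left h2

theorem qSq_TSq (d : ℕ) (v : Fin d ⊕ Fin d → F) : qSq d F (TSq d F v) = qSq d F v := by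
  rw [qSq_apply, qSq_apply, Fintype.sum_sum_type, Fintype.sum_sum_type, add_comm]
  simp [TSq]

theorem TSq_TSq (d : ℕ) (v : Fin d ⊕ Fin d → F) : TSq d F (TSq d F v) = -v := by
  funext i
  rcases i with i | i <;> simp [TSq]

/-- The type of the model. -/
theorem plusOn_qSq (h2 : (2 : F) ≠ 0) (hq3 : Fintype.card F % 4 = 3) (d : ℕ) : PlusOn (qSq d F) ⊤ ↔ Even d := by
  have hnd := nd_qSq h2 d
  exact J_type (T := TSq d F) h2 hq3 (fun v _ hv => hnd v fun w => hv w trivial) (qSq_TSq d) (TSq_TSq d) (by simp [two_mul])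

/-- Transporting the rotation. -/
theorem exists_J_of_iso {W : Type u} [AddCommGroup W] [Module F W] {Q : QuadraticForm F W} {d : ℕ} (e : (Fin d ⊕ Fin d → F) ≃ₗ[F] W) (he : ∀ v, Q (e v) = qSq d F v) :
    ∃ T : W →ₗ[F] W, (∀ v, Q (T v) = Q v) ∧ ∀ v, T (T v) = -v := by
  refine ⟨e.toLinearMap ∘ₗ TSq d F ∘ₗ e.symm.toLinearMap, fun v => ?_, fun v => ?_⟩
  · simp only [LinearMap.comp_apply, LinearEquiv.coe_coe]
    rw [he, qSq_TSq, ← he, e.apply_symm_apply]
  · simp only [LinearMap.comp_apply, LinearEquiv.coe_coe, e.symm_apply_apply]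
    rw [TSq_TSq, map_neg, e.apply_symm_apply]

/-- Existence for the plus form. -/
theorem exists_J_plus (h2 : (2 : F) ≠ 0) (hq3 : Fintype.card F % 4 = 3) {d : ℕ} (hd : Even d) :
    ∃ T : (Fin d ⊕ Fin d → F) →ₗ[F] (Fin d ⊕ Fin d → F), (∀ v, qPlus d F (T v) = qPlus d F v) ∧ ∀ v, T (T v) = -v := by
  obtain ⟨K, -, h1, h3⟩ := (plusOn_qSq h2 hq3 d).mpr hd
  have hdim : finrank F (Fin d ⊕ Fin d → F) = 2 * d := by simp [two_mul]
  rw [finrank_top, hdim] at h3
  obtain ⟨b, hb⟩ := hyp_of_ts hdim (nd_qSq h2 d) K h1 (by omega)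
  obtain ⟨e, he⟩ := iso_qPlus_of_hyp hb
  exact exists_J_of_iso e he

/-- Existence for the minus form. -/
theorem exists_J_minus (h2 : (2 : F) ≠ 0) (hq3 : Fintype.card F % 4 = 3) {k : ℕ} (hd : Odd (k + 1)) (a b : F) (hab : ∀ x y : F, x ^ 2 + a * x * y + b * y ^ 2 = 0 → x = 0 ∧ y = 0) :
    ∃ T : ((Fin k ⊕ Fin k) ⊕ Fin 2 → F) →ₗ[F] ((Fin k ⊕ Fin k) ⊕ Fin 2 → F), (∀ v, qMinus k a b (T v) = qMinus k a b v) ∧ ∀ v, T (T v) = -v := by
  have hnp : ¬ PlusOn (qSq (k + 1) F) ⊤ := by
    rw [plusOn_qSq h2 hq3, Nat.not_even_iff_odd]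
    exact hd
  have hdim : finrank F (Fin (k + 1) ⊕ Fin (k + 1) → F) = 2 * (k + 1) := by simp [two_mul]
  have hnts : ∀ K : Submodule F (Fin (k + 1) ⊕ Fin (k + 1) → F), (∀ v ∈ K, qSq (k + 1) F v = 0) → finrank F K ≠ k + 1 := by
    intro K hK hd
    exact hnp ⟨K, le_top, hK, by rw [finrank_top, hdim, hd]⟩
  obtain ⟨B', ζ, hB'⟩ := minus_of_no_ts hdim (nd_qSq h2 (k + 1)) hnts
  have hzc : (Nat.card {v // qSq (k + 1) F v = 0} : ℤ) ≠ (Fintype.card F : ℤ) ^ (2 * k + 1) + (Fintype.card F : ℤ) ^ (k + 1) - (Fintype.card F : ℤ) ^ k := by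
    rw [card_zeros_of_minus (nd_qSq h2 (k + 1)) hB']
    exact count_ne k
  obtain ⟨e, he⟩ := iso_qMinus hdim _ (nd_qSq h2 (k + 1)) hzc a b hab
  exact exists_J_of_iso e he

end model

end Cfsg.Agent.Lib.OTS
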