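import Mathlib
import Cfsg.Agent.Lib.OTS.J
import Cfsg.Agent.Lib.OTS.EvenElt

/-!
# Elements whose square is scalar, in even dimension
-/

set_option autoImplicit false
set_option linter.unusedSimpArgs false
set_option linter.unusedVariables false
set_option linter.unusedSectionVars false

namespace Cfsg.Agent.Lib.OTS

open Module Matrix QuadraticMap Cfsg.Agent.Lib.IsomBlock
open scoped MatrixGroups
open Cfsg.Agent.Lib.OrthGroup Cfsg.Agent.Lib.OrthOmega Cfsg.Agent.Lib.OrthMatrix Cfsg.Agent.Lib.SpinorCrit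

universe u

variable {F : Type u} [Field F] [Fintype F] {ι : Type} [Fintype ι] [DecidableEq ι]
variable {Q : QuadraticForm F (ι → F)} {T : (ι → F) →ₗ[F] (ι → F)}

theorem perp_fix_eq (h2 : (2 : F) ≠ 0) (hnd : NDOn (polarBilin Q) ⊤) (hQT : ∀ v, Q (T v) = Q v) (hT2 : T ^ 2 = 1) :
    perp (polarBilin Q) (fixS T ⊤) = fixS (-T) ⊤ := by
  obtain ⟨hP, hM, hMv, horth, hsup, hdim⟩ := invol_decomp h2 hnd hQT hT2
  have h1 : fixS (-T) ⊤ ≤ perp (polarBilin Q) (fixS T ⊤) := fun v hv w hw => horth w hw v hv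
  symm
  refine Submodule.eq_of_le_of_finrank_eq h1 ?_
  have h3 := finrank_perp_add hnd (fixS T ⊤)
  omega

/-- Involutions of `Ω` in a space which is not of plus type. -/
theorem exists_ts_invol_minus (h2 : (2 : F) ≠ 0) (hQ : (B Q).Nondegenerate) (hF : (∃ a : F, a ≠ 0 ∧ a ≠ 1) ∨ finrank F (ι → F) ≠ 4)
    (g : ↥(Cfsg.isometryGroup F ⇑Q)) (hg : g ∈ Cfsg.Omega F ⇑Q)
    (hT : ∀ y, T y = ((g : GL ι F) : Matrix ι ι F) *ᵥ y)
    (hnd : NDOn (polarBilin Q) ⊤) (hQT : ∀ v, Q (T v) = Q v) (hT2 : T ^ 2 = 1) {d m : ℕ} (hd : finrank F (ι → F) = 2 * d) (hnp : ¬ PlusOn Q ⊤)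
    (hm : m + 1 ≤ d) :
    ∃ W : Submodule F (ι → F), InvOn T W ∧ TS Q W ∧ finrank F W = m := by
  obtain ⟨hP, hM, hMv, horth, hsup, hdim⟩ := invol_decomp h2 hnd hQT hT2
  obtain ⟨hev, -⟩ := invol_spinor h2 hQ hF g hg hT hnd hQT hT2
  obtain ⟨b, hb⟩ := hev
  obtain ⟨a, ha⟩ : ∃ a, finrank F (fixS T ⊤) = 2 * a := ⟨d - b, by omega⟩
  have hperp := perp_fix_eq h2 hnd hQT hT2
  have hs := plusOn_sum hnd hP ha (b := b) (by rw [hperp]; omega)
  rw [hperp] at hs
  have hcase : ∃ WP ≤ fixS T ⊤, ∃ WM ≤ fixS (-T) ⊤, TS Q WP ∧ TS Q WM ∧ m ≤ finrank F WP + finrank F WM := by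
    by_cases hPF : PlusOn Q (fixS T ⊤)
    · obtain ⟨WP, h1, h3, h4⟩ := hPF
      obtain ⟨WM, h5, h6, h7, -⟩ := exists_ts_witt hM
      exact ⟨WP, h1, WM, h5, h3, h6, by omega⟩
    · have hPM : PlusOn Q (fixS (-T) ⊤) := by
        by_contra hPM
        exact hnp (hs.mpr ⟨fun h => absurd h hPF, fun h => absurd h hPM⟩)
      obtain ⟨WM, h1, h3, h4⟩ := hPM
      obtain ⟨WP, h5, h6, h7, -⟩ := exists_ts_witt hP
      exact ⟨WP, h5, WM, h1, h6, h3, by omega⟩
  obtain ⟨WP, hWP, WM, hWM, hWPts, hWMts, hle⟩ := hcase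
  obtain ⟨W₁, h11, h12⟩ := exists_sub_finrank WP (b := min m (finrank F WP)) (min_le_right _ _)
  obtain ⟨W₂, h21, h22⟩ := exists_sub_finrank WM (b := m - min m (finrank F WP)) (by omega)
  obtain ⟨h1, h3, h4⟩ := ts_of_parts h2 hMv horth (h11.trans hWP) (h21.trans hWM) (hWPts.mono h11) (hWMts.mono h21)
  refine ⟨W₁ ⊔ W₂, h1, h3, ?_⟩
  rw [h4, h12, h22]
  omega

/-- Unpacking an element of `Ω`. -/
theorem omega_elt_data (x : GL ι F) (hx : x ∈ Cfsg.Geo.omegaGL (⇑Q)) :
    (∀ v, Q (Matrix.toLin' (x : Matrix ι ι F) v) = Q v) := by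
  intro v
  rw [Matrix.toLin'_apply]
  exact Cfsg.Agent.H97.Asch.omegaGL_isometry hx v

/-- The scalar square as a statement on linear maps. -/
theorem toLin_sq_of_scalar (x : GL ι F) {z : F} (hz : ((x ^ 2 : GL ι F) : Matrix ι ι F) = z • (1 : Matrix ι ι F)) :
    (Matrix.toLin' (x : Matrix ι ι F)) ^ 2 = z • 1 := by
  rw [Cfsg.Agent.Lib.SpRealize.toLin_pow]
  have h1 : (x : Matrix ι ι F) ^ 2 = z • (1 : Matrix ι ι F) := by
    rw [← hz]
    simp
  rw [h1, map_smul, Matrix.toLin'_one]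
  rfl

/-- The backward direction: general dichotomy. -/
theorem back_two_dich (h2 : (2 : F) ≠ 0) (hnd : NDOn (polarBilin Q) ⊤) {d : ℕ} (hd : finrank F (ι → F) = 2 * d) (hd0 : 0 < d)
    (x : GL ι F) (hx : x ∈ Cfsg.Geo.omegaGL (⇑Q)) (hz : ∃ z : F, ((x ^ 2 : GL ι F) : Matrix ι ι F) = z • (1 : Matrix ι ι F)) :
    (Matrix.toLin' (x : Matrix ι ι F)) ^ 2 = 1 ∨ ∀ v, Matrix.toLin' (x : Matrix ι ι F) (Matrix.toLin' (x : Matrix ι ι F) v) = -v := by
  obtain ⟨z, hz⟩ := hz
  have hT := toLin_sq_of_scalar x hz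
  have hne : (⊤ : Submodule F (ι → F)) ≠ ⊥ := by
    intro h
    have h3 : finrank F (⊤ : Submodule F (ι → F)) = 0 := by
      rw [h, finrank_bot]
    rw [finrank_top] at h3
    omega
  obtain ⟨v, -, hv⟩ := exists_nonsing hnd hne
  have h1 := scalar_sq_eq_one hv (omega_elt_data x hx) hT
  have h3 : (z - 1) * (z + 1) = 0 := by linear_combination h1
  rcases mul_eq_zero.mp h3 with h4 | h4
  · left
    have h5 : z = 1 := by linear_combination h4
    rw [hT, h5, one_smul]
  · right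
    have h5 : z = -1 := by linear_combination h4
    intro w
    have h6 := congrArg (fun f : (ι → F) →ₗ[F] (ι → F) => f w) hT
    simp only [pow_two, Module.End.mul_apply] at h6
    rw [h6, h5]
    simp

theorem no_sq_of_mod4 (h : Fintype.card F % 4 = 3) (c : F) : c * c ≠ -1 := by
  intro hc
  have h1 : IsSquare (-1 : F) := ⟨c, hc.symm⟩
  rw [FiniteField.isSquare_neg_one_iff] at h1
  exact h1 (by omega)

theorem sq_of_mod4 (h : Fintype.card F % 4 = 1) : ∃ c : F, c * c = -1 := by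
  have h1 : IsSquare (-1 : F) := by
    rw [FiniteField.isSquare_neg_one_iff]
    omega
  obtain ⟨c, hc⟩ := h1
  exact ⟨c, hc.symm⟩

/-- The backward direction for the plus type. -/
theorem back_two_plus (h2 : (2 : F) ≠ 0) (hQ : (B Q).Nondegenerate) (hF : (∃ a : F, a ≠ 0 ∧ a ≠ 1) ∨ finrank F (ι → F) ≠ 4)
    (hnd : NDOn (polarBilin Q) ⊤) {d m : ℕ} (hd : finrank F (ι → F) = 2 * d) (hmd : m < d) (hplus : PlusOn Q ⊤)
    (hcase : Fintype.card F % 4 = 1 ∨ (Fintype.card F % 4 = 3 ∧ m + 2 ≤ d ∧ (Even m ∨ (2 * d) % 4 = 2)))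
    (x : GL ι F) (hx : x ∈ Cfsg.Geo.omegaGL (⇑Q)) (hz : ∃ z : F, ((x ^ 2 : GL ι F) : Matrix ι ι F) = z • (1 : Matrix ι ι F)) :
    ∃ W : Submodule F (ι → F), InvOn (Matrix.toLin' (x : Matrix ι ι F)) W ∧ TS Q W ∧ finrank F W = m := by
  have hQT := omega_elt_data x hx
  obtain ⟨g, hg, hgx⟩ := hx
  have hgT : ∀ y, Matrix.toLin' (x : Matrix ι ι F) y = ((g : GL ι F) : Matrix ι ι F) *ᵥ y := by
    intro y
    rw [Matrix.toLin'_apply]
    subst hgx
    rfl
  have hx' : x ∈ Cfsg.Geo.omegaGL (⇑Q) := ⟨g, hg, hgx⟩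
  rcases back_two_dich h2 hnd hd (by omega) x hx' hz with hT2 | hT2
  · refine exists_ts_invol_omega h2 hQ hF g hg hgT hnd hQT hT2 ?_
    rw [hd]
    rcases hcase with h | ⟨-, h, -⟩
    · exact Or.inr ⟨sq_of_mod4 h, by omega⟩
    · exact Or.inl (by omega)
  · rcases hcase with h | ⟨h, hm2, hm3⟩
    · obtain ⟨c, hc⟩ := sq_of_mod4 h
      exact exists_ts_J_sq h2 hc hQT hT2 (by rw [hd]; omega)
    · have hev : Even d := (J_type h2 h hnd hQT hT2 hd).mp hplus
      obtain ⟨d', hd'⟩ := hev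
      have hm' : Even m := by
        rcases hm3 with h3 | h3
        · exact h3
        · omega
      obtain ⟨g', hg'⟩ := hm'
      obtain ⟨S, -, hS, hSd⟩ := hplus
      rw [finrank_top, hd] at hSd
      obtain ⟨W, h5, h6, h7⟩ := exists_ts_J h2 (no_sq_of_mod4 h) hnd hQT hT2 hS g' (by omega)
      exact ⟨W, h5, h6, by omega⟩

/-- The backward direction for the minus type. -/
theorem back_two_minus (h2 : (2 : F) ≠ 0) (hQ : (B Q).Nondegenerate) (hF : (∃ a : F, a ≠ 0 ∧ a ≠ 1) ∨ finrank F (ι → F) ≠ 4)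
    (hnd : NDOn (polarBilin Q) ⊤) {d m : ℕ} (hd : finrank F (ι → F) = 2 * d) (hmd : m + 1 ≤ d) (hnp : ¬ PlusOn Q ⊤)
    (hodd : Odd (Fintype.card F))
    (hcase : Even d ∨ Even m ∨ Fintype.card F % 8 ≠ 7)
    (x : GL ι F) (hx : x ∈ Cfsg.Geo.omegaGL (⇑Q)) (hz : ∃ z : F, ((x ^ 2 : GL ι F) : Matrix ι ι F) = z • (1 : Matrix ι ι F)) :
    ∃ W : Submodule F (ι → F), InvOn (Matrix.toLin' (x : Matrix ι ι F)) W ∧ TS Q W ∧ finrank F W = m := by
  have hQT := omega_elt_data x hx
  obtain ⟨g, hg, hgx⟩ := hx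
  have hgT : ∀ y, Matrix.toLin' (x : Matrix ι ι F) y = ((g : GL ι F) : Matrix ι ι F) *ᵥ y := by
    intro y
    rw [Matrix.toLin'_apply]
    subst hgx
    rfl
  have hx' : x ∈ Cfsg.Geo.omegaGL (⇑Q) := ⟨g, hg, hgx⟩
  rcases back_two_dich h2 hnd hd (by omega) x hx' hz with hT2 | hT2
  · exact exists_ts_invol_minus h2 hQ hF g hg hgT hnd hQT hT2 hd hnp hmd
  · by_cases h : Fintype.card F % 4 = 1
    · obtain ⟨c, hc⟩ := sq_of_mod4 h
      exact exists_ts_J_sq h2 hc hQT hT2 (by rw [hd]; omega)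
    · have h3 : Fintype.card F % 4 = 3 := by
        obtain ⟨k, hk⟩ := hodd
        omega
      have hdodd : ¬ Even d := by
        intro hev
        exact hnp ((J_type h2 h3 hnd hQT hT2 hd).mpr hev)
      have hs := (J_mem_Omega h2 hQ hF hnd hQT hT2 hd g hgT).mp hg
      have h2sq : IsSquare (2 : F) := by
        obtain ⟨k, hk⟩ := Nat.not_even_iff_odd.mp hdodd
        rw [hk, pow_succ, pow_mul] at hs
        obtain ⟨s, hs⟩ := hs
        have h20 : (2 : F) ^ k ≠ 0 := pow_ne_zero _ h2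
        refine ⟨s / 2 ^ k, ?_⟩
        have e : ((2 : F) ^ 2) ^ k = 2 ^ k * 2 ^ k := by
          rw [← pow_mul, ← pow_add]
          congr 1
          ring
        rw [e] at hs
        rw [div_mul_div_comm, eq_div_iff (mul_ne_zero h20 h20)]
        linear_combination hs
      have h8 : Fintype.card F % 8 = 7 := by
        rw [FiniteField.isSquare_two_iff] at h2sq
        omega
      have hm' : Even m := by
        rcases hcase with h5 | h5 | h5
        · exact absurd h5 hdodd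
        · exact h5
        · exact absurd h8 h5
      obtain ⟨g', hg'⟩ := hm'
      obtain ⟨S, -, hS, hSd, -⟩ := exists_ts_witt hnd
      rw [finrank_top, hd] at hSd
      obtain ⟨W, h5, h6, h7⟩ := exists_ts_J h2 (no_sq_of_mod4 h3) hnd hQT hT2 hS g' (by omega)
      exact ⟨W, h5, h6, by omega⟩

/-- Rotations of square `-1` as group elements. -/
theorem exists_elt_of_J (hQT : ∀ v, Q (T v) = Q v) (hT2 : ∀ v, T (T v) = -v) :
    ∃ g : ↥(Cfsg.isometryGroup F ⇑Q), ∀ y, T y = ((g : GL ι F) : Matrix ι ι F) *ᵥ y := by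
  classical
  let A : Matrix ι ι F := LinearMap.toMatrix' T
  have hA : ∀ y, A *ᵥ y = T y := by
    intro y
    rw [← Matrix.toLin'_apply, Matrix.toLin'_toMatrix']
  have hAA : A * (-A) = 1 := by
    rw [matrix_eq_iff]
    intro y
    rw [← Matrix.mulVec_mulVec, Matrix.neg_mulVec, hA, hA, map_neg, hT2, neg_neg, Matrix.one_mulVec]
  have hAA' : (-A) * A = 1 := by
    rw [matrix_eq_iff]
    intro y
    rw [← Matrix.mulVec_mulVec, Matrix.neg_mulVec, hA, hA, hT2, neg_neg, Matrix.one_mulVec]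
  let x : GL ι F := ⟨A, -A, hAA, hAA'⟩
  have hmem : x ∈ Cfsg.isometryGroup F ⇑Q := by
    rw [Cfsg.Agent.Lib.OrthMatrix.mem_isometryGroup]
    intro v
    show Q (A *ᵥ v) = Q v
    rw [hA, hQT]
  exact ⟨⟨x, hmem⟩, fun y => (hA y).symm⟩

/-- The forward direction using rotations of square `-1`. -/
theorem J_forward (h2 : (2 : F) ≠ 0) (hQ : (B Q).Nondegenerate) (hF : (∃ a : F, a ≠ 0 ∧ a ≠ 1) ∨ finrank F (ι → F) ≠ 4)
    (hnd : NDOn (polarBilin Q) ⊤) (hsq : ∀ c : F, c * c ≠ -1) {d m : ℕ} (hd : finrank F (ι → F) = 2 * d) (hd0 : 0 < d) (hsq2 : IsSquare ((2 : F) ^ d))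
    (hQT : ∀ v, Q (T v) = Q v) (hT2 : ∀ v, T (T v) = -v)
    (H : ∀ x : GL ι F, x ∈ Cfsg.Geo.omegaGL (⇑Q) → (∃ z : F, ((x ^ 2 : GL ι F) : Matrix ι ι F) = z • (1 : Matrix ι ι F)) →
      (∀ z : F, (x : Matrix ι ι F) ≠ z • (1 : Matrix ι ι F)) →
      ∃ W : Submodule F (ι → F), InvOn (Matrix.toLin' (x : Matrix ι ι F)) W ∧ TS Q W ∧ finrank F W = m) : Even m := by
  classical
  obtain ⟨g, hg⟩ := exists_elt_of_J hQT hT2
  have hmem := (J_mem_Omega h2 hQ hF hnd hQT hT2 hd g hg).mpr hsq2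
  have hTx : ∀ y, Matrix.toLin' ((g : GL ι F) : Matrix ι ι F) y = T y := by
    intro y
    rw [Matrix.toLin'_apply, hg]
  have hTe : Matrix.toLin' ((g : GL ι F) : Matrix ι ι F) = T := LinearMap.ext hTx
  have hne : ∃ v : ι → F, v ≠ 0 := by
    by_contra hall
    push Not at hall
    have h3 : (⊤ : Submodule F (ι → F)) = ⊥ := by
      rw [eq_bot_iff]
      intro v _
      rw [Submodule.mem_bot]
      exact hall v
    have h4 : finrank F (⊤ : Submodule F (ι → F)) = 0 := by
      rw [h3, finrank_bot]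
    rw [finrank_top] at h4
    omega
  obtain ⟨v₀, hv₀⟩ := hne
  obtain ⟨W, h1, h3, h4⟩ := H (g : GL ι F) ⟨g, hmem, rfl⟩ ⟨-1, by
    rw [matrix_eq_iff]
    intro y
    have e : (((g : GL ι F) ^ 2 : GL ι F) : Matrix ι ι F) = ((g : GL ι F) : Matrix ι ι F) * ((g : GL ι F) : Matrix ι ι F) := by
      rw [pow_two]
      rfl
    rw [e, ← Matrix.mulVec_mulVec, ← hg, ← hg, hT2, Matrix.smul_mulVec, Matrix.one_mulVec]
    simp⟩ (by
    intro z hz
    have h5 : ∀ y, T y = z • y := by
      intro y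
      rw [hg, hz, Matrix.smul_mulVec, Matrix.one_mulVec]
    have h6 := hT2 v₀
    rw [h5, h5, smul_smul] at h6
    have h7 : (z * z + 1) • v₀ = 0 := by
      rw [add_smul, one_smul, h6]
      simp
    have h8 := (smul_eq_zero.mp h7).resolve_right hv₀
    exact hsq z (by linear_combination h8))
  rw [hTe] at h1
  rw [← h4]
  exact even_finrank_of_J hsq hT2 h1

/-- The forward direction using products of two reflections. -/
theorem two_refl_forward (h2 : (2 : F) ≠ 0) (hQ : (B Q).Nondegenerate) (hF : (∃ a : F, a ≠ 0 ∧ a ≠ 1) ∨ finrank F (ι → F) ≠ 4)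
    (hnd : NDOn (polarBilin Q) ⊤) (hsq : ∀ c : F, c * c ≠ -1) {d m : ℕ} (hd : finrank F (ι → F) = 2 * d) (hd2 : 2 ≤ d) (hplus : PlusOn Q ⊤)
    {u v : ι → F} (hu : Q u = 1) (hv : Q v = 1) (huv : polar Q u v = 0)
    (H : ∀ x : GL ι F, x ∈ Cfsg.Geo.omegaGL (⇑Q) → (∃ z : F, ((x ^ 2 : GL ι F) : Matrix ι ι F) = z • (1 : Matrix ι ι F)) →
      (∀ z : F, (x : Matrix ι ι F) ≠ z • (1 : Matrix ι ι F)) →
      ∃ W : Submodule F (ι → F), InvOn (Matrix.toLin' (x : Matrix ι ι F)) W ∧ TS Q W ∧ finrank F W = m) : m + 2 ≤ d := by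
  classical
  obtain ⟨g, hg, hgo, hact⟩ := exists_two_refl (Q := Q) h2 hQ hF hu hv huv
  have hmem : (g : GL ι F) ∈ Cfsg.Geo.omegaGL (⇑Q) := ⟨g, hg, rfl⟩
  set T : (ι → F) →ₗ[F] (ι → F) := Matrix.toLin' ((g : GL ι F) : Matrix ι ι F) with hT
  have hTa : ∀ y, T y = y - polar Q y v • v - polar Q y u • u := by
    intro y
    rw [hT, Matrix.toLin'_apply]
    exact hact y
  have hQT : ∀ y, Q (T y) = Q y := omega_elt_data _ hmem
  have hfixu : polar Q u u = 2 := by
    rw [polar_self_eq', hu, mul_one]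
  have hfixv : polar Q v v = 2 := by
    rw [polar_self_eq', hv, mul_one]
  have hvu : polar Q v u = 0 := by
    rw [polar_comm]
    exact huv
  have hg2 : (g : GL ι F) ^ 2 = 1 := by
    have h1 : (g ^ 2) = 1 := by
      rw [← hgo]
      exact pow_orderOf_eq_one g
    have h3 := congrArg (fun y : ↥(Cfsg.isometryGroup F ⇑Q) => (y : GL ι F)) h1
    simpa using h3
  have hmat2 : ((g : GL ι F) : Matrix ι ι F) ^ 2 = 1 := by
    have h3 := congrArg (fun y : GL ι F => (y : Matrix ι ι F)) hg2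
    simpa using h3
  have hT2 : T ^ 2 = 1 := by
    rw [hT, Cfsg.Agent.Lib.SpRealize.toLin_pow, hmat2, Matrix.toLin'_one]
    rfl
  have hu0 : u ≠ 0 := by
    rintro rfl
    rw [QuadraticMap.map_zero] at hu
    exact zero_ne_one hu
  have hTu : T u = -u := by
    rw [hTa, huv, hfixu, zero_smul, sub_zero, two_smul]
    abel
  have hTv : T v = -v := by
    rw [hTa, hfixv, hvu, zero_smul, sub_zero, two_smul]
    abel
  -- not scalar
  have hnscal : ∀ z : F, ((g : GL ι F) : Matrix ι ι F) ≠ z • (1 : Matrix ι ι F) := by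
    intro z hz
    have h5 : ∀ y, T y = z • y := by
      intro y
      rw [hT, Matrix.toLin'_apply, hz, Matrix.smul_mulVec, Matrix.one_mulVec]
    have h6 : z = -1 := by
      have h7 := hTu
      rw [h5] at h7
      have h8 : (z + 1) • u = 0 := by
        rw [add_smul, one_smul, h7]
        simp
      have h9 := (smul_eq_zero.mp h8).resolve_right hu0
      linear_combination h9
    subst h6
    have hall : ∀ y : ι → F, y ∈ Submodule.span F ({u, v} : Set (ι → F)) := by
      intro y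
      have h7 := hTa y
      rw [h5] at h7
      have h8 : y = (2 : F)⁻¹ • (polar Q y v • v + polar Q y u • u) := by
        have h9 : (2 : F) • y = polar Q y v • v + polar Q y u • u := by
          have h10 : (-1 : F) • y = -y := by simp
          rw [h10] at h7
          have h11 : y + y = polar Q y v • v + polar Q y u • u := by
            linear_combination (exp := 1) -h7
          rw [two_smul]
          exact h11
        rw [← h9, smul_smul, inv_mul_cancel₀ h2, one_smul]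
      rw [h8]
      refine Submodule.smul_mem _ _ (Submodule.add_mem _ (Submodule.smul_mem _ _ ?_) (Submodule.smul_mem _ _ ?_))
      · exact Submodule.subset_span (by simp)
      · exact Submodule.subset_span (by simp)
    have hle : (⊤ : Submodule F (ι → F)) ≤ Submodule.span F (({u, v} : Finset (ι → F)) : Set (ι → F)) := by
      intro y _
      simpa using hall y
    have h7 := Submodule.finrank_mono hle
    have h8 : finrank F (Submodule.span F (({u, v} : Finset (ι → F)) : Set (ι → F))) ≤ ({u, v} : Finset (ι → F)).card := finrank_span_finset_le_card (R := F) ({u, v} : Finset (ι → F))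
    have h9 : ({u, v} : Finset (ι → F)).card ≤ 2 := Finset.card_le_two
    rw [finrank_top, hd] at h7
    omega
  obtain ⟨W, hWinv, hWts, hWm⟩ := H _ hmem ⟨1, by
    rw [hg2]
    simp⟩ hnscal
  obtain ⟨hP, hM, hMv, horth, hsup, hdim⟩ := invol_decomp h2 hnd hQT hT2
  -- `W` lies in the fixed space
  have hWfix : W ≤ fixS T ⊤ := by
    intro w hw
    have h1 : T w ∈ W := hWinv w hw
    have h3 : polar Q w v • v + polar Q w u • u ∈ W := by
      have h4 : polar Q w v • v + polar Q w u • u = w - T w := by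
        rw [hTa]
        abel
      rw [h4]
      exact W.sub_mem hw h1
    have h5 := hWts _ h3
    rw [Cfsg.Agent.Lib.OrthGroup.Q_add, Cfsg.Agent.Lib.OrthGroup.Q_smul, Cfsg.Agent.Lib.OrthGroup.Q_smul, hu, hv] at h5
    have h6 : polar Q (polar Q w v • v) (polar Q w u • u) = 0 := by
      rw [polar_smul_left, polar_smul_right, hvu]
      simp
    have h6' : B Q (polar Q w v • v) (polar Q w u • u) = 0 := h6
    rw [h6'] at h5
    have h7 : polar Q w v * polar Q w v + polar Q w u * polar Q w u = 0 := by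
      linear_combination h5
    have h8 : polar Q w u = 0 := by
      by_contra hne
      apply hsq (polar Q w v / polar Q w u)
      field_simp
      linear_combination h7
    have h9 : polar Q w v = 0 := by
      rw [h8, mul_zero, add_zero] at h7
      exact mul_self_eq_zero.mp h7
    rw [mem_fixS]
    refine ⟨trivial, ?_⟩
    rw [hTa, h8, h9]
    simp
  have hB := goodForm_polar Q
  have hbd := ti_bound_on' hB hP hWfix hWts.ti
  have huM : u ∈ fixS (-T) ⊤ := by
    rw [mem_fixS]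
    refine ⟨trivial, ?_⟩
    rw [LinearMap.neg_apply, hTu, neg_neg]
  have hvM : v ∈ fixS (-T) ⊤ := by
    rw [mem_fixS]
    refine ⟨trivial, ?_⟩
    rw [LinearMap.neg_apply, hTv, neg_neg]
  have hli : LinearIndependent F ![u, v] := by
    rw [LinearIndependent.pair_iff]
    intro a b hab
    have h3 := congrArg (fun y => polarBilin Q y u) hab
    have h4 := congrArg (fun y => polarBilin Q y v) hab
    simp only [map_add, map_smul, LinearMap.add_apply, LinearMap.smul_apply, polarBilin_apply_apply, map_zero, LinearMap.zero_apply,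
      hfixu, hvu, huv, hfixv, smul_eq_mul, mul_zero, add_zero, zero_add] at h3 h4
    exact ⟨(mul_eq_zero.mp h3).resolve_right h2, (mul_eq_zero.mp h4).resolve_right h2⟩
  have hM2 : 2 ≤ finrank F (fixS (-T) ⊤) := by
    have h3 := finrank_span_eq_card hli
    have h4 : Submodule.span F (Set.range ![u, v]) ≤ fixS (-T) ⊤ := by
      apply Submodule.span_le.mpr
      rintro _ ⟨i, rfl⟩
      fin_cases i
      · exact huM
      · exact hvM
    have h5 := Submodule.finrank_mono h4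
    rw [h3] at h5
    simpa using h5
  rw [hd] at hdim
  rw [hWm] at hbd
  -- singular vectors of the negative eigenspace vanish
  have hMs : ∀ y ∈ fixS (-T) ⊤, Q y = 0 → y = 0 := by
    intro y hy hQy
    have h3 := hMv y hy
    rw [hTa] at h3
    have h4 : (2 : F) • y = polar Q y v • v + polar Q y u • u := by
      rw [two_smul]
      linear_combination (exp := 1) h3
    have h5 : Q ((2 : F) • y) = 0 := by
      rw [QuadraticMap.map_smul, hQy, smul_zero]
    rw [h4, Cfsg.Agent.Lib.OrthGroup.Q_add, Cfsg.Agent.Lib.OrthGroup.Q_smul, Cfsg.Agent.Lib.OrthGroup.Q_smul, hu, hv] at h5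
    have h6 : polar Q (polar Q y v • v) (polar Q y u • u) = 0 := by
      rw [polar_smul_left, polar_smul_right, hvu]
      simp
    have h6' : B Q (polar Q y v • v) (polar Q y u • u) = 0 := h6
    rw [h6'] at h5
    have h7 : polar Q y v * polar Q y v + polar Q y u * polar Q y u = 0 := by
      linear_combination h5
    have h8 : polar Q y u = 0 := by
      by_contra hne
      apply hsq (polar Q y v / polar Q y u)
      field_simp
      linear_combination h7
    have h9 : polar Q y v = 0 := by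
      rw [h8, mul_zero, add_zero] at h7
      exact mul_self_eq_zero.mp h7
    rw [h8, h9, zero_smul, zero_smul, add_zero] at h4
    exact (smul_eq_zero.mp h4).resolve_left h2
  by_contra hlt
  have hm1 : m + 1 = d := by omega
  have hFd : finrank F (fixS T ⊤) = 2 * m := by omega
  have hMd : finrank F (fixS (-T) ⊤) = 2 := by omega
  have hperp := perp_fix_eq h2 hnd hQT hT2
  have hs := plusOn_sum hnd hP hFd (b := 1) (by rw [hperp]; omega)
  rw [hperp] at hs
  have hPF : PlusOn Q (fixS T ⊤) := ⟨W, hWfix, hWts, by omega⟩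
  have hPM : PlusOn Q (fixS (-T) ⊤) := (hs.mp hplus).mp hPF
  obtain ⟨W', hW', hW'ts, hW'd⟩ := hPM
  have hbot : W' = ⊥ := by
    rw [eq_bot_iff]
    intro y hy
    rw [Submodule.mem_bot]
    exact hMs y (hW' hy) (hW'ts y hy)
  rw [hbot, finrank_bot] at hW'd
  omega

end Cfsg.Agent.Lib.OTS
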