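import Mathlib
import Cfsg.Agent.Lib.OTS.EvenTwo
import Cfsg.Agent.Lib.OTS.EvenForward
import Cfsg.Agent.Lib.OTS.CountEven

/-!
# Main dichotomies for odd primes in even dimension
-/

set_option autoImplicit false
set_option linter.unusedSimpArgs false
set_option linter.unusedVariables false
set_option linter.unusedSectionVars false

namespace Cfsg.Agent.Lib.OTS

open Module Polynomial Matrix QuadraticMap
open scoped MatrixGroups
open Cfsg.Agent.Lib.IsomBlock Cfsg.Agent.Lib.PrimeFactors Cfsg.Agent.Lib.DualFactors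
open Cfsg.Agent.Lib.SemisimpleGL
open Cfsg.Agent.Lib.OrthGroup Cfsg.Agent.Lib.OrthOmega Cfsg.Agent.Lib.OrthMatrix

universe u

variable {F : Type u} [Field F] [Fintype F] {ι : Type} [Fintype ι] [DecidableEq ι]

theorem toLin_pow_of_scalar (x : GL ι F) {r : ℕ} {z : F} (hz : ((x ^ r : GL ι F) : Matrix ι ι F) = z • (1 : Matrix ι ι F)) :
    (Matrix.toLin' (x : Matrix ι ι F)) ^ r = z • 1 := by
  rw [Cfsg.Agent.Lib.SpRealize.toLin_pow]
  have h1 : (x : Matrix ι ι F) ^ r = z • (1 : Matrix ι ι F) := by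
    rw [← hz]
    simp
  rw [h1, map_smul, Matrix.toLin'_one]
  rfl

theorem odd_card_of_two_ne (h2 : (2 : F) ≠ 0) : Odd (Fintype.card F) := by
  rw [Nat.odd_iff]
  apply FiniteField.odd_card_of_char_ne_two
  intro h
  apply h2
  have h3 := ringChar.Nat.cast_ringChar (R := F)
  rw [h] at h3
  exact_mod_cast h3

/-- Two orthogonal vectors of value one for the plus form. -/
theorem exists_orth_units {d : ℕ} (hd : 2 ≤ d) :
    ∃ u v : Fin d ⊕ Fin d → F, Cfsg.Agent.Lib.OrthoCount.qPlus d F u = 1 ∧ Cfsg.Agent.Lib.OrthoCount.qPlus d F v = 1 ∧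
      polar (Cfsg.Agent.Lib.OrthoCount.qPlus d F) u v = 0 := by
  classical
  let i₀ : Fin d := ⟨0, by omega⟩
  let i₁ : Fin d := ⟨1, by omega⟩
  have hne : i₀ ≠ i₁ := by
    intro h
    have := congrArg Fin.val h
    simp [i₀, i₁] at this
  let u : Fin d ⊕ Fin d → F := Pi.single (Sum.inl i₀) 1 + Pi.single (Sum.inr i₀) 1
  let v : Fin d ⊕ Fin d → F := Pi.single (Sum.inl i₁) 1 + Pi.single (Sum.inr i₁) 1
  have hul : ∀ i, u (Sum.inl i) = if i = i₀ then 1 else 0 := by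
    intro i
    simp [u, Pi.single_apply]
  have hur : ∀ i, u (Sum.inr i) = if i = i₀ then 1 else 0 := by
    intro i
    simp [u, Pi.single_apply]
  have hvl : ∀ i, v (Sum.inl i) = if i = i₁ then 1 else 0 := by
    intro i
    simp [v, Pi.single_apply]
  have hvr : ∀ i, v (Sum.inr i) = if i = i₁ then 1 else 0 := by
    intro i
    simp [v, Pi.single_apply]
  have hval : ∀ w, Cfsg.Agent.Lib.OrthoCount.qPlus d F w = ∑ i, w (Sum.inl i) * w (Sum.inr i) := fun w => by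
    rw [Cfsg.Agent.Lib.OrthoCount.qPlus_apply]
    rfl
  have hu : Cfsg.Agent.Lib.OrthoCount.qPlus d F u = 1 := by
    rw [hval]
    simp [hul, hur]
  have hv : Cfsg.Agent.Lib.OrthoCount.qPlus d F v = 1 := by
    rw [hval]
    simp [hvl, hvr]
  refine ⟨u, v, hu, hv, ?_⟩
  rw [polar, hu, hv, hval]
  have hpt : ∀ i, (u + v) (Sum.inl i) * (u + v) (Sum.inr i) = (if i = i₀ then 1 else 0) + (if i = i₁ then 1 else 0) := by
    intro i
    rw [Pi.add_apply, Pi.add_apply, hul, hur, hvl, hvr]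
    by_cases h0 : i = i₀
    · subst h0
      simp [hne]
    · by_cases h1 : i = i₁
      · subst h1
        simp [h0]
      · simp [h0, h1]
  rw [Finset.sum_congr rfl fun i _ => hpt i, Finset.sum_add_distrib]
  simp

/-- The forward direction, odd primes. -/
theorem forward_generic (Q : QuadraticForm F (ι → F)) (hQ : (B Q).Nondegenerate) (hF : (∃ a : F, a ≠ 0 ∧ a ≠ 1) ∨ finrank F (ι → F) ≠ 4)
    (hnd : NDOn (polarBilin Q) ⊤) {d m σ r i : ℕ} [hrf : Fact r.Prime] {ε : ZMod r} (hεσ : ε = (-1) ^ σ) (hcι : Fintype.card ι = 2 * d) (hdim : finrank F (ι → F) = 2 * d) (hd0 : 0 < d)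
    (hσ : PlusOn Q ⊤ ↔ Even σ) (hr2 : r ≠ 2) (hrF : (r : F) ≠ 0) (hr0 : r ≠ 0) (hm1 : 1 ≤ m) (hmd : m < d)
    (hi : i = orderOf ((Fintype.card F : ℕ) : ZMod r))
    (hj : ∃ j, j < m ∧ (((Fintype.card F : ℕ) : ZMod r) ^ (d - j) = ε ∨ ((Fintype.card F : ℕ) : ZMod r) ^ (d - j - 1) = -ε))
    (hex : ∀ a : ↥(Idx F r) → ℕ, a ≠ 0 → a ∘ dl (σ := RingHom.id F) (fun x => rfl) rfl hrF hr0 = a →
      orderOf ((Fintype.card F : ℕ) : ZMod r) * ∑ j, a j ≤ Fintype.card ι →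
      (orderOf ((Fintype.card F : ℕ) : ZMod r) * ∑ j, a j = 2 * d → ((Fintype.card F : ℕ) : ZMod r) ^ d = ε) →
      ∃ g : ↥(Cfsg.isometryGroup F ⇑Q), ((g : GL ι F) : Matrix ι ι F).charpoly = Pa F r (Fintype.card ι) a ∧ orderOf g = r)
    (H : ∀ x : GL ι F, x ∈ Cfsg.Geo.omegaGL (⇑Q) → (∃ z : F, ((x ^ r : GL ι F) : Matrix ι ι F) = z • (1 : Matrix ι ι F)) →
      (∀ z : F, (x : Matrix ι ι F) ≠ z • (1 : Matrix ι ι F)) →
      ∃ W : Submodule F (ι → F), InvOn (Matrix.toLin' (x : Matrix ι ι F)) W ∧ TS Q W ∧ finrank F W = m) :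
    (¬ Even i ∧ i ≤ m ∧ ((Even σ ∧ 2 * (m % i) ≤ (2 * d) % (2 * i)) ∨ (Odd σ ∧ ((2 * d) % (2 * i) = 0 ∨ 2 * (m % i) < (2 * d) % (2 * i))))) ∨
    (Even i ∧ i ≤ m ∧ (r - 1) / i + 2 * (m / i) ≤ (2 * d) / i ∧
      ((2 * (m % i) ≤ i ∧ (2 * d) % i = 0 ∧ Odd ((2 * d) / i + σ) ∧ (r - 1) / i + 2 * (m / i) < (2 * d) / i) ∨
        (2 * (m % i) ≤ (2 * d) % i ∧ Even ((2 * d) / i + σ)) ∨
        (2 * (m % i) < (2 * d) % i ∧ Odd ((2 * d) / i + σ)))) := by
  classical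
  have hne : (⊤ : Submodule F (ι → F)) ≠ ⊥ := by
    intro h
    have h3 : finrank F (⊤ : Submodule F (ι → F)) = 0 := by
      rw [h, finrank_bot]
    rw [finrank_top] at h3
    omega
  obtain ⟨v, -, hv⟩ := exists_nonsing hnd hne
  have hv0 : v ≠ 0 := by
    rintro rfl
    exact hv (QuadraticMap.map_zero Q)
  have H' : ∀ x : GL ι F, x ∈ Cfsg.Geo.omegaGL (⇑Q) → orderOf x = r →
      ∃ W : Submodule F (ι → F), InvOn (Matrix.toLin' (x : Matrix ι ι F)) W ∧ TS Q W ∧ finrank F W = m := by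
    intro x hx ho
    have hxr : x ^ r = 1 := by
      rw [← ho]
      exact pow_orderOf_eq_one x
    refine H x hx ⟨1, ?_⟩ ?_
    · rw [hxr]
      simp
    · intro z hz
      have hzQ : ∀ w, Q (z • w) = Q w := by
        intro w
        have h1 := omega_elt_data x hx w
        rw [Matrix.toLin'_apply, hz, Matrix.smul_mulVec, Matrix.one_mulVec] at h1
        exact h1
      have hmat : (z ^ r) • (1 : Matrix ι ι F) = 1 := by
        have h1 : (x : Matrix ι ι F) ^ r = 1 := by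
          have h3 := congrArg (fun y : GL ι F => (y : Matrix ι ι F)) hxr
          simpa using h3
        rw [hz, _root_.smul_pow, one_pow] at h1
        exact h1
      have hzr : z ^ r = 1 := by
        have h1 := congrArg (fun A : Matrix ι ι F => A *ᵥ v) hmat
        simp only [Matrix.smul_mulVec, Matrix.one_mulVec] at h1
        have h3 : (z ^ r - 1) • v = 0 := by
          rw [sub_smul, one_smul, h1, sub_self]
        have h4 := (smul_eq_zero.mp h3).resolve_right hv0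
        linear_combination h4
      have hz1 := not_scalar_of_order hr2 hv hzQ hzr
      have hx1 : x = 1 := by
        apply Units.ext
        rw [hz, hz1, one_smul]
        rfl
      rw [hx1, orderOf_one] at ho
      exact hrf.out.one_lt.ne ho
  have HT : TestHyp Q r d m ε hrF hr0 := testHyp_of_hex Q hQ hF hcι hr2 hrF hr0 hex H'
  have hipos : 0 < orderOf ((Fintype.card F : ℕ) : ZMod r) := orderOf_pos' rfl hrF
  subst hi
  by_cases hev : Even (orderOf ((Fintype.card F : ℕ) : ZMod r))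
  · right
    obtain ⟨e, he⟩ := hev
    have h2e : orderOf ((Fintype.card F : ℕ) : ZMod r) = 2 * e := by omega
    have h1 := forward_i_even hεσ hr2 hrF hr0 hnd hdim hσ HT h2e (by omega) hm1 hmd hj
    rw [h2e]
    exact ⟨even_two_mul e, h1⟩
  · left
    obtain ⟨h1, h3⟩ := forward_i_odd hεσ hr2 hrF hr0 hnd hdim hσ HT hev hm1 hmd hj
    exact ⟨hev, h1, h3⟩

/-- The backward direction, odd primes, `i` even. -/
theorem backward_even (Q : QuadraticForm F (ι → F)) (hnd : NDOn (polarBilin Q) ⊤) {d m σ r i : ℕ} [hrf : Fact r.Prime] (hdim : finrank F (ι → F) = 2 * d) (hd0 : 0 < d)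
    (hσ : PlusOn Q ⊤ ↔ Even σ) (hr2 : r ≠ 2) (hrF : (r : F) ≠ 0) 
    (hi : i = orderOf ((Fintype.card F : ℕ) : ZMod r)) (hev : Even i)
    (ht : (r - 1) / i + 2 * (m / i) ≤ (2 * d) / i)
    (hcase : (2 * (m % i) ≤ i ∧ (2 * d) % i = 0 ∧ Odd ((2 * d) / i + σ) ∧ (r - 1) / i + 2 * (m / i) < (2 * d) / i) ∨
        (2 * (m % i) ≤ (2 * d) % i ∧ Even ((2 * d) / i + σ)) ∨
        (2 * (m % i) < (2 * d) % i ∧ Odd ((2 * d) / i + σ)))
    (x : GL ι F) (hx : x ∈ Cfsg.Geo.omegaGL (⇑Q)) (hz : ∃ z : F, ((x ^ r : GL ι F) : Matrix ι ι F) = z • (1 : Matrix ι ι F)) :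
    ∃ W : Submodule F (ι → F), InvOn (Matrix.toLin' (x : Matrix ι ι F)) W ∧ TS Q W ∧ finrank F W = m := by
  classical
  have hne : (⊤ : Submodule F (ι → F)) ≠ ⊥ := by
    intro h
    have h3 : finrank F (⊤ : Submodule F (ι → F)) = 0 := by
      rw [h, finrank_bot]
    rw [finrank_top] at h3
    omega
  obtain ⟨v, -, hv⟩ := exists_nonsing hnd hne
  obtain ⟨z, hz⟩ := hz
  obtain ⟨T', hQT', hTr', hinv⟩ := reduce_scalar hv (omega_elt_data x hx) hr2 (toLin_pow_of_scalar x hz)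
  rw [← hdim] at ht hcase
  obtain ⟨W, h1, h3, h4⟩ := back_even rfl hr2 hrF hnd hQT' hTr' hi hev (by rw [hdim]; exact even_two_mul d) hσ ht hcase
  exact ⟨W, hinv W h1, h3, h4⟩

/-- The backward direction, odd primes, `i` odd. -/
theorem backward_odd (Q : QuadraticForm F (ι → F)) (hnd : NDOn (polarBilin Q) ⊤) {d m r i : ℕ} [hrf : Fact r.Prime] (hdim : finrank F (ι → F) = 2 * d) (hd0 : 0 < d)
    (hr2 : r ≠ 2) (hrF : (r : F) ≠ 0) 
    (hi : i = orderOf ((Fintype.card F : ℕ) : ZMod r)) (hodd : ¬ Even i)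
    (hcase : (PlusOn Q ⊤ ∧ 2 * (m % i) ≤ (2 * d) % (2 * i) ∧ 2 * m ≤ 2 * d) ∨
      (¬ PlusOn Q ⊤ ∧ ((2 * d) % (2 * i) = 0 ∨ 2 * (m % i) < (2 * d) % (2 * i)) ∧ 2 * m + 2 ≤ 2 * d))
    (x : GL ι F) (hx : x ∈ Cfsg.Geo.omegaGL (⇑Q)) (hz : ∃ z : F, ((x ^ r : GL ι F) : Matrix ι ι F) = z • (1 : Matrix ι ι F)) :
    ∃ W : Submodule F (ι → F), InvOn (Matrix.toLin' (x : Matrix ι ι F)) W ∧ TS Q W ∧ finrank F W = m := by
  classical
  have hne : (⊤ : Submodule F (ι → F)) ≠ ⊥ := by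
    intro h
    have h3 : finrank F (⊤ : Submodule F (ι → F)) = 0 := by
      rw [h, finrank_bot]
    rw [finrank_top] at h3
    omega
  obtain ⟨v, -, hv⟩ := exists_nonsing hnd hne
  obtain ⟨z, hz⟩ := hz
  obtain ⟨T', hQT', hTr', hinv⟩ := reduce_scalar hv (omega_elt_data x hx) hr2 (toLin_pow_of_scalar x hz)
  rw [← hdim] at hcase
  obtain ⟨W, h1, h3, h4⟩ := back_odd rfl hr2 hrF hnd hQT' hTr' hi hodd (by rw [hdim]; exact even_two_mul d) hcase
  exact ⟨W, hinv W h1, h3, h4⟩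

end Cfsg.Agent.Lib.OTS
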