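import Mathlib
import Cfsg.Agent.Lib.OTS.OddElt
import Cfsg.Agent.Lib.OTS.Bound

/-!
# The forward direction for odd primes different from the characteristic, odd dimension
-/

set_option autoImplicit false
set_option linter.unusedSimpArgs false
set_option linter.unusedVariables false
set_option linter.unusedSectionVars false

namespace Cfsg.Agent.Lib.OTS

open Module Polynomial Matrix QuadraticMap
open scoped MatrixGroups
open Cfsg.Agent.Lib.IsomBlock Cfsg.Agent.Lib.PrimeFactors Cfsg.Agent.Lib.DualFactors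
open Cfsg.Agent.Lib.SpTI (Fs)

universe u

variable {F : Type u} [Field F] [Fintype F]

/-- Elements with prescribed types of blocks. -/
theorem exists_x_types_q (p : ℕ) [Fact p.Prime] [CharP F p] (hodd : Odd (Fintype.card F)) {d r c' m₀ a₁ : ℕ} [hrf : Fact r.Prime] (hr2 : r ≠ 2) (hrF : (r : F) ≠ 0)
    (hc : orderOf ((Fintype.card F : ℕ) : ZMod r) = 2 * c') (hc'0 : 0 < c') (ha₁ : 0 < a₁) {h₁ : F[X]} (hh₁ : h₁ ∈ Fs F r)
    (S : Finset F[X]) (hS : ∀ h ∈ S, h ∈ Fs F r ∧ h ≠ h₁) (hd : d = (a₁ + S.card) * c' + m₀) :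
    ∃ x : GL (Unit ⊕ (Fin d ⊕ Fin d)) F, x ∈ Cfsg.Geo.omegaGL (Cfsg.quadFormOdd d F) ∧ orderOf x = r ∧
      finrank F (LinearMap.ker (aeval (Matrix.toLin' (x : Matrix (Unit ⊕ (Fin d ⊕ Fin d)) (Unit ⊕ (Fin d ⊕ Fin d)) F)) h₁)) ≤ a₁ * (2 * c') ∧
      (∀ h ∈ Fs F r, h ≠ h₁ → finrank F (LinearMap.ker (aeval (Matrix.toLin' (x : Matrix (Unit ⊕ (Fin d ⊕ Fin d)) (Unit ⊕ (Fin d ⊕ Fin d)) F)) h)) ≤ 2 * c') ∧
      finrank F (LinearMap.ker (aeval (Matrix.toLin' (x : Matrix (Unit ⊕ (Fin d ⊕ Fin d)) (Unit ⊕ (Fin d ⊕ Fin d)) F)) (X - C 1 : F[X]))) ≤ 2 * m₀ + 1 := by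
  classical
  have hr0 : r ≠ 0 := hrf.out.ne_zero
  have hFI : Fs F r = Idx F r := Fs_eq_Idx
  rw [hFI] at hh₁
  let a : ↥(Idx F r) → ℕ := fun j => (if (j : F[X]) = h₁ then a₁ else 0) + (if (j : F[X]) ∈ S then 1 else 0)
  have hsum : ∑ j, a j = a₁ + S.card := by
    simp only [a]
    rw [Finset.sum_add_distrib]
    have h1 : ∑ j : ↥(Idx F r), (if (j : F[X]) = h₁ then a₁ else 0) = a₁ := by
      rw [Finset.sum_coe_sort (Idx F r) (fun x => if x = h₁ then a₁ else 0), Finset.sum_ite_eq' , if_pos hh₁]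
    have h2 : ∑ j : ↥(Idx F r), (if (j : F[X]) ∈ S then 1 else 0) = S.card := by
      rw [Finset.sum_coe_sort (Idx F r) (fun x => if x ∈ S then 1 else 0), Finset.sum_boole]
      simp only [Nat.cast_id]
      congr 1
      ext x
      simp only [Finset.mem_filter]
      constructor
      · exact fun h => h.2
      · intro h
        refine ⟨?_, h⟩
        rw [← hFI]
        exact (hS x h).1
    rw [h1, h2]
  have ha0 : a ≠ 0 := by
    intro h0
    have h1 : a ⟨h₁, hh₁⟩ = 0 := by rw [h0]; rfl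
    simp only [a, if_true] at h1
    omega
  have hev : Even (orderOf ((Fintype.card F : ℕ) : ZMod r)) := ⟨c', by omega⟩
  have hinv : a ∘ dl (σ := RingHom.id F) (fun x => rfl) rfl hrF hr0 = a := by
    funext j
    show a _ = a j
    rw [(dl_fixed_iff hr2 hrF hr0 j).mpr hev]
  have hle : orderOf ((Fintype.card F : ℕ) : ZMod r) * ∑ j, a j ≤ 2 * d + 1 := by
    rw [hsum, hc, hd]
    nlinarith
  obtain ⟨x, hx1, hx2, hx3, hx4⟩ := exists_omega_elt p hodd d hr2 hrF hr0 a ha0 hinv hle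
  refine ⟨x, hx1, hx2, ?_, ?_, ?_⟩
  · have h1 := hx3 ⟨h₁, hh₁⟩
    have h2 : a ⟨h₁, hh₁⟩ = a₁ := by
      have hns : h₁ ∉ S := fun hmem => (hS h₁ hmem).2 rfl
      simp only [a, if_true, if_neg hns, add_zero]
    rw [h2, hc] at h1
    exact h1
  · intro h hh hne
    rw [hFI] at hh
    have h1 := hx3 ⟨h, hh⟩
    have h2 : a ⟨h, hh⟩ ≤ 1 := by
      simp only [a, if_neg hne, zero_add]
      split_ifs <;> omega
    rw [hc] at h1
    calc _ ≤ _ := h1
      _ ≤ 1 * (2 * c') := Nat.mul_le_mul_right _ h2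
      _ = 2 * c' := one_mul _
  · rw [hsum, hc] at hx4
    refine hx4.trans (le_of_eq ?_)
    have h3 : 2 * d + 1 = 2 * c' * (a₁ + S.card) + (2 * m₀ + 1) := by
      rw [hd]
      ring
    omega

/-- The basic element. -/
theorem exists_x_basic_q (p : ℕ) [Fact p.Prime] [CharP F p] (hodd : Odd (Fintype.card F)) {d r c' s m₀ : ℕ} [hrf : Fact r.Prime] (hr2 : r ≠ 2) (hrF : (r : F) ≠ 0)
    (hb : blockDim r (Fintype.card F) = 2 * c') (hs : 0 < s) (hd : d = s * c' + m₀) :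
    ∃ x : GL (Unit ⊕ (Fin d ⊕ Fin d)) F, x ∈ Cfsg.Geo.omegaGL (Cfsg.quadFormOdd d F) ∧ orderOf x = r ∧
      finrank F (LinearMap.ker (aeval (Matrix.toLin' (x : Matrix (Unit ⊕ (Fin d ⊕ Fin d)) (Unit ⊕ (Fin d ⊕ Fin d)) F)) (X - C 1 : F[X]))) ≤ 2 * m₀ + 1 := by
  classical
  have hr0 : r ≠ 0 := hrf.out.ne_zero
  have hr := hrf.out
  have hcard := card_Idx (F := F) (r := r) hrF
  have hne : Nonempty ↥(Idx F r) := by
    by_contra hemp
    rw [not_nonempty_iff] at hemp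
    rw [Fintype.card_eq_zero, zero_mul] at hcard
    have := hr.two_le
    omega
  obtain ⟨j₀⟩ := hne
  by_cases hev : Even (orderOf ((Fintype.card F : ℕ) : ZMod r))
  · have hb' : orderOf ((Fintype.card F : ℕ) : ZMod r) = 2 * c' := by
      rw [← hb]
      unfold blockDim
      rw [if_pos hev]
    let a : ↥(Idx F r) → ℕ := fun j => if j = j₀ then s else 0
    have hsum : ∑ j, a j = s := by
      simp only [a]
      rw [Finset.sum_ite_eq' , if_pos (Finset.mem_univ _)]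
    have ha0 : a ≠ 0 := by
      intro h0
      have h1 : a j₀ = 0 := by rw [h0]; rfl
      simp only [a, if_true] at h1
      omega
    have hinv : a ∘ dl (σ := RingHom.id F) (fun x => rfl) rfl hrF hr0 = a := by
      funext j
      show a _ = a j
      rw [(dl_fixed_iff hr2 hrF hr0 j).mpr hev]
    have hle : orderOf ((Fintype.card F : ℕ) : ZMod r) * ∑ j, a j ≤ 2 * d + 1 := by
      rw [hsum, hb', hd]
      nlinarith
    obtain ⟨x, hx1, hx2, -, hx4⟩ := exists_omega_elt p hodd d hr2 hrF hr0 a ha0 hinv hle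
    refine ⟨x, hx1, hx2, ?_⟩
    rw [hsum, hb'] at hx4
    refine hx4.trans (le_of_eq ?_)
    have h3 : 2 * d + 1 = 2 * c' * s + (2 * m₀ + 1) := by
      rw [hd]
      ring
    omega
  · have hb' : orderOf ((Fintype.card F : ℕ) : ZMod r) = c' := by
      have h1 : 2 * orderOf ((Fintype.card F : ℕ) : ZMod r) = 2 * c' := by
        rw [← hb]
        unfold blockDim
        rw [if_neg hev]
      omega
    let D := dl (F := F) (r := r) (σ := RingHom.id F) (fun x => rfl) rfl hrF hr0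
    have hD : ∀ j, D (D j) = j := fun j => dl_dl (σ := RingHom.id F) (fun x => rfl) rfl hrF hr0 j
    have hj₁ : D j₀ ≠ j₀ := fun h => hev ((dl_fixed_iff hr2 hrF hr0 j₀).mp h)
    let a : ↥(Idx F r) → ℕ := fun j => (if j = j₀ then s else 0) + (if j = D j₀ then s else 0)
    have hsum : ∑ j, a j = s + s := by
      simp only [a]
      rw [Finset.sum_add_distrib, Finset.sum_ite_eq', Finset.sum_ite_eq', if_pos (Finset.mem_univ _), if_pos (Finset.mem_univ _)]
    have ha0 : a ≠ 0 := by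
      intro h0
      have h1 : a j₀ = 0 := by rw [h0]; rfl
      simp only [a, if_true] at h1
      omega
    have hinv : a ∘ D = a := by
      funext j
      show a (D j) = a j
      simp only [a]
      have e1 : (D j = j₀) ↔ (j = D j₀) := by
        constructor
        · intro h
          rw [← h, hD]
        · intro h
          rw [h, hD]
      have e2 : (D j = D j₀) ↔ (j = j₀) := by
        constructor
        · intro h
          have := congrArg D h
          rwa [hD, hD] at this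
        · intro h
          rw [h]
      simp only [e1, e2]
      ring
    have hle : orderOf ((Fintype.card F : ℕ) : ZMod r) * ∑ j, a j ≤ 2 * d + 1 := by
      rw [hsum, hb', hd]
      nlinarith
    obtain ⟨x, hx1, hx2, -, hx4⟩ := exists_omega_elt p hodd d hr2 hrF hr0 a ha0 hinv hle
    refine ⟨x, hx1, hx2, ?_⟩
    rw [hsum, hb'] at hx4
    refine hx4.trans (le_of_eq ?_)
    have h3 : 2 * d + 1 = c' * (s + s) + (2 * m₀ + 1) := by
      rw [hd]
      ring
    omega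

set_option maxHeartbeats 1000000 in
/-- The forward direction for odd primes. -/
theorem forward_odd_q (p : ℕ) [Fact p.Prime] [CharP F p] {r q d : ℕ} [hrf : Fact r.Prime] (hq : Fintype.card F = q) (hodd : Odd q) (hr2 : r ≠ 2) (hrF : (r : F) ≠ 0) (hd : 0 < d) {m : ℕ} (hm1 : 1 ≤ m) (hmd : m ≤ d)
    {i c : ℕ} (hi : i = orderOf (q : ZMod r)) (hc : c = if Even i then i else 2 * i)
    (hj : ∃ j < m, r ∣ q ^ (2 * (d - j)) - 1)
    (H : ∀ x : GL (Unit ⊕ (Fin d ⊕ Fin d)) F, x ∈ Cfsg.Geo.omegaGL (Cfsg.quadFormOdd d F) → orderOf x = r →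
      ∃ W : Submodule F (Unit ⊕ (Fin d ⊕ Fin d) → F), InvOn (Matrix.toLin' (x : Matrix (Unit ⊕ (Fin d ⊕ Fin d)) (Unit ⊕ (Fin d ⊕ Fin d)) F)) W ∧
        TS (Cfsg.Agent.Lib.OrthoCount.qOdd d F) W ∧ finrank F W = m) :
    i ≤ m ∧ 2 * (m % i) < (2 * d + 1) % c ∧ (Odd i ∨ (r - 1) / i + 2 * (m / i) ≤ (2 * d + 1) / i) := by
  classical
  subst hq
  set q := Fintype.card F with hq
  have hr := hrf.out
  have hr0 := hr.ne_zero
  have hipos : 0 < i := by
    rw [hi]
    exact orderOf_pos' rfl hrF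
  set Q := Cfsg.Agent.Lib.OrthoCount.qOdd d F with hQdef
  have hnd' := Cfsg.Agent.S2673.nd_odd hodd d
  have hnd : NDOn (polarBilin Q) ⊤ := fun v _ hv => hnd' v fun w => hv w trivial
  have hB := goodForm_polar Q
  -- properties of elements
  have hQT : ∀ x : GL (Unit ⊕ (Fin d ⊕ Fin d)) F, x ∈ Cfsg.Geo.omegaGL (Cfsg.quadFormOdd d F) →
      ∀ v, Q (Matrix.toLin' (x : Matrix (Unit ⊕ (Fin d ⊕ Fin d)) (Unit ⊕ (Fin d ⊕ Fin d)) F) v) = Q v := by
    intro x hx v
    rw [Matrix.toLin'_apply, hQdef, Cfsg.Agent.Lib.OrthoCount.qOdd_apply, Cfsg.Agent.Lib.OrthoCount.qOdd_apply]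
    exact Cfsg.Agent.H97.Asch.omegaGL_isometry hx v
  have hTrX : ∀ x : GL (Unit ⊕ (Fin d ⊕ Fin d)) F, orderOf x = r → (Matrix.toLin' (x : Matrix (Unit ⊕ (Fin d ⊕ Fin d)) (Unit ⊕ (Fin d ⊕ Fin d)) F)) ^ r = 1 := by
    intro x hx
    rw [Cfsg.Agent.Lib.SpRealize.toLin_pow]
    have h1 : (x : Matrix (Unit ⊕ (Fin d ⊕ Fin d)) (Unit ⊕ (Fin d ⊕ Fin d)) F) ^ r = 1 := by
      have h2 := pow_orderOf_eq_one x
      rw [hx] at h2
      have h3 := congrArg (fun y : GL (Unit ⊕ (Fin d ⊕ Fin d)) F => (y : Matrix (Unit ⊕ (Fin d ⊕ Fin d)) (Unit ⊕ (Fin d ⊕ Fin d)) F)) h2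
      simpa using h3
    rw [h1, Matrix.toLin'_one]
    rfl
  have hbd : ∀ x : GL (Unit ⊕ (Fin d ⊕ Fin d)) F, x ∈ Cfsg.Geo.omegaGL (Cfsg.quadFormOdd d F) → orderOf x = r → ∀ m₀ : ℕ,
      finrank F (LinearMap.ker (aeval (Matrix.toLin' (x : Matrix (Unit ⊕ (Fin d ⊕ Fin d)) (Unit ⊕ (Fin d ⊕ Fin d)) F)) (X - C 1 : F[X]))) ≤ 2 * m₀ + 1 →
      ∀ W' : Submodule F (Unit ⊕ (Fin d ⊕ Fin d) → F), W' ≤ fixS (Matrix.toLin' (x : Matrix (Unit ⊕ (Fin d ⊕ Fin d)) (Unit ⊕ (Fin d ⊕ Fin d)) F)) ⊤ → TS Q W' → finrank F W' ≤ m₀ := by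
    intro x hx hxr m₀ hf W' hW' hts
    have h1 := ti_bound_on' hB (nd_fixS hB (polar_iso (hQT x hx)) hr0 hrF (hTrX x hxr) hnd (fun _ _ => trivial)) hW' hts.ti
    have h2 : fixS (Matrix.toLin' (x : Matrix (Unit ⊕ (Fin d ⊕ Fin d)) (Unit ⊕ (Fin d ⊕ Fin d)) F)) ⊤ =
        LinearMap.ker (aeval (Matrix.toLin' (x : Matrix (Unit ⊕ (Fin d ⊕ Fin d)) (Unit ⊕ (Fin d ⊕ Fin d)) F)) (X - C 1 : F[X])) := by
      ext v
      rw [mem_fixS, LinearMap.mem_ker]
      simp [sub_eq_zero]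
    rw [h2] at h1
    omega
  -- the block size
  obtain ⟨j, hjm, hjd⟩ := hj
  have hq1 : 1 ≤ q := by
    rw [hq]
    exact Fintype.card_pos
  have hdvdj : i ∣ 2 * (d - j) := by
    rw [hi]
    apply orderOf_dvd_of_pow_eq_one
    have h1 : ((q ^ (2 * (d - j)) - 1 : ℕ) : ZMod r) = 0 := (ZMod.natCast_eq_zero_iff _ _).mpr hjd
    rw [Nat.cast_sub (Nat.one_le_pow _ _ hq1)] at h1
    push_cast at h1
    exact sub_eq_zero.mp h1
  obtain ⟨c', hb, hcc, hcpos, hci, hdvd, hev⟩ : ∃ c', blockDim r q = 2 * c' ∧ c = 2 * c' ∧ 0 < c' ∧ c' ≤ i ∧ c' ∣ d - j ∧ (Even i → i = 2 * c') := by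
    rcases Nat.even_or_odd i with he | ho
    · obtain ⟨k, hk⟩ := he
      refine ⟨k, ?_, ?_, by omega, by omega, ?_, fun _ => by omega⟩
      · unfold blockDim
        rw [← hi, if_pos ⟨k, hk⟩]
        omega
      · rw [hc, if_pos ⟨k, hk⟩]
        omega
      · have h1 : 2 * k ∣ 2 * (d - j) := by
          rw [show 2 * k = i by omega]
          exact hdvdj
        exact Nat.dvd_of_mul_dvd_mul_left (by norm_num) h1
    · have hne : ¬ Even i := Nat.not_even_iff_odd.mpr ho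
      refine ⟨i, ?_, ?_, hipos, le_rfl, ?_, fun h => absurd h hne⟩
      · unfold blockDim
        rw [← hi, if_neg hne]
      · rw [hc, if_neg hne]
      · exact Nat.Coprime.dvd_of_dvd_mul_left (Nat.coprime_two_right.mpr ho) hdvdj
  have hdj : 0 < d - j := by omega
  have hcd : c' ≤ d - j := Nat.le_of_dvd hdj hdvd
  have hcd' : c' ≤ d := by omega
  -- the basic element
  have hd' : d = d / c' * c' + d % c' := (Nat.div_add_mod' d c').symm
  have hspos : 0 < d / c' := Nat.div_pos hcd' hcpos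
  have hm₀ : d % c' < c' := Nat.mod_lt _ hcpos
  obtain ⟨x, hx, hxr, hxf⟩ := exists_x_basic_q p hodd hr2 hrF hb hspos hd'
  obtain ⟨W, hW1, hW2, hW3⟩ := H x hx hxr
  obtain ⟨a, b, hab, hbm⟩ := bound_basic_q (Q := Q) rfl hrF (hTrX x hxr) (hbd x hx hxr _ hxf) hW1 hW2
  rw [hW3, ← hi] at hab
  have hbi : b < i := by omega
  have hmod : m % i = b := by
    rw [hab, Nat.mul_add_mod_self_right, Nat.mod_eq_of_lt hbi]
  have him : i ≤ m := by
    by_contra hlt
    rw [not_le] at hlt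
    have ha0 : a = 0 := by
      by_contra hne
      have : 1 * i ≤ a * i := Nat.mul_le_mul_right _ (Nat.pos_of_ne_zero hne)
      omega
    rw [ha0, zero_mul, zero_add] at hab
    obtain ⟨k, hk⟩ := hdvd
    have hdk : d = j + c' * k := by omega
    have h5 : (j + c' * k) % c' = j := by
      rw [Nat.add_mul_mod_self_left, Nat.mod_eq_of_lt (by omega)]
    rw [← hdk] at h5
    omega
  have hkk : (2 * d + 1) % c = 2 * (d % c') + 1 := by
    rw [hcc]
    have h1 : 2 * d + 1 = 2 * c' * (d / c') + (2 * (d % c') + 1) := by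
      have h2 : c' * (d / c') + d % c' = d := Nat.div_add_mod d c'
      have h3 : 2 * c' * (d / c') = 2 * (c' * (d / c')) := by ring
      omega
    rw [h1, Nat.mul_add_mod, Nat.mod_eq_of_lt (by omega)]
  have h2part : 2 * (m % i) < (2 * d + 1) % c := by
    rw [hmod, hkk]
    omega
  refine ⟨him, h2part, ?_⟩
  rcases Nat.even_or_odd i with he | ho
  swap
  · exact Or.inl ho
  right
  have hi2 : i = 2 * c' := hev he
  have hi2' : orderOf (q : ZMod r) = 2 * c' := by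
    rw [← hi]
    exact hi2
  have hcard : (Fs F r).card * i = r - 1 := by
    rw [hi]
    exact Cfsg.Agent.Lib.SpTI.card_Fs rfl hrF
  have ht : (r - 1) / i = (Fs F r).card := by
    rw [← hcard]
    exact Nat.mul_div_cancel _ hipos
  have hn' : (2 * d + 1) / i = d / c' := by
    rw [hi2]
    have h1 : 2 * d + 1 = 2 * c' * (d / c') + (2 * (d % c') + 1) := by
      have h2 : c' * (d / c') + d % c' = d := Nat.div_add_mod d c'
      have h3 : 2 * c' * (d / c') = 2 * (c' * (d / c')) := by ring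
      omega
    rw [h1, Nat.mul_add_div (by omega), Nat.div_eq_of_lt (show 2 * (d % c') + 1 < 2 * c' by omega), add_zero]
  rw [ht, hn']
  set t := (Fs F r).card with htdef
  have htpos : 0 < t := by
    rcases Nat.eq_zero_or_pos t with h0 | h0
    · rw [h0, zero_mul] at hcard
      have := hr.two_le
      omega
    · exact h0
  obtain ⟨h₁, hh₁⟩ := Finset.card_pos.mp htpos
  have hcarderase : ((Fs F r).erase h₁).card = t - 1 := Finset.card_erase_of_mem hh₁
  by_contra hcon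
  rcases lt_or_ge (d / c') t with hlt | hge
  · obtain ⟨S, hSsub, hScard⟩ := Finset.exists_subset_card_eq (s := (Fs F r).erase h₁) (n := d / c' - 1) (by rw [hcarderase]; omega)
    have hS : ∀ h ∈ S, h ∈ Fs F r ∧ h ≠ h₁ := fun h hh => by
      have := hSsub hh
      rw [Finset.mem_erase] at this
      exact ⟨this.2, this.1⟩
    have hde : d = (1 + S.card) * c' + d % c' := by
      rw [hScard, show 1 + (d / c' - 1) = d / c' by omega]
      exact hd'
    obtain ⟨y, hy, hyr, hy1, hy2, hy3⟩ := exists_x_types_q p hodd hr2 hrF hi2' hcpos one_pos hh₁ S hS hde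
    obtain ⟨W', hW1', hW2', hW3'⟩ := H y hy hyr
    obtain ⟨a', b', hab', ha', hb'⟩ := bound_types_q (Q := Q) rfl hrF hnd (hQT y hy) (hTrX y hyr) hi2' hcpos hh₁ hy1 hy2 (hbd y hy hyr _ hy3) hW1' hW2'
    have ha0 : a' = 0 := by omega
    rw [hW3', ha0, zero_mul, zero_add] at hab'
    omega
  · obtain ⟨s, hts, hsn, hse, hns1⟩ : ∃ s, t ≤ s ∧ s ≤ d / c' ∧ Even (s - t) ∧ d / c' ≤ s + 1 := by
      rcases Nat.even_or_odd (d / c' - t) with h | h
      · exact ⟨d / c', hge, le_rfl, h, by omega⟩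
      · have hpos : 0 < d / c' - t := h.pos
        refine ⟨d / c' - 1, by omega, by omega, ?_, by omega⟩
        obtain ⟨k, hk⟩ := h
        exact ⟨k, by omega⟩
    have hsc : s * c' ≤ d / c' * c' := Nat.mul_le_mul_right _ hsn
    have hde : d = ((s - t + 1) + ((Fs F r).erase h₁).card) * c' + (d - s * c') := by
      rw [hcarderase, show s - t + 1 + (t - 1) = s by omega]
      omega
    have hm₀lt : d - s * c' < 2 * c' := by
      have h6 : d / c' * c' ≤ (s + 1) * c' := Nat.mul_le_mul_right _ hns1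
      have e : (s + 1) * c' = s * c' + c' := by ring
      omega
    have hS : ∀ h ∈ (Fs F r).erase h₁, h ∈ Fs F r ∧ h ≠ h₁ := fun h hh => by
      rw [Finset.mem_erase] at hh
      exact ⟨hh.2, hh.1⟩
    obtain ⟨y, hy, hyr, hy1, hy2, hy3⟩ := exists_x_types_q p hodd hr2 hrF hi2' hcpos (by omega) hh₁ _ hS hde
    obtain ⟨W', hW1', hW2', hW3'⟩ := H y hy hyr
    obtain ⟨a', b', hab', ha', hb'⟩ := bound_types_q (Q := Q) rfl hrF hnd (hQT y hy) (hTrX y hyr) hi2' hcpos hh₁ hy1 hy2 (hbd y hy hyr _ hy3) hW1' hW2'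
    rw [hW3', ← hi2] at hab'
    have hdiv : m / i = a' := by
      rw [hab', add_comm, Nat.add_mul_div_right _ _ hipos, Nat.div_eq_of_lt (by omega), zero_add]
    obtain ⟨k, hk⟩ := hse
    apply hcon
    rw [hdiv]
    omega

end Cfsg.Agent.Lib.OTS
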