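import Mathlib
import Cfsg.Agent.Lib.OTS.Two
import Cfsg.Agent.Lib.OTS.OddElt

/-!
# Involutions of `Ω` in odd dimension
-/

set_option autoImplicit false
set_option linter.unusedSimpArgs false
set_option linter.unusedVariables false
set_option linter.unusedSectionVars false

namespace Cfsg.Agent.Lib.OTS

open Module Matrix QuadraticMap Cfsg.Agent.Lib.IsomBlock
open scoped MatrixGroups
open Cfsg.Agent.Lib.OrthGroup Cfsg.Agent.Lib.OrthOmega Cfsg.Agent.Lib.OrthMatrix Cfsg.Agent.Lib.OrthoCount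

variable {F : Type*} [Field F] [Fintype F]

theorem two_bad_core {d m : ℕ} (hd : 1 ≤ d) (hodd : Odd (Fintype.card F)) (hsq : ∀ c : F, c * c ≠ -1)
    (H : ∀ x : GL (Unit ⊕ (Fin d ⊕ Fin d)) F, x ∈ Cfsg.Geo.omegaGL (Cfsg.quadFormOdd d F) → orderOf x = 2 →
      ∃ W : Submodule F (Unit ⊕ (Fin d ⊕ Fin d) → F), InvOn (Matrix.toLin' (x : Matrix (Unit ⊕ (Fin d ⊕ Fin d)) (Unit ⊕ (Fin d ⊕ Fin d)) F)) W ∧
        TS (qOdd d F) W ∧ finrank F W = m) : m < d := by
  classical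
  have h2 : (2 : F) ≠ 0 := Cfsg.Agent.H97.Asch.two_ne_of_odd_card hodd
  set Q := qOdd d F with hQdef
  have hnd' := Cfsg.Agent.S2673.nd_odd hodd d
  have hnd : NDOn (polarBilin Q) ⊤ := fun v _ hv => hnd' v fun w => hv w trivial
  have hQnd : (B Q).Nondegenerate := Cfsg.Agent.Lib.QuadFF.nondegenerate_of_ND hnd'
  have hF : (∃ a : F, a ≠ 0 ∧ a ≠ 1) ∨ finrank F (Unit ⊕ (Fin d ⊕ Fin d) → F) ≠ 4 := Or.inl (hF_of_odd hodd)
  let i₀ : Fin d := ⟨0, hd⟩
  let u : Unit ⊕ (Fin d ⊕ Fin d) → F := Pi.single (Sum.inl ()) 1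
  let v : Unit ⊕ (Fin d ⊕ Fin d) → F := Pi.single (Sum.inr (Sum.inl i₀)) 1 + Pi.single (Sum.inr (Sum.inr i₀)) 1
  have hu : Q u = 1 := by
    rw [hQdef, qOdd_apply]
    simp [Cfsg.quadFormOdd, u]
  have hv : Q v = 1 := by
    rw [hQdef, qOdd_apply]
    simp only [Cfsg.quadFormOdd, v, u, Pi.add_apply]
    simp [Pi.single_apply, ite_and]
  have huv : polar Q u v = 0 := by
    rw [polar, hu, hv, hQdef, qOdd_apply]
    simp only [Cfsg.quadFormOdd, v, u, Pi.add_apply]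
    simp [Pi.single_apply, ite_and]
  obtain ⟨g, hg, hgo, hact⟩ := exists_two_refl (Q := Q) h2 hQnd hF hu hv huv
  have hfun : Cfsg.quadFormOdd d F = ⇑Q := funext fun v => (qOdd_apply d v).symm
  have hmem : (g : GL (Unit ⊕ (Fin d ⊕ Fin d)) F) ∈ Cfsg.Geo.omegaGL (Cfsg.quadFormOdd d F) := by
    rw [hfun]
    exact ⟨g, hg, rfl⟩
  have hord : orderOf (g : GL (Unit ⊕ (Fin d ⊕ Fin d)) F) = 2 := by
    rw [← hgo]
    exact Subgroup.orderOf_coe g
  obtain ⟨W, hWinv, hWts, hWm⟩ := H _ hmem hord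
  set T : (Unit ⊕ (Fin d ⊕ Fin d) → F) →ₗ[F] (Unit ⊕ (Fin d ⊕ Fin d) → F) :=
    Matrix.toLin' ((g : GL (Unit ⊕ (Fin d ⊕ Fin d)) F) : Matrix (Unit ⊕ (Fin d ⊕ Fin d)) (Unit ⊕ (Fin d ⊕ Fin d)) F) with hT
  have hTa : ∀ y, T y = y - polar Q y v • v - polar Q y u • u := by
    intro y
    rw [hT, Matrix.toLin'_apply]
    exact hact y
  have hQT : ∀ y, Q (T y) = Q y := by
    intro y
    rw [hT, Matrix.toLin'_apply]
    have := Cfsg.Agent.H97.Asch.omegaGL_isometry hmem y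
    simpa [hfun] using this
  have hfixu : polar Q u u = 2 := by
    rw [polar_self_eq', hu, mul_one]
  have hfixv : polar Q v v = 2 := by
    rw [polar_self_eq', hv, mul_one]
  have hvu : polar Q v u = 0 := by
    rw [polar_comm]
    exact huv
  have hT2 : T ^ 2 = 1 := by
    have h1 : (g ^ 2) = 1 := by
      rw [← hgo]
      exact pow_orderOf_eq_one g
    rw [hT, Cfsg.Agent.Lib.SpRealize.toLin_pow]
    have h3 := congrArg (fun y : ↥(Cfsg.isometryGroup F ⇑Q) => ((y : GL (Unit ⊕ (Fin d ⊕ Fin d)) F) : Matrix (Unit ⊕ (Fin d ⊕ Fin d)) (Unit ⊕ (Fin d ⊕ Fin d)) F)) h1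
    have h4 : ((g : GL (Unit ⊕ (Fin d ⊕ Fin d)) F) : Matrix (Unit ⊕ (Fin d ⊕ Fin d)) (Unit ⊕ (Fin d ⊕ Fin d)) F) ^ 2 = 1 := by
      simpa using h3
    rw [h4, Matrix.toLin'_one]
    rfl
  obtain ⟨hP, hM, hMv, horth, hsup, hdim⟩ := invol_decomp h2 hnd hQT hT2
  -- `W` lies in the fixed space
  have hWfix : W ≤ fixS T ⊤ := by
    intro w hw
    have h1 : T w ∈ W := hWinv w hw
    have h3 : polar Q w v • v + polar Q w u • u ∈ W := by
      have h4 : polar Q w v • v + polar Q w u • u = w - T w := by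
        rw [hTa]
        abel
      rw [h4]
      exact W.sub_mem hw h1
    have h5 := hWts _ h3
    rw [Cfsg.Agent.Lib.OrthGroup.Q_add, Cfsg.Agent.Lib.OrthGroup.Q_smul, Cfsg.Agent.Lib.OrthGroup.Q_smul, hu, hv] at h5
    have h6 : polar Q (polar Q w v • v) (polar Q w u • u) = 0 := by
      rw [polar_smul_left, polar_smul_right, hvu]
      simp
    have h6' : B Q (polar Q w v • v) (polar Q w u • u) = 0 := h6
    rw [h6'] at h5
    have h7 : polar Q w v * polar Q w v + polar Q w u * polar Q w u = 0 := by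
      linear_combination h5
    have h8 : polar Q w u = 0 := by
      by_contra hne
      apply hsq (polar Q w v / polar Q w u)
      field_simp
      linear_combination h7
    have h9 : polar Q w v = 0 := by
      rw [h8, mul_zero, add_zero] at h7
      exact mul_self_eq_zero.mp h7
    rw [mem_fixS]
    refine ⟨trivial, ?_⟩
    rw [hTa, h8, h9]
    simp
  have hB := goodForm_polar Q
  have hbd := ti_bound_on' hB hP hWfix hWts.ti
  -- the `-1`-eigenspace has dimension at least two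
  have hTu : T u = -u := by
    rw [hTa, huv, hfixu, zero_smul, sub_zero, two_smul]
    abel
  have hTv : T v = -v := by
    rw [hTa, hfixv, hvu, zero_smul, sub_zero, two_smul]
    abel
  have huM : u ∈ fixS (-T) ⊤ := by
    rw [mem_fixS]
    refine ⟨trivial, ?_⟩
    rw [LinearMap.neg_apply, hTu, neg_neg]
  have hvM : v ∈ fixS (-T) ⊤ := by
    rw [mem_fixS]
    refine ⟨trivial, ?_⟩
    rw [LinearMap.neg_apply, hTv, neg_neg]
  have hli : LinearIndependent F ![u, v] := by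
    rw [LinearIndependent.pair_iff]
    intro a b hab
    have h3 := congrArg (fun y => polarBilin Q y u) hab
    have h4 := congrArg (fun y => polarBilin Q y v) hab
    simp only [map_add, map_smul, LinearMap.add_apply, LinearMap.smul_apply, polarBilin_apply_apply, map_zero, LinearMap.zero_apply,
      hfixu, hvu, huv, hfixv, smul_eq_mul, mul_zero, add_zero, zero_add] at h3 h4
    exact ⟨(mul_eq_zero.mp h3).resolve_right h2, (mul_eq_zero.mp h4).resolve_right h2⟩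
  have hM2 : 2 ≤ finrank F (fixS (-T) ⊤) := by
    have h3 := finrank_span_eq_card hli
    have h4 : Submodule.span F (Set.range ![u, v]) ≤ fixS (-T) ⊤ := by
      apply Submodule.span_le.mpr
      rintro _ ⟨i, rfl⟩
      fin_cases i
      · exact huM
      · exact hvM
    have h5 := Submodule.finrank_mono h4
    rw [h3] at h5
    simpa using h5
  have hcard : finrank F (Unit ⊕ (Fin d ⊕ Fin d) → F) = 2 * d + 1 := by
    simp
    ring
  rw [hcard] at hdim
  rw [hWm] at hbd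
  omega

/-- The forward direction for involutions. -/
theorem forward_two_q {d m q : ℕ} (hq : Fintype.card F = q) (hd : 1 ≤ d) (hodd : Odd q) (hq4 : q % 4 ≠ 1)
    (H : ∀ x : GL (Unit ⊕ (Fin d ⊕ Fin d)) F, x ∈ Cfsg.Geo.omegaGL (Cfsg.quadFormOdd d F) → orderOf x = 2 →
      ∃ W : Submodule F (Unit ⊕ (Fin d ⊕ Fin d) → F), InvOn (Matrix.toLin' (x : Matrix (Unit ⊕ (Fin d ⊕ Fin d)) (Unit ⊕ (Fin d ⊕ Fin d)) F)) W ∧
        TS (qOdd d F) W ∧ finrank F W = m) : m < d := by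
  subst hq
  refine two_bad_core hd hodd ?_ H
  intro c hc
  have h1 : IsSquare (-1 : F) := ⟨c, hc.symm⟩
  rw [FiniteField.isSquare_neg_one_iff] at h1
  apply h1
  obtain ⟨k, hk⟩ := hodd
  omega

/-- The backward direction for involutions. -/
theorem backward_two_q {d m q : ℕ} (hq : Fintype.card F = q) (hodd : Odd q) (hm : m < d ∨ (q % 4 = 1 ∧ m ≤ d))
    (x : GL (Unit ⊕ (Fin d ⊕ Fin d)) F) (hx : x ∈ Cfsg.Geo.omegaGL (Cfsg.quadFormOdd d F)) (hxo : orderOf x = 2) :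
    ∃ W : Submodule F (Unit ⊕ (Fin d ⊕ Fin d) → F), InvOn (Matrix.toLin' (x : Matrix (Unit ⊕ (Fin d ⊕ Fin d)) (Unit ⊕ (Fin d ⊕ Fin d)) F)) W ∧
        TS (qOdd d F) W ∧ finrank F W = m := by
  classical
  subst hq
  have h2 : (2 : F) ≠ 0 := Cfsg.Agent.H97.Asch.two_ne_of_odd_card hodd
  have hnd' := Cfsg.Agent.S2673.nd_odd hodd d
  have hnd : NDOn (polarBilin (qOdd d F)) ⊤ := fun v _ hv => hnd' v fun w => hv w trivial
  have hQnd : (B (qOdd d F)).Nondegenerate := Cfsg.Agent.Lib.QuadFF.nondegenerate_of_ND hnd'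
  have hF : (∃ a : F, a ≠ 0 ∧ a ≠ 1) ∨ finrank F (Unit ⊕ (Fin d ⊕ Fin d) → F) ≠ 4 := Or.inl (hF_of_odd hodd)
  have hfun : Cfsg.quadFormOdd d F = ⇑(qOdd d F) := funext fun v => (qOdd_apply d v).symm
  have hcard : finrank F (Unit ⊕ (Fin d ⊕ Fin d) → F) = 2 * d + 1 := by
    simp
    ring
  have hQT : ∀ y, qOdd d F (Matrix.toLin' (x : Matrix (Unit ⊕ (Fin d ⊕ Fin d)) (Unit ⊕ (Fin d ⊕ Fin d)) F) y) = qOdd d F y := by
    intro y
    rw [Matrix.toLin'_apply]
    have := Cfsg.Agent.H97.Asch.omegaGL_isometry hx y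
    simpa [hfun] using this
  have hT2 : (Matrix.toLin' (x : Matrix (Unit ⊕ (Fin d ⊕ Fin d)) (Unit ⊕ (Fin d ⊕ Fin d)) F)) ^ 2 = 1 := by
    rw [Cfsg.Agent.Lib.SpRealize.toLin_pow]
    have h1 : x ^ 2 = 1 := by
      rw [← hxo]
      exact pow_orderOf_eq_one x
    have h4 : (x : Matrix (Unit ⊕ (Fin d ⊕ Fin d)) (Unit ⊕ (Fin d ⊕ Fin d)) F) ^ 2 = 1 := by
      have h3 := congrArg (fun y : GL (Unit ⊕ (Fin d ⊕ Fin d)) F => (y : Matrix (Unit ⊕ (Fin d ⊕ Fin d)) (Unit ⊕ (Fin d ⊕ Fin d)) F)) h1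
      simpa using h3
    rw [h4, Matrix.toLin'_one]
    rfl
  rw [hfun] at hx
  obtain ⟨g, hg, rfl⟩ := hx
  refine exists_ts_invol_omega (Q := qOdd d F) h2 hQnd hF g hg (fun y => ?_) hnd hQT hT2 ?_
  · simp [Matrix.toLin'_apply]
  · rw [hcard]
    rcases hm with hm | ⟨hm1, hm⟩
    · left
      omega
    · right
      refine ⟨?_, by omega⟩
      have h1 : IsSquare (-1 : F) := by
        rw [FiniteField.isSquare_neg_one_iff]
        omega
      obtain ⟨c, hc⟩ := h1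
      exact ⟨c, hc.symm⟩

end Cfsg.Agent.Lib.OTS
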